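import Cfsg.Agent.Lib.MinIndex.Orth.Levi2

/-!
An action of the Siegel group seen from a hyperbolic pair: the root elements, the subgroups of the
root group fixing a point, the Levi-type group attached to the pair and the torus element of the
pair.
-/

set_option autoImplicit false
set_option linter.unusedSectionVars false

namespace CfsgLib.MinIndexOrth

open QuadraticMap Module CfsgLib.ClassicalForms

variable {F V : Type*} [Field F] [AddCommGroup V] [Module F V] {Q : QuadraticForm F V}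

/-- The underlying linear map of an element of the Siegel group. -/
abbrev ap (g : siegelGroup Q) : V ≃ₗ[F] V := (((g : siegelGroup Q) : orth Q) : V ≃ₗ[F] V)

lemma ap_mul (g k : siegelGroup Q) (x : V) : ap (g * k) x = ap g (ap k x) := rfl

lemma ap_one (x : V) : ap (1 : siegelGroup Q) x = x := rfl

lemma ap_inv (g : siegelGroup Q) (x : V) : ap g⁻¹ (ap g x) = x := orth_inv_apply (g : orth Q) x

lemma ap_inv' (g : siegelGroup Q) (x : V) : ap g (ap g⁻¹ x) = x := orth_apply_inv (g : orth Q) x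

lemma Q_ap (g : siegelGroup Q) (x : V) : Q (ap g x) = Q x := orth_apply _ _

lemma polar_ap (g : siegelGroup Q) (x y : V) : polar Q (ap g x) (ap g y) = polar Q x y :=
  polar_apply _ _ _

lemma isHypPair_ap (g : siegelGroup Q) {u u' : V} (h : IsHypPair Q (u, u')) :
    IsHypPair Q (ap g u, ap g u') :=
  ⟨(Q_ap g u).trans h.1, (Q_ap g u').trans h.2.1, (polar_ap g u u').trans h.2.2⟩

open Classical in
/-- The root element of two vectors; `1` unless they form a valid datum. -/
noncomputable def root (Q : QuadraticForm F V) (u w : V) : siegelGroup Q :=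
  if h : Q u = 0 ∧ polar Q u w = 0 then ⟨siegel Q u w h.1 h.2, siegel_mem_siegelGroup _ _⟩ else 1

lemma root_val {u w : V} (hu : Q u = 0) (hw : polar Q u w = 0) :
    (root Q u w : orth Q) = siegel Q u w hu hw := by
  rw [root, dif_pos ⟨hu, hw⟩]

lemma root_of_not {u w : V} (h : ¬(Q u = 0 ∧ polar Q u w = 0)) : root Q u w = 1 := dif_neg h

lemma ap_root {u w : V} (hu : Q u = 0) (hw : polar Q u w = 0) (x : V) :
    ap (root Q u w) x = x + polar Q x u • w - (polar Q x w + Q w * polar Q x u) • u := by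
  rw [ap, root_val hu hw, siegel_apply]

lemma root_zero (u : V) : root Q u 0 = 1 := by
  by_cases hu : Q u = 0
  · exact Subtype.ext (by rw [root_val hu (polar_zero_right _ _), siegel_zero]; rfl)
  · exact root_of_not fun h => hu h.1

lemma root_add {u w w' : V} (hu : Q u = 0) (hw : polar Q u w = 0) (hw' : polar Q u w' = 0) :
    root Q u w * root Q u w' = root Q u (w + w') := by
  apply Subtype.ext
  rw [Subgroup.coe_mul, root_val hu hw, root_val hu hw',
    root_val hu (by rw [polar_add_right, hw, hw', add_zero]), siegel_mul]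

lemma root_conj (g : siegelGroup Q) (u w : V) :
    g * root Q u w * g⁻¹ = root Q (ap g u) (ap g w) := by
  by_cases h : Q u = 0 ∧ polar Q u w = 0
  · apply Subtype.ext
    rw [root_val ((Q_ap g u).trans h.1) ((polar_ap g u w).trans h.2), Subgroup.coe_mul,
      Subgroup.coe_mul, Subgroup.coe_inv, root_val h.1 h.2, conj_siegel]
  · rw [root_of_not h, root_of_not (by rwa [Q_ap, polar_ap]), mul_one, mul_inv_cancel]

lemma root_smul {c : F} (hc : c ≠ 0) (u w : V) : root Q (c • u) w = root Q u (c • w) := by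
  by_cases h : Q u = 0 ∧ polar Q u w = 0
  · apply Subtype.ext
    rw [root_val (by rw [QuadraticMap.map_smul, h.1, smul_zero])
      (by rw [polar_smul_left, h.2, smul_zero]), root_val h.1
      (by rw [polar_smul_right, h.2, smul_zero]), siegel_smul h.1 h.2 c]
  · rw [root_of_not, root_of_not]
    · exact fun h' => h ⟨h'.1, by simpa [polar_smul_right, hc] using h'.2⟩
    · exact fun h' => h ⟨by simpa [QuadraticMap.map_smul, hc] using h'.1,
        by simpa [polar_smul_left, hc] using h'.2⟩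

lemma root_swap {u w : V} (hu : Q u = 0) (hw0 : Q w = 0) : root Q w (-u) = root Q u w := by
  by_cases hw : polar Q u w = 0
  · apply Subtype.ext
    rw [root_val hu hw, root_val hw0 (by rw [polar_neg_right, polar_comm, hw, neg_zero]),
      siegel_swap hu hw hw0]
  · rw [root_of_not fun h => hw h.2, root_of_not fun h => hw ?_]
    have := h.2
    rwa [polar_neg_right, neg_eq_zero, polar_comm] at this

lemma root_add_smul {u w : V} (hu : Q u = 0) (hw : polar Q u w = 0) (c : F) :
    root Q u (w + c • u) = root Q u w := by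
  apply Subtype.ext
  rw [root_val hu (by simp [polar_add_right, polar_smul_right, hw, polar_self_mul, hu]),
    root_val hu hw, siegel_add_smul]

lemma root_eq_proj {u u' : V} (h : IsHypPair Q (u, u')) {w : V} (hw : polar Q u w = 0) :
    root Q u w = root Q u (proj2 h w : V) := by
  have e : w = (proj2 h w : V) + polar Q u' w • u := by
    conv_lhs => rw [decomp2 h w, hw, zero_smul, add_zero]
    abel
  conv_lhs => rw [e, root_add_smul h.1 (mem_perp2.1 (proj2 h w).2).1]

lemma eq_zero_of_root {u u' : V} (h : IsHypPair Q (u, u')) {w : perp2 Q u u'}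
    (hw : root Q u (w : V) = 1) : w = 0 := by
  obtain ⟨g1, g2⟩ := mem_perp2.1 w.2
  have h1 := ap_root h.1 g1 u'
  rw [hw, ap_one, polar_comm Q u' u, h.2.2, g2] at h1
  have h2 := congrArg (proj2 h) h1
  simp only [map_add, map_sub, map_smul, proj2_coe, one_smul, zero_add, mul_one] at h2
  have e1 : proj2 h u = 0 := by
    ext
    simp [coe_proj2, polar_self_mul, h.1, polar_comm Q u' u, h.2.2]
  rw [e1, smul_zero, sub_zero, left_eq_add] at h2
  exact h2

/-- The vectors whose root element fixes the point. -/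
noncomputable def K (Q : QuadraticForm F V) {Ω : Type*} [MulAction (siegelGroup Q) Ω] (u : V)
    (z : Ω) : AddSubgroup V where
  carrier := {w | polar Q u w = 0 ∧ root Q u w • z = z}
  zero_mem' := ⟨polar_zero_right _ _, by rw [root_zero, one_smul]⟩
  add_mem' := fun {a b} ha hb => by
    refine ⟨by rw [polar_add_right, ha.1, hb.1, add_zero], ?_⟩
    by_cases hu : Q u = 0
    · rw [← root_add hu ha.1 hb.1, mul_smul, hb.2, ha.2]
    · rw [root_of_not fun h => hu h.1, one_smul]
  neg_mem' := fun {a} ha => by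
    refine ⟨by rw [polar_neg_right, ha.1, neg_zero], ?_⟩
    by_cases hu : Q u = 0
    · have h1 : root Q u (-a) * root Q u a = 1 := by
        rw [root_add hu (by rw [polar_neg_right, ha.1, neg_zero]) ha.1, neg_add_cancel, root_zero]
      conv_lhs => rw [← ha.2, ← mul_smul, h1, one_smul]
    · rw [root_of_not fun h => hu h.1, one_smul]

section Act

variable {Ω : Type*} [MulAction (siegelGroup Q) Ω]

lemma mem_K {u w : V} {z : Ω} : w ∈ K Q u z ↔ polar Q u w = 0 ∧ root Q u w • z = z := Iff.rfl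

lemma root_smul_ap (g : siegelGroup Q) (u w : V) (z : Ω) :
    root Q (ap g u) (ap g w) • g • z = g • root Q u w • z := by
  rw [← root_conj, ← mul_smul, ← mul_smul, inv_mul_cancel_right]

lemma root_fix_ap (g : siegelGroup Q) (u w : V) (z : Ω) :
    root Q (ap g u) (ap g w) • g • z = g • z ↔ root Q u w • z = z := by
  rw [root_smul_ap, smul_left_cancel_iff]

lemma mem_K_ap (g : siegelGroup Q) (u w : V) (z : Ω) :
    ap g w ∈ K Q (ap g u) (g • z) ↔ w ∈ K Q u z := by
  rw [mem_K, mem_K, root_fix_ap, polar_ap]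

variable (Q) in
/-- The root group of the vector acts semiregularly at the point. -/
def IsReg (u : V) (z : Ω) : Prop := ∀ w ∈ K Q u z, root Q u w = 1

variable (Q) in
/-- The root group of the vector fixes the point. -/
def IsFix (u : V) (z : Ω) : Prop := ∀ w, root Q u w • z = z

lemma isFix_ap (g : siegelGroup Q) (u : V) (z : Ω) :
    IsFix Q (ap g u) (g • z) ↔ IsFix Q u z := by
  refine ⟨fun h w => (root_fix_ap g u w z).1 (h _), fun h w => ?_⟩
  have := (root_fix_ap g u (ap g⁻¹ w) z).2 (h _)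
  rwa [ap_inv'] at this

lemma isReg_ap (g : siegelGroup Q) (u : V) (z : Ω) :
    IsReg Q (ap g u) (g • z) ↔ IsReg Q u z := by
  constructor
  · intro h w hw
    have := h _ ((mem_K_ap g u w z).2 hw)
    rwa [← root_conj, conj_eq_one_iff] at this
  · intro h w hw
    rw [← ap_inv' g w] at hw ⊢
    rw [← root_conj, h _ ((mem_K_ap g u _ z).1 hw), mul_one, mul_inv_cancel]

lemma isFix_smul {c : F} (hc : c ≠ 0) {u : V} {z : Ω} (h : IsFix Q u z) : IsFix Q (c • u) z :=
  fun w => by rw [root_smul hc]; exact h _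

lemma isReg_smul {c : F} (hc : c ≠ 0) {u : V} {z : Ω} (h : IsReg Q u z) : IsReg Q (c • u) z := by
  intro w hw
  rw [mem_K, root_smul hc] at hw
  rw [root_smul hc]
  refine h _ ⟨?_, hw.2⟩
  have := hw.1
  rw [polar_smul_left, smul_eq_mul] at this
  rw [polar_smul_right, (mul_eq_zero.1 this).resolve_left hc, smul_zero]

/-- The subgroup of the complement of a pair whose root elements fix the point. -/
noncomputable def asub (Q : QuadraticForm F V) (u u' : V) {Ω : Type*}
    [MulAction (siegelGroup Q) Ω] (z : Ω) : AddSubgroup (perp2 Q u u') :=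
  (K Q u z).comap (perp2 Q u u').subtype.toAddMonoidHom

lemma mem_asub {u u' : V} {z : Ω} {w : perp2 Q u u'} :
    w ∈ asub Q u u' z ↔ root Q u (w : V) • z = z :=
  ⟨fun h => h.2, fun h => ⟨(mem_perp2.1 w.2).1, h⟩⟩

variable {u u' : V}

lemma asub_eq_bot_iff (h : IsHypPair Q (u, u')) {z : Ω} :
    asub Q u u' z = ⊥ ↔ IsReg Q u z := by
  constructor
  · intro hb w hw
    have h1 : proj2 h w ∈ asub Q u u' z := mem_asub.2 (by rw [← root_eq_proj h hw.1]; exact hw.2)
    rw [hb, AddSubgroup.mem_bot] at h1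
    rw [root_eq_proj h hw.1, h1, ZeroMemClass.coe_zero, root_zero]
  · intro hr
    rw [eq_bot_iff]
    exact fun w hw => AddSubgroup.mem_bot.2 (eq_zero_of_root h (hr _ hw))

lemma asub_eq_top_iff (h : IsHypPair Q (u, u')) {z : Ω} :
    asub Q u u' z = ⊤ ↔ IsFix Q u z := by
  constructor
  · intro ht w
    by_cases hw : polar Q u w = 0
    · rw [root_eq_proj h hw]
      exact mem_asub.1 (by rw [ht]; exact AddSubgroup.mem_top _)
    · rw [root_of_not fun h' => hw h'.2, one_smul]
  · intro hf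
    exact eq_top_iff.2 fun w _ => mem_asub.2 (hf _)

/-- The orbit of the root group of a pair. -/
def orbT (Q : QuadraticForm F V) (u u' : V) {Ω : Type*} [MulAction (siegelGroup Q) Ω] (z : Ω) :
    Set Ω := Set.range fun w : perp2 Q u u' => root Q u (w : V) • z

lemma mem_orbT_self (z : Ω) : z ∈ orbT Q u u' z :=
  ⟨0, by simp [root_zero]⟩

lemma root_comm (h : IsHypPair Q (u, u')) (w w' : perp2 Q u u') :
    root Q u (w : V) * root Q u (w' : V) = root Q u (w' : V) * root Q u (w : V) := by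
  rw [root_add h.1 (mem_perp2.1 w.2).1 (mem_perp2.1 w'.2).1,
    root_add h.1 (mem_perp2.1 w'.2).1 (mem_perp2.1 w.2).1, add_comm]

lemma asub_root_smul (h : IsHypPair Q (u, u')) (w : perp2 Q u u') (z : Ω) :
    asub Q u u' (root Q u (w : V) • z) = asub Q u u' z := by
  ext x
  rw [mem_asub, mem_asub, ← mul_smul, root_comm h, mul_smul, smul_left_cancel_iff]

lemma asub_of_mem_orbT (h : IsHypPair Q (u, u')) {z z' : Ω} (hz : z' ∈ orbT Q u u' z) :
    asub Q u u' z' = asub Q u u' z := by
  obtain ⟨w, rfl⟩ := hz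
  exact asub_root_smul h w z

/-- The root group of a pair as a homomorphism. -/
noncomputable def rootHom (h : IsHypPair Q (u, u')) :
    Multiplicative (perp2 Q u u') →* siegelGroup Q where
  toFun w := root Q u ((Multiplicative.toAdd w : perp2 Q u u') : V)
  map_one' := by simp [root_zero]
  map_mul' a b := by
    rw [root_add h.1 (mem_perp2.1 (Multiplicative.toAdd a : perp2 Q u u').2).1
      (mem_perp2.1 (Multiplicative.toAdd b : perp2 Q u u').2).1]
    rfl

variable [Finite F] [FiniteDimensional F V]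

theorem card_orbT (hQ : Nondeg Q) (h : IsHypPair Q (u, u')) (z : Ω) :
    Nat.card (orbT Q u u' z) = Nat.card (ann (q2 Q u u') (asub Q u u' z)) := by
  have : Finite (perp2 Q u u') := Module.finite_of_finite F
  letI : MulAction (Multiplicative (perp2 Q u u')) Ω := MulAction.compHom Ω (rootHom h)
  have h1 : MulAction.orbit (Multiplicative (perp2 Q u u')) z = orbT Q u u' z := rfl
  have h2 : Nat.card (MulAction.stabilizer (Multiplicative (perp2 Q u u')) z)
      = Nat.card (asub Q u u' z) :=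
    Nat.card_congr (Equiv.subtypeEquiv Multiplicative.toAdd fun w =>
      ⟨fun hw => mem_asub.2 hw, fun hw => mem_asub.1 hw⟩)
  have h3 := Subgroup.card_mul_index (MulAction.stabilizer (Multiplicative (perp2 Q u u')) z)
  rw [MulAction.index_stabilizer, h1, h2, ← Nat.card_coe_set_eq,
    Nat.card_congr Multiplicative.toAdd, card_eq_pow (F := F) (V := perp2 Q u u'),
    ← card_ann (nondeg_q2 hQ h) (asub Q u u' z)] at h3
  exact Nat.eq_of_mul_eq_mul_left Nat.card_pos h3

end Act

/-- The pairs (restriction, scalar) of the elements normalising the pair. -/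
def levGrp (Q : QuadraticForm F V) (u u' : V) : Subgroup (orth (q2 Q u u') × Fˣ) where
  carrier := {γ | ∃ g : siegelGroup Q, ap g u = (γ.2 : F) • u ∧ ap g u' = (γ.2 : F)⁻¹ • u' ∧
    ∀ m : perp2 Q u u', ap g (m : V) = ((γ.1 : perp2 Q u u' ≃ₗ[F] perp2 Q u u') m : V)}
  one_mem' := ⟨1, by rw [ap_one]; simp, by rw [ap_one]; simp, fun m => rfl⟩
  mul_mem' := by
    rintro γ δ ⟨g, g1, g2, g3⟩ ⟨k, k1, k2, k3⟩
    refine ⟨g * k, ?_, ?_, fun m => ?_⟩
    · rw [ap_mul, k1, map_smul, g1, smul_smul, Prod.snd_mul, Units.val_mul, mul_comm]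
    · rw [ap_mul, k2, map_smul, g2, smul_smul, Prod.snd_mul, Units.val_mul, mul_inv, mul_comm]
    · rw [ap_mul, k3, g3, Prod.fst_mul, orth_mul_apply]
  inv_mem' := by
    rintro γ ⟨g, g1, g2, g3⟩
    have hl : (γ.2 : F) ≠ 0 := γ.2.ne_zero
    refine ⟨g⁻¹, ?_, ?_, fun m => ?_⟩
    · apply (ap g).injective
      rw [ap_inv', map_smul, g1, Prod.snd_inv, Units.val_inv_eq_inv_val, smul_smul,
        inv_mul_cancel₀ hl, one_smul]
    · apply (ap g).injective
      rw [ap_inv', map_smul, g2, Prod.snd_inv, Units.val_inv_eq_inv_val, inv_inv, smul_smul,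
        mul_inv_cancel₀ hl, one_smul]
    · apply (ap g).injective
      rw [ap_inv', g3, Prod.fst_inv, orth_apply_inv]

variable [Finite F] [FiniteDimensional F V]

lemma levGrp_scalar (hQ : Nondeg Q) (hn : 5 ≤ finrank F V) {u u' : V}
    (h : IsHypPair Q (u, u')) (l : Fˣ) : ∃ g, (g, l) ∈ levGrp Q u u' := by
  have hl : (l : F) ≠ 0 := l.ne_zero
  have h' : IsHypPair Q ((l : F) • u, (l : F)⁻¹ • u') := by
    refine ⟨?_, ?_, ?_⟩
    · rw [QuadraticMap.map_smul, h.1, smul_zero]
    · rw [QuadraticMap.map_smul, h.2.1, smul_zero]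
    · rw [polar_smul_left, polar_smul_right, h.2.2, smul_eq_mul, smul_eq_mul, mul_one,
        mul_inv_cancel₀ hl]
  obtain ⟨g, hg, e1, e2⟩ := (Sec.top Q).transitive_hypPair hQ (by omega) (Sec.mem_top u)
    (Sec.mem_top u') (Sec.mem_top _) (Sec.mem_top _) h h'
  set g' : siegelGroup Q := ⟨g, hg.1⟩
  have hM : ∀ m ∈ perp2 Q u u', ((g : V ≃ₗ[F] V) : V →ₗ[F] V) m ∈ perp2 Q u u' := by
    intro m hm
    obtain ⟨m1, m2⟩ := mem_perp2.1 hm
    have a1 : polar Q ((l : F) • u) ((g : V ≃ₗ[F] V) m) = 0 := by rw [← e1, polar_apply, m1]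
    have a2 : polar Q ((l : F)⁻¹ • u') ((g : V ≃ₗ[F] V) m) = 0 := by rw [← e2, polar_apply, m2]
    rw [polar_smul_left, smul_eq_mul] at a1 a2
    exact mem_perp2.2 ⟨(mul_eq_zero.1 a1).resolve_left hl,
      (mul_eq_zero.1 a2).resolve_left (inv_ne_zero hl)⟩
  let f : perp2 Q u u' →ₗ[F] perp2 Q u u' := ((g : V ≃ₗ[F] V) : V →ₗ[F] V).restrict hM
  have hinj : Function.Injective f := fun a b hab => Subtype.ext
    ((g : V ≃ₗ[F] V).injective (congrArg Subtype.val hab))
  refine ⟨⟨LinearEquiv.ofInjectiveEndo f hinj, fun m => ?_⟩, g', e1, e2, fun m => ?_⟩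
  · show Q ((f m : perp2 Q u u') : V) = Q (m : V)
    exact orth_apply g _
  · rfl

/-- The Levi-type group of a hyperbolic pair. -/
noncomputable def levi (hQ : Nondeg Q) (hn : 5 ≤ finrank F V) {u u' : V}
    (h : IsHypPair Q (u, u')) : Lev (q2 Q u u') where
  grp := levGrp Q u u'
  siegel_mem g hg := ⟨⟨extHom h g, extHom_mem h hg⟩,
    by simpa using extHom_fst h g, by simpa using extHom_snd h g, fun m => extHom_coe h g m⟩
  scalar l := levGrp_scalar hQ hn h l

section Act2

variable {Ω : Type*} [MulAction (siegelGroup Q) Ω] {u u' : V}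

lemma asub_lev {γ : orth (q2 Q u u') × Fˣ} {g : siegelGroup Q} (g1 : ap g u = (γ.2 : F) • u)
    (g3 : ∀ m : perp2 Q u u', ap g (m : V) = ((γ.1 : perp2 Q u u' ≃ₗ[F] perp2 Q u u') m : V))
    (z : Ω) : asub Q u u' (g • z) = twSub γ (asub Q u u' z) := by
  ext x
  obtain ⟨y, rfl⟩ := (tw γ).surjective x
  rw [mem_twSub, mem_asub, mem_asub]
  rw [show ((tw γ y : perp2 Q u u') : V) = (γ.2 : F) • ap g (y : V) by
    rw [tw_apply, Submodule.coe_smul, g3]]
  rw [← root_smul γ.2.ne_zero, ← g1, root_fix_ap]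

/-- The points whose subgroup lies in the Levi orbit of that of `z₀`. -/
def cls (hQ : Nondeg Q) (hn : 5 ≤ finrank F V) (h : IsHypPair Q (u, u')) (z₀ : Ω) : Set Ω :=
  {z | asub Q u u' z ∈ (levi hQ hn h).orb (asub Q u u' z₀)}

variable (hQ : Nondeg Q) (hn : 5 ≤ finrank F V) (h : IsHypPair Q (u, u'))

lemma card_asub_of_mem_cls {z z₀ : Ω} (hz : z ∈ cls hQ hn h z₀) :
    Nat.card (asub Q u u' z) = Nat.card (asub Q u u' z₀) := by
  obtain ⟨γ, -, hγ⟩ := hz
  rw [← hγ]
  exact card_twSub γ _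

theorem card_cls [Finite Ω] (z₀ : Ω) : Nat.card (cls hQ hn h z₀)
    = (levi hQ hn h).cnum (asub Q u u' z₀)
      * Nat.card {z : Ω | asub Q u u' z = asub Q u u' z₀} := by
  set O := (levi hQ hn h).orb (asub Q u u' z₀) with hO
  have e : ∀ B : O, Nonempty ({z : Ω // asub Q u u' z = asub Q u u' z₀}
      ≃ {z : Ω // asub Q u u' z = (B : AddSubgroup (perp2 Q u u'))}) := by
    rintro ⟨B, γ, ⟨g, g1, -, g3⟩, rfl⟩
    refine ⟨(MulAction.toPerm g).subtypeEquiv fun z => ?_⟩
    rw [MulAction.toPerm_apply, asub_lev g1 g3]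
    refine ⟨fun h => by rw [h], fun h => ?_⟩
    ext x
    rw [← mem_twSub (γ := γ), h, mem_twSub]
  have e2 : cls hQ hn h z₀ ≃ O × {z : Ω // asub Q u u' z = asub Q u u' z₀} :=
    calc cls hQ hn h z₀ ≃ Σ B : O, {z : Ω // asub Q u u' z = (B : AddSubgroup (perp2 Q u u'))} :=
          { toFun := fun z => ⟨⟨asub Q u u' (z : Ω), z.2⟩, (z : Ω), rfl⟩
            invFun := fun p => ⟨p.2.1, by
              show asub Q u u' p.2.1 ∈ O
              rw [p.2.2]; exact p.1.2⟩
            left_inv := fun z => rfl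
            right_inv := by rintro ⟨⟨B, hB⟩, z, rfl : asub Q u u' z = B⟩; rfl }
      _ ≃ Σ _B : O, {z : Ω // asub Q u u' z = asub Q u u' z₀} :=
          Equiv.sigmaCongrRight fun B => (e B).some.symm
      _ ≃ _ := Equiv.sigmaEquivProd _ _
  rw [Nat.card_congr e2, Nat.card_prod]
  rfl

lemma orbT_subset (h : IsHypPair Q (u, u')) (z₀ : Ω) : orbT Q u u' z₀ ⊆ {z : Ω | asub Q u u' z = asub Q u u' z₀} :=
  fun _ hz => asub_of_mem_orbT h hz

theorem cnum_mul_le [Finite Ω] (z₀ : Ω) :
    (levi hQ hn h).cnum (asub Q u u' z₀) * Nat.card (ann (q2 Q u u') (asub Q u u' z₀))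
      ≤ Nat.card (cls hQ hn h z₀) := by
  rw [card_cls, ← card_orbT hQ h]
  exact Nat.mul_le_mul_left _ (Nat.card_mono (Set.toFinite _) (orbT_subset h z₀))

/-- Either one orbit per subgroup or twice as many points. -/
theorem one_orbit [Finite Ω] (z₀ z₁ : Ω) (h1 : asub Q u u' z₁ = asub Q u u' z₀)
    (hnot : z₁ ∉ orbT Q u u' z₀) :
    2 * ((levi hQ hn h).cnum (asub Q u u' z₀) * Nat.card (ann (q2 Q u u') (asub Q u u' z₀)))
      ≤ Nat.card (cls hQ hn h z₀) := by
  rw [card_cls, mul_left_comm]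
  refine Nat.mul_le_mul_left _ ?_
  have hd : Disjoint (orbT Q u u' z₀) (orbT Q u u' z₁) := by
    rw [Set.disjoint_left]
    rintro x ⟨w, rfl⟩ ⟨w', hw'⟩
    refine hnot ⟨w - w', ?_⟩
    have hw'' : root Q u (w' : V) • z₁ = root Q u (w : V) • z₀ := hw'
    show root Q u ((w - w' : perp2 Q u u') : V) • z₀ = z₁
    rw [← smul_left_cancel_iff (root Q u (w' : V)), hw'', ← mul_smul,
      root_add h.1 (mem_perp2.1 w'.2).1 (mem_perp2.1 (w - w').2).1,
      ← Submodule.coe_add, add_sub_cancel]
  have e := Set.ncard_union_eq hd (Set.toFinite _) (Set.toFinite _)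
  rw [← Nat.card_coe_set_eq, ← Nat.card_coe_set_eq, ← Nat.card_coe_set_eq, card_orbT hQ h,
    card_orbT hQ h, h1, ← two_mul] at e
  rw [← e]
  refine Nat.card_mono (Set.toFinite _) (Set.union_subset (orbT_subset h z₀) fun z hz => ?_)
  exact (asub_of_mem_orbT h hz).trans h1

end Act2

/-- The torus element of a pair: `u ↦ c⁻¹ u`, `u' ↦ c u'`, trivial on the complement. -/
theorem exists_torus (hQ : Nondeg Q) (hn : 5 ≤ finrank F V) {u u' : V}
    (h : IsHypPair Q (u, u')) (μ : Fˣ) :
    ∃ t : siegelGroup Q, ap t u = ((μ : F) * μ)⁻¹ • u ∧ ap t u' = ((μ : F) * μ) • u' ∧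
      ∀ m ∈ perp2 Q u u', ap t m = m := by
  obtain ⟨hu, hu', huu⟩ := h
  have hu'u : polar Q u' u = 1 := by rw [polar_comm]; exact huu
  set c : F := (μ : F) * μ with hc
  have hc0 : c ≠ 0 := mul_ne_zero μ.ne_zero μ.ne_zero
  have hQd : ∀ d : F, Q (u - d • u') = -d := fun d => by
    rw [map_sub_eq, QuadraticMap.map_smul, hu, hu', polar_smul_right, huu]
    simp
  have ha : Q (u - (1 : F) • u') ≠ 0 := by rw [hQd]; simp
  have hb : Q (u - c • u') ≠ 0 := by rw [hQd]; simpa using hc0
  have hsq : IsSquare (Q (u - c • u') * (Q (u - (1 : F) • u'))⁻¹) :=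
    ⟨(μ : F), by rw [hQd, hQd, hc]; ring⟩
  have hmem := refl_div_mem_siegelGroup hQ hn hb ha hsq
  rw [refl_inv] at hmem
  have e1 : polar Q u (u - (1 : F) • u') = -1 := by
    simp [polar_sub_right, polar_self_mul, hu, huu]
  have e2 : polar Q u' (u - (1 : F) • u') = 1 := by
    simp [polar_sub_right, polar_self_mul, hu', hu'u]
  have e3 : polar Q u (u - c • u') = -c := by
    simp [polar_sub_right, polar_self_mul, polar_smul_right, hu, huu]
  have e4 : polar Q u' (u - c • u') = 1 := by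
    simp [polar_sub_right, polar_self_mul, polar_smul_right, hu', hu'u]
  have r1 : (refl Q _ ha : V ≃ₗ[F] V) u = u' := by
    rw [refl_apply, hQd, e1]; simp
  have r2 : (refl Q _ ha : V ≃ₗ[F] V) u' = u := by
    rw [refl_apply, hQd, e2]; simp
  have r3 : (refl Q _ hb : V ≃ₗ[F] V) u' = c⁻¹ • u := by
    rw [refl_apply, hQd, e4, mul_one, inv_neg, neg_smul, sub_neg_eq_add, smul_sub, smul_smul,
      inv_mul_cancel₀ hc0, one_smul]
    abel
  have r4 : (refl Q _ hb : V ≃ₗ[F] V) u = c • u' := by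
    rw [refl_apply, hQd, e3, inv_neg, neg_mul_neg, inv_mul_cancel₀ hc0, one_smul, sub_sub_cancel]
  refine ⟨⟨_, hmem⟩, ?_, ?_, fun m hm => ?_⟩
  · show ((refl Q _ hb * refl Q _ ha : orth Q) : V ≃ₗ[F] V) u = _
    rw [orth_mul_apply, r1, r3]
  · show ((refl Q _ hb * refl Q _ ha : orth Q) : V ≃ₗ[F] V) u' = _
    rw [orth_mul_apply, r2, r4]
  · obtain ⟨m1, m2⟩ := mem_perp2.1 hm
    have f : ∀ d : F, polar Q m (u - d • u') = 0 := fun d => by
      rw [polar_sub_right, polar_smul_right, polar_comm Q m u, polar_comm Q m u', m1, m2]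
      simp
    show ((refl Q _ hb * refl Q _ ha : orth Q) : V ≃ₗ[F] V) m = _
    rw [orth_mul_apply, refl_fix ha (f 1), refl_fix hb (f c)]

/-- The torus element scales the root group. -/
lemma torus_root {u u' : V} {t : siegelGroup Q} {d : F} (hd : d ≠ 0) (t1 : ap t u = d • u)
    (t3 : ∀ m ∈ perp2 Q u u', ap t m = m) (w : perp2 Q u u') :
    t * root Q u (w : V) * t⁻¹ = root Q u ((d • w : perp2 Q u u') : V) := by
  rw [root_conj, t1, t3 _ w.2, root_smul hd, Submodule.coe_smul]

end CfsgLib.MinIndexOrth
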