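import Cfsg.Agent.Lib.MinIndex.Orth.Split
import Cfsg.Agent.Lib.Geometric.ExtField.CommonZero

/-!
An additive subgroup without non-zero singular vectors has at most `q^2` elements (Chevalley–Warning
over the prime field).
-/

set_option autoImplicit false
set_option linter.unusedSectionVars false

namespace CfsgLib.MinIndexOrth

open QuadraticMap Module CfsgLib.ClassicalForms

lemma card_le_of_no_zero {p : ℕ} [Fact p.Prime] {W K : Type*} [AddCommGroup W]
    [Module (ZMod p) W] [Finite W] [AddCommGroup K] [Module (ZMod p) K] [Finite K]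
    (B : W →+ W →+ K) (h : ∀ x, B x x = 0 → x = 0) :
    Nat.card W ≤ Nat.card K ^ 2 := by
  have : Module.Finite (ZMod p) W := Module.Finite.of_finite
  have : Module.Finite (ZMod p) K := Module.Finite.of_finite
  let bK := Module.finBasis (ZMod p) K
  let g : Fin (finrank (ZMod p) K) → W →+ W →+ ZMod p := fun k => AddMonoidHom.mk'
    (fun x => (bK.coord k).toAddMonoidHom.comp (B x)) fun x y => by ext z; simp
  let β : Fin (finrank (ZMod p) K) → W →ₗ[ZMod p] W →ₗ[ZMod p] ZMod p := fun k =>
    LinearMap.mk₂ (ZMod p) (fun x y => g k x y) (fun x y z => by simp)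
      (fun c x y => ZMod.map_smul ((g k).flip y) c x) (fun x y z => map_add (g k x) y z)
      (fun c x y => ZMod.map_smul (g k x) c y)
  rw [Module.natCard_eq_pow_finrank (K := ZMod p) (V := W),
    Module.natCard_eq_pow_finrank (K := ZMod p) (V := K), ← pow_mul]
  refine Nat.pow_le_pow_right Nat.card_pos ?_
  by_contra hlt
  obtain ⟨x, hx0, hx⟩ := CfsgLib.Geometric.ExtF.exists_common_zero β (fun _ => 0)
    (by rw [Fintype.card_fin]; omega)
  refine hx0 (h x (bK.ext_elem fun k => ?_))
  have h1 : bK.repr (B x x) k + (0 : ZMod p) = 0 := hx k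
  simpa using h1

variable {F : Type*} [Field F] [Finite F] {M : Type*} [AddCommGroup M] [Module F M]
  [FiniteDimensional F M]

theorem card_le_of_anisotropic (Q : QuadraticForm F M) (S : AddSubgroup M)
    (h : ∀ x ∈ S, Q x = 0 → x = 0) : Nat.card S ≤ Nat.card F ^ 2 := by
  classical
  obtain ⟨p, hp⟩ := CharP.exists F
  have : Fact p.Prime := ⟨CharP.char_is_prime F p⟩
  have : Finite M := Module.finite_of_finite F
  let : Algebra (ZMod p) F := ZMod.algebra F p
  have hpM : ∀ x : M, p • x = 0 := fun x => by
    rw [← Nat.cast_smul_eq_nsmul F, CharP.cast_eq_zero, zero_smul]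
  let : Module (ZMod p) S := AddCommGroup.zmodModule fun x => Subtype.ext (hpM x)
  let B0 := Q.toBilin (Module.finBasis F M)
  have hB0 : ∀ x, B0 x x = Q x := fun x =>
    congrArg (fun R : QuadraticForm F M => R x) (Q.toQuadraticMap_toBilin (Module.finBasis F M))
  let f : S →+ S →+ F := AddMonoidHom.mk'
    (fun x => (B0 (x : M)).toAddMonoidHom.comp S.subtype) fun x y => by ext z; simp
  exact card_le_of_no_zero (p := p) f fun x hx =>
    Subtype.ext (h (x : M) x.2 ((hB0 _).symm.trans hx))

end CfsgLib.MinIndexOrth
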