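import Mathlib

/-!
The inequalities of the classification. The dimension of the quadratic space is `j + 5`, `q` is the
field order, `G` the number of non-zero squares, `h = (q - 1) / 2` rounded down, `Z` the number of
singular vectors, `c`, `e` orbit lengths of a subgroup and of its span, `a`, `s` orders of a subgroup
and of its annihilator.
-/

set_option autoImplicit false

namespace CfsgLib.MinIndexOrth.Arith

variable {q G h Z c e a s R : ℤ} {j k : ℕ}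

lemma pow_le {i l : ℕ} (hq : 4 ≤ q) (hil : i ≤ l) : q ^ i ≤ q ^ l :=
  pow_le_pow_right₀ (by linarith) hil

/-- The product `(q-1) G` from below. -/
lemma gam_bound (hq : 4 ≤ q) (hG : q - 1 ≤ 2 * G) (h4 : q = 4 → 3 ≤ G) :
    8 ≤ (q - 1) * G ∧ 0 < G ∧ (5 ≤ q → (q - 1) ^ 2 ≤ 2 * ((q - 1) * G)) := by
  rcases eq_or_lt_of_le hq with h | h
  · have := h4 h.symm
    refine ⟨by nlinarith, by linarith, fun hh => by linarith⟩
  · have h5 : (5 : ℤ) ≤ q := h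
    exact ⟨by nlinarith [show (2 : ℤ) ≤ G by linarith], by linarith, fun _ => by nlinarith⟩

theorem no_aniso (hq : 4 ≤ q) (hj : j = 0 → 5 ≤ q) (hG : q - 1 ≤ 2 * G) (h4 : q = 4 → 3 ≤ G)
    (hc0 : 0 ≤ c) (ha0 : 0 ≤ a) (hs0 : 0 ≤ s) (has : a * s = q ^ (j + 5))
    (hlt : (q - 1) * (c * s) < q ^ (j + 4) * (q ^ 2 + 1))
    (hc : G * q ^ (j + 4) ≤ c * a + G * q ^ (j + 2)) (ha : a ≤ q ^ 2) : False := by
  obtain ⟨g9, g0, g5⟩ := gam_bound hq hG h4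
  have hc' : G * q ^ (j + 2) * (q ^ 2 - 1) ≤ c * a := by
    have e1 : G * q ^ (j + 4) = G * q ^ (j + 2) * q ^ 2 := by ring
    nlinarith
  have h1 : (q - 1) * (G * q ^ (j + 2) * (q ^ 2 - 1)) * q ^ (j + 5)
      ≤ (q - 1) * (c * s) * (a * a) := by
    calc _ ≤ (q - 1) * (c * a) * q ^ (j + 5) := by gcongr; linarith
      _ = _ := by rw [← has]; ring
  have h2 : (q - 1) * (c * s) * (a * a) ≤ (q - 1) * (c * s) * (q ^ 2 * q ^ 2) := by
    have h9 : 0 ≤ (q - 1) * (c * s) := by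
      have : (0 : ℤ) ≤ q - 1 := by linarith
      positivity
    gcongr
  have hq4 : (0 : ℤ) < q ^ 2 * q ^ 2 := by positivity
  have h3 : (q - 1) * (c * s) * (q ^ 2 * q ^ 2)
      < q ^ (j + 4) * (q ^ 2 + 1) * (q ^ 2 * q ^ 2) := by gcongr
  have h4' : (q - 1) * G * (q ^ 2 - 1) * q ^ j * q ^ (j + 7)
      < q * (q ^ 2 + 1) * q ^ (j + 7) := by
    calc _ = (q - 1) * (G * q ^ (j + 2) * (q ^ 2 - 1)) * q ^ (j + 5) := by ring
      _ < q ^ (j + 4) * (q ^ 2 + 1) * (q ^ 2 * q ^ 2) := lt_of_le_of_lt (h1.trans h2) h3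
      _ = _ := by ring
  have h5 := lt_of_mul_lt_mul_right h4' (by positivity)
  have hq2 : (0 : ℤ) ≤ q ^ 2 - 1 := by nlinarith
  rcases Nat.eq_zero_or_pos j with rfl | hj'
  · have hq5 := hj rfl
    rw [pow_zero, mul_one] at h5
    have h6 := mul_le_mul_of_nonneg_right (g5 hq5) hq2
    have h7 : 3 * q * (q ^ 2 - 1) ≤ (q - 1) ^ 2 * (q ^ 2 - 1) :=
      mul_le_mul_of_nonneg_right (by nlinarith) hq2
    nlinarith
  · have hqj : q ≤ q ^ j := by simpa using pow_le hq hj'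
    have h9 : (0 : ℤ) ≤ (q - 1) * G * (q ^ 2 - 1) := mul_nonneg (by linarith) hq2
    have h10 := lt_of_le_of_lt (mul_le_mul_of_nonneg_left hqj h9) h5
    have h11 := mul_le_mul_of_nonneg_right g9 hq2
    have h12 : (q - 1) * G * (q ^ 2 - 1) < q ^ 2 + 1 := by
      rw [mul_comm q (q ^ 2 + 1)] at h10
      exact lt_of_mul_lt_mul_right h10 (by linarith)
    nlinarith

theorem both_nonperp (hq : 4 ≤ q) (hj : j = 0 → 9 ≤ q) (hG : q - 1 ≤ 2 * G) (h4 : q = 4 → 3 ≤ G)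
    (hc0 : 0 ≤ c) (ha0 : 0 ≤ a) (hs0 : 0 ≤ s) (has : a * s = q ^ (j + 5))
    (hlt : (q - 1) * (c * s) < q ^ (j + 4) * (q ^ 2 + 1))
    (hZ : q ^ (j + 2) * (q ^ 2 - 2) ≤ Z - 1)
    (ha : (Z - 1) * G * q ^ (j + 3) ≤ c * (a * a))
    (hs : (Z - 1) * G * q ^ (j + 3) ≤ c * (s * s)) : False := by
  obtain ⟨g9, g0, g5⟩ := gam_bound hq hG h4
  set K := (Z - 1) * G * q ^ (j + 3) with hK
  set X := (q - 1) * G * (q ^ 2 - 2) with hX
  have hq1 : (0 : ℤ) ≤ q - 1 := by linarith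
  have hX0 : 0 ≤ X := mul_nonneg (by linarith) (by nlinarith)
  have hXK : X * q ^ (2 * j + 5) ≤ (q - 1) * K := by
    calc X * q ^ (2 * j + 5)
        = (q - 1) * (q ^ (j + 2) * (q ^ 2 - 2) * G * q ^ (j + 3)) := by rw [hX]; ring
      _ ≤ _ := by rw [hK]; gcongr
  have hK0 : 0 ≤ K := by
    refine mul_nonneg (mul_nonneg (le_trans ?_ hZ) g0.le) (by positivity)
    exact mul_nonneg (by positivity) (by nlinarith)
  have h1 : ((q - 1) * K) ^ 4 ≤ ((q - 1) * (c * s)) ^ 4 * (q ^ (j + 5)) ^ 2 := by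
    calc ((q - 1) * K) ^ 4 = (q - 1) ^ 4 * (K * K ^ 3) := by ring
      _ ≤ (q - 1) ^ 4 * ((c * (a * a)) * (c * (s * s)) ^ 3) := by gcongr
      _ = _ := by rw [← has]; ring
  have h2 : ((q - 1) * (c * s)) ^ 4 * (q ^ (j + 5)) ^ 2
      < (q ^ (j + 4) * (q ^ 2 + 1)) ^ 4 * (q ^ (j + 5)) ^ 2 := by
    have : (0 : ℤ) < (q ^ (j + 5)) ^ 2 := by positivity
    gcongr
  have h0 : 0 ≤ X * q ^ (2 * j + 5) := mul_nonneg hX0 (by positivity)
  have h3 : ((X * q ^ (2 * j + 5)) ^ 2) ^ 2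
      < ((q ^ (j + 4) * (q ^ 2 + 1)) ^ 2 * q ^ (j + 5)) ^ 2 := by
    calc ((X * q ^ (2 * j + 5)) ^ 2) ^ 2 = (X * q ^ (2 * j + 5)) ^ 4 := by ring
      _ ≤ ((q - 1) * K) ^ 4 := by gcongr
      _ < _ := lt_of_le_of_lt h1 h2
      _ = _ := by ring
  have h5 := lt_of_pow_lt_pow_left₀ 2 (by positivity) h3
  have h6 : X ^ 2 * q ^ j * q ^ (3 * j + 10) < q ^ 3 * (q ^ 2 + 1) ^ 2 * q ^ (3 * j + 10) := by
    calc _ = (X * q ^ (2 * j + 5)) ^ 2 := by ring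
      _ < _ := h5
      _ = _ := by ring
  have h7 := lt_of_mul_lt_mul_right h6 (by positivity)
  have hq2 : (0 : ℤ) ≤ q ^ 2 - 2 := by nlinarith
  rcases Nat.eq_zero_or_pos j with rfl | hj'
  · have hq9 := hj rfl
    rw [pow_zero, mul_one] at h7
    have h8 : (q - 1) ^ 2 * (q ^ 2 - 2) ≤ 2 * X := by
      rw [hX]; linarith [mul_le_mul_of_nonneg_right (g5 (by linarith)) hq2]
    have h9 : (q ^ 2 + 9 * q) * (q ^ 2 + 1) ≤ 3 * ((q - 1) ^ 2 * (q ^ 2 - 2)) := by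
      have e1 : 3 * q ^ 3 ≤ (2 * q - 15) * q ^ 3 :=
        mul_le_mul_of_nonneg_right (by linarith) (by positivity)
      have e2 : 9 * q ^ 2 ≤ q * q ^ 2 := mul_le_mul_of_nonneg_right hq9 (sq_nonneg q)
      have e3 : 81 ≤ q ^ 2 := by nlinarith only [hq9]
      linarith only [e1, e2, e3, hq9]
    have h10 : (q ^ 2 + 9 * q) * (q ^ 2 + 1) ≤ 6 * X := by linarith only [h8, h9]
    have h11 : ((q ^ 2 + 9 * q) * (q ^ 2 + 1)) ^ 2 ≤ (6 * X) ^ 2 :=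
      pow_le_pow_left₀ (by positivity) h10 2
    have h12 : 36 * q ^ 3 * (q ^ 2 + 1) ^ 2 ≤ ((q ^ 2 + 9 * q) * (q ^ 2 + 1)) ^ 2 := by
      have : 36 * q ^ 3 ≤ (q ^ 2 + 9 * q) ^ 2 := by nlinarith only [sq_nonneg (q ^ 2 - 9 * q)]
      calc _ ≤ (q ^ 2 + 9 * q) ^ 2 * (q ^ 2 + 1) ^ 2 :=
            mul_le_mul_of_nonneg_right this (by positivity)
        _ = _ := by ring
    linarith only [h7, h11, h12]
  · have hqj : q ≤ q ^ j := by simpa using pow_le hq hj'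
    have h8 : q * (q ^ 2 + 1) ≤ X := by
      rw [hX]
      rcases eq_or_lt_of_le hq with rfl | h5'
      · linarith only [g9, h4 rfl]
      · have h6' := mul_le_mul_of_nonneg_right (g5 h5') hq2
        have h5q : (5 : ℤ) ≤ q := h5'
        have h9 : 3 * q * (q ^ 2 - 2) ≤ (q - 1) ^ 2 * (q ^ 2 - 2) :=
          mul_le_mul_of_nonneg_right (by nlinarith only [h5q]) hq2
        nlinarith only [h6', h9, h5q]
    have h9 : q ^ 3 * (q ^ 2 + 1) ^ 2 ≤ X ^ 2 * q ^ j := by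
      calc q ^ 3 * (q ^ 2 + 1) ^ 2 = (q * (q ^ 2 + 1)) ^ 2 * q := by ring
        _ ≤ _ := mul_le_mul (pow_le_pow_left₀ (by positivity) h8 2) hqj (by linarith) (sq_nonneg _)
    linarith

/-- The case of a span of dimension one. -/
theorem one_nonperp_point (hq : 4 ≤ q) (hG : q - 1 ≤ 2 * G) (h4 : q = 4 → 3 ≤ G)
    (hc0 : 0 ≤ c) (hs0 : 0 ≤ s)
    (hlt : (q - 1) * (c * s) < q ^ (j + 4) * (q ^ 2 + 1))
    (hZ : q ^ (j + 2) * (q ^ 2 - 2) ≤ Z - 1) (hec : e ≤ c)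
    (he : Z - 1 ≤ e * (q - 1))
    (hs : (Z - 1) * G * q ^ (j + 3) ≤ c * (s * s)) : False := by
  obtain ⟨g9, g0, g5⟩ := gam_bound hq hG h4
  have hq1 : (0 : ℤ) ≤ q - 1 := by linarith
  have hq2 : (0 : ℤ) ≤ q ^ 2 - 2 := by nlinarith
  have h1 : (q - 1) * G * (q ^ 2 - 2) ^ 2 * q ^ j * q ^ (2 * j + 7)
      ≤ ((q - 1) * (c * s)) ^ 2 := by
    calc _ = (q ^ (j + 2) * (q ^ 2 - 2)) * ((q - 1) * (q ^ (j + 2) * (q ^ 2 - 2) * G * q ^ (j + 3)))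
          := by ring
      _ ≤ (c * (q - 1)) * ((q - 1) * (c * (s * s))) := by
          refine mul_le_mul ?_ (mul_le_mul_of_nonneg_left (le_trans ?_ hs) hq1)
            (mul_nonneg hq1 ?_) (mul_nonneg hc0 hq1)
          · exact hZ.trans (he.trans (mul_le_mul_of_nonneg_right hec hq1))
          · exact mul_le_mul_of_nonneg_right (mul_le_mul_of_nonneg_right hZ g0.le) (by positivity)
          · positivity
      _ = _ := by ring
  have h2 : ((q - 1) * (c * s)) ^ 2 < (q ^ (j + 4) * (q ^ 2 + 1)) ^ 2 := by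
    have : (0 : ℤ) ≤ (q - 1) * (c * s) := mul_nonneg hq1 (mul_nonneg hc0 hs0)
    gcongr
  have h3 : (q - 1) * G * (q ^ 2 - 2) ^ 2 * q ^ j * q ^ (2 * j + 7)
      < q * (q ^ 2 + 1) ^ 2 * q ^ (2 * j + 7) := by
    calc _ < _ := lt_of_le_of_lt h1 h2
      _ = _ := by ring
  have h5 := lt_of_mul_lt_mul_right h3 (by positivity)
  have hqj : (1 : ℤ) ≤ q ^ j := one_le_pow₀ (by linarith)
  have h6 : q * (q ^ 2 + 1) ^ 2 ≤ (q - 1) * G * (q ^ 2 - 2) ^ 2 := by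
    rcases eq_or_lt_of_le hq with rfl | h5'
    · nlinarith
    · have h5q : (5 : ℤ) ≤ q := h5'
      have e1 : 529 * (q ^ 2 + 1) ^ 2 ≤ 676 * (q ^ 2 - 2) ^ 2 := by
        calc 529 * (q ^ 2 + 1) ^ 2 = (23 * (q ^ 2 + 1)) ^ 2 := by ring
          _ ≤ (26 * (q ^ 2 - 2)) ^ 2 := pow_le_pow_left₀ (by positivity) (by nlinarith) 2
          _ = _ := by ring
      have e2 : 1352 * q ≤ 529 * (q - 1) ^ 2 := by nlinarith
      have e3 := mul_le_mul_of_nonneg_right (g5 h5q) (sq_nonneg (q ^ 2 - 2))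
      have e4 := mul_le_mul_of_nonneg_left e1 (by linarith : (0 : ℤ) ≤ 2 * q)
      have e5 := mul_le_mul_of_nonneg_right e2 (sq_nonneg (q ^ 2 - 2))
      linarith
  have h7 : (0 : ℤ) ≤ (q - 1) * G * (q ^ 2 - 2) ^ 2 := mul_nonneg (mul_nonneg hq1 g0.le) (sq_nonneg _)
  nlinarith [mul_le_mul_of_nonneg_left hqj h7]

/-- The case of a span of dimension between two and half the dimension. -/
theorem one_nonperp_span (hq : 4 ≤ q) (hj : 1 ≤ j) (hG : q - 1 ≤ 2 * G) (h4 : q = 4 → 3 ≤ G)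
    (hk : 2 * k ≤ j + 4) (hc0 : 0 ≤ c) (hs0 : 0 ≤ s)
    (hlt : (q - 1) * (c * s) < q ^ (j + 4) * (q ^ 2 + 1))
    (hZ : q ^ (j + 2) * (q ^ 2 - 2) ≤ Z - 1) (hec : e ≤ c)
    (he : (Z - 1) * (q * ((q - 1) * q ^ (j + 1))) ≤ e * q ^ (2 * k))
    (hs : (Z - 1) * G * q ^ (j + 3) ≤ c * (s * s)) : False := by
  obtain ⟨g9, g0, g5⟩ := gam_bound hq hG h4
  have hq1 : (0 : ℤ) ≤ q - 1 := by linarith
  have hq2 : (0 : ℤ) ≤ q ^ 2 - 2 := by nlinarith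
  have he1 : (q - 1) * (q ^ 2 - 2) * q ^ j * q ^ (j + 4) ≤ c * q ^ (j + 4) := by
    calc _ = q ^ (j + 2) * (q ^ 2 - 2) * (q * ((q - 1) * q ^ (j + 1))) := by ring
      _ ≤ (Z - 1) * (q * ((q - 1) * q ^ (j + 1))) := by gcongr
      _ ≤ e * q ^ (2 * k) := he
      _ ≤ c * q ^ (j + 4) := mul_le_mul hec (pow_le hq hk) (by positivity) hc0
  have he2 : (q - 1) * (q ^ 2 - 2) * q ^ j ≤ c := le_of_mul_le_mul_right he1 (by positivity)
  have h1 : (q - 1) ^ 3 * G * (q ^ 2 - 2) ^ 2 * q ^ j * q ^ (2 * j + 5)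
      ≤ ((q - 1) * (c * s)) ^ 2 := by
    calc _ = ((q - 1) * (q ^ 2 - 2) * q ^ j) *
          ((q - 1) * (q - 1) * (q ^ (j + 2) * (q ^ 2 - 2) * G * q ^ (j + 3))) := by ring
      _ ≤ c * ((q - 1) * (q - 1) * (c * (s * s))) := by
          refine mul_le_mul he2 (mul_le_mul_of_nonneg_left (le_trans ?_ hs) (mul_nonneg hq1 hq1))
            (mul_nonneg (mul_nonneg hq1 hq1) ?_) hc0
          · exact mul_le_mul_of_nonneg_right (mul_le_mul_of_nonneg_right hZ g0.le) (by positivity)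
          · positivity
      _ = _ := by ring
  have h2 : ((q - 1) * (c * s)) ^ 2 < (q ^ (j + 4) * (q ^ 2 + 1)) ^ 2 := by
    have : (0 : ℤ) ≤ (q - 1) * (c * s) := mul_nonneg hq1 (mul_nonneg hc0 hs0)
    gcongr
  have h3 : (q - 1) ^ 3 * G * (q ^ 2 - 2) ^ 2 * q ^ j * q ^ (2 * j + 5)
      < q ^ 3 * (q ^ 2 + 1) ^ 2 * q ^ (2 * j + 5) := by
    calc _ < _ := lt_of_le_of_lt h1 h2
      _ = _ := by ring
  have h5 := lt_of_mul_lt_mul_right h3 (by positivity)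
  have hqj : q ≤ q ^ j := by simpa using pow_le hq hj
  have h6 : q ^ 2 * (q ^ 2 + 1) ^ 2 ≤ (q - 1) ^ 3 * G * (q ^ 2 - 2) ^ 2 := by
    have : 4 * ((q - 1) ^ 2 * (q ^ 2 - 2) ^ 2) ≤ (q - 1) ^ 3 * G * (q ^ 2 - 2) ^ 2 := by
      calc _ ≤ (q - 1) * G * ((q - 1) ^ 2 * (q ^ 2 - 2) ^ 2) :=
            mul_le_mul_of_nonneg_right (by linarith) (by positivity)
        _ = _ := by ring
    refine le_trans ?_ this
    have h8 : q * (q ^ 2 + 1) ≤ 2 * ((q - 1) * (q ^ 2 - 2)) := by nlinarith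
    calc q ^ 2 * (q ^ 2 + 1) ^ 2 = (q * (q ^ 2 + 1)) ^ 2 := by ring
      _ ≤ (2 * ((q - 1) * (q ^ 2 - 2))) ^ 2 := pow_le_pow_left₀ (by positivity) h8 2
      _ = _ := by ring
  have h7 : q ^ 3 * (q ^ 2 + 1) ^ 2 ≤ (q - 1) ^ 3 * G * (q ^ 2 - 2) ^ 2 * q ^ j := by
    calc q ^ 3 * (q ^ 2 + 1) ^ 2 = q ^ 2 * (q ^ 2 + 1) ^ 2 * q := by ring
      _ ≤ _ := mul_le_mul h6 hqj (by linarith) (le_trans (by positivity) h6)
  linarith

/-- Dimension five, a span of dimension two. -/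
theorem one_nonperp_five (hq : 5 ≤ q) (hG : q - 1 ≤ 2 * G) (hc0 : 0 ≤ c) (hs0 : 0 ≤ s)
    (hlt : (q - 1) * (c * s) < q ^ 4 * (q ^ 2 + 1)) (hec : e ≤ c)
    (he : (q + 1) * (q ^ 2 + 1) ≤ e)
    (hs : (q ^ 4 - 1) * G * q ^ 3 ≤ c * (s * s)) : False := by
  have hq1 : (0 : ℤ) ≤ q - 1 := by linarith
  have hq4 : (0 : ℤ) ≤ q ^ 4 - 1 := by nlinarith [one_le_pow₀ (n := 4) (show (1 : ℤ) ≤ q by linarith)]
  have hc : (q + 1) * (q ^ 2 + 1) ≤ c := le_trans he hec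
  have h1 : ((q + 1) * (q ^ 2 + 1)) * ((q - 1) ^ 2 * ((q ^ 4 - 1) * G * q ^ 3))
      ≤ ((q - 1) * (c * s)) ^ 2 := by
    calc _ ≤ c * ((q - 1) ^ 2 * (c * (s * s))) := by
          gcongr
          exact mul_nonneg (sq_nonneg _) (mul_nonneg (mul_nonneg hq4 (by linarith)) (by positivity))
      _ = _ := by ring
  have h2 : ((q - 1) * (c * s)) ^ 2 < (q ^ 4 * (q ^ 2 + 1)) ^ 2 := by
    have : (0 : ℤ) ≤ (q - 1) * (c * s) := mul_nonneg hq1 (mul_nonneg hc0 hs0)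
    gcongr
  have h3 := lt_of_le_of_lt h1 h2
  have h5 : (q - 1) * G * (q ^ 2 - 1) ^ 2 * ((q ^ 2 + 1) ^ 2 * q ^ 3)
      < q ^ 5 * ((q ^ 2 + 1) ^ 2 * q ^ 3) := by
    calc (q - 1) * G * (q ^ 2 - 1) ^ 2 * ((q ^ 2 + 1) ^ 2 * q ^ 3)
        = ((q + 1) * (q ^ 2 + 1)) * ((q - 1) ^ 2 * ((q ^ 4 - 1) * G * q ^ 3)) := by ring
      _ < _ := h3
      _ = _ := by ring
  have h6 := lt_of_mul_lt_mul_right h5 (by positivity)
  have e1 : (q - 1) ^ 2 ≤ 2 * ((q - 1) * G) := by nlinarith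
  have e2 := mul_le_mul_of_nonneg_right e1 (sq_nonneg (q ^ 2 - 1))
  have e3 : 16 * q ^ 2 ≤ 25 * (q - 1) ^ 2 := by nlinarith
  have e4 : 576 * (q ^ 2) ^ 2 ≤ 625 * (q ^ 2 - 1) ^ 2 := by
    calc 576 * (q ^ 2) ^ 2 = (24 * q ^ 2) ^ 2 := by ring
      _ ≤ (25 * (q ^ 2 - 1)) ^ 2 := pow_le_pow_left₀ (by positivity) (by nlinarith) 2
      _ = _ := by ring
  have e5 : 16 * q ^ 2 * (576 * (q ^ 2) ^ 2) ≤ 25 * (q - 1) ^ 2 * (625 * (q ^ 2 - 1) ^ 2) :=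
    mul_le_mul e3 e4 (by positivity) (by positivity)
  have e6 : 5 * q ^ 5 ≤ q ^ 6 := by nlinarith [mul_le_mul_of_nonneg_right hq (pow_nonneg (by linarith : (0 : ℤ) ≤ q) 5)]
  nlinarith

end CfsgLib.MinIndexOrth.Arith
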