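import Cfsg.Agent.Lib.MinIndex.Orth.Arith

/-!
The inequalities of the classification, second part.
-/

set_option autoImplicit false

namespace CfsgLib.MinIndexOrth.Arith

variable {q G h Z c e a s R : ℤ} {j k : ℕ}

lemma perp_core (hq : 4 ≤ q) (hG : q - 1 ≤ 2 * G) (h4 : q = 4 → 3 ≤ G) (hh : q - 2 ≤ 2 * h) :
    q * (q ^ 2 + 1) ≤ (q - 1) * G * h * (q ^ 2 - 2) := by
  obtain ⟨g9, g0, g5⟩ := gam_bound hq hG h4
  have hq2 : (0 : ℤ) ≤ q ^ 2 - 2 := by nlinarith only [hq]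
  rcases eq_or_lt_of_le hq with rfl | h5'
  · nlinarith only [h4 rfl, hh]
  · have h5q : (5 : ℤ) ≤ q := h5'
    have e1 : (q - 1) ^ 2 * (q - 2) ≤ 4 * ((q - 1) * G * h) := by
      have := mul_le_mul (g5 h5q) hh (by linarith) (by linarith)
      linarith
    have e2 := mul_le_mul_of_nonneg_right e1 hq2
    have e3 : 3 * (q * 3) ≤ (q - 1) ^ 2 * (q - 2) :=
      le_trans (by linarith) (mul_le_mul (show 3 * q ≤ (q - 1) ^ 2 by nlinarith only [h5q])
        (show (3 : ℤ) ≤ q - 2 by linarith) (by norm_num) (sq_nonneg _))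
    have e4 := mul_le_mul_of_nonneg_right e3 hq2
    nlinarith only [e2, e4, h5q]

/-- A singular and an orthogonal non-singular vector in the annihilator. -/
theorem perp_case (hq : 4 ≤ q) (hG : q - 1 ≤ 2 * G) (h4 : q = 4 → 3 ≤ G) (hh : q - 2 ≤ 2 * h)
    (hR0 : 0 < R)
    (hlt : (q - 1) * (c * s) < q ^ (j + 4) * (q ^ 2 + 1))
    (hZ : q ^ (j + 2) * (q ^ 2 - 2) ≤ Z - 1)
    (hR : R ≤ q ^ (j + 1))
    (hb : (Z - 1) * G * (q * (h * q ^ (j + 1))) ≤ c * s * R) : False := by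
  obtain ⟨g9, g0, -⟩ := gam_bound hq hG h4
  have hh0 : (0 : ℤ) ≤ h := by linarith
  have hq1 : (0 : ℤ) ≤ q - 1 := by linarith
  have h1 : (q - 1) * G * h * (q ^ 2 - 2) * q ^ (2 * j + 4)
      ≤ (q - 1) * (c * s) * R := by
    calc _ = (q - 1) * (q ^ (j + 2) * (q ^ 2 - 2) * G * (q * (h * q ^ (j + 1)))) := by ring
      _ ≤ (q - 1) * (c * s * R) := by
          refine mul_le_mul_of_nonneg_left (le_trans ?_ hb) hq1
          exact mul_le_mul_of_nonneg_right (mul_le_mul_of_nonneg_right hZ g0.le) (by positivity)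
      _ = _ := by ring
  have h2 : (q - 1) * (c * s) * R < q ^ (j + 4) * (q ^ 2 + 1) * R :=
    mul_lt_mul_of_pos_right hlt hR0
  have h3 : q ^ (j + 4) * (q ^ 2 + 1) * R ≤ q ^ (j + 4) * (q ^ 2 + 1) * q ^ (j + 1) :=
    mul_le_mul_of_nonneg_left hR (by positivity)
  have h5 : (q - 1) * G * h * (q ^ 2 - 2) * q ^ (2 * j + 4)
      < q * (q ^ 2 + 1) * q ^ (2 * j + 4) := by
    calc _ < _ := lt_of_le_of_lt h1 (lt_of_lt_of_le h2 h3)
      _ = _ := by ring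
  exact absurd (lt_of_mul_lt_mul_right h5 (by positivity))
    (not_lt.2 (perp_core hq hG h4 hh))

/-- The same in dimension five with a span of dimension two. -/
theorem perp_case_five (hq : 5 ≤ q) (hG : q - 1 ≤ 2 * G) (hh : q - 2 ≤ 2 * h) (hR0 : 0 < R)
    (hlt : (q - 1) * (c * s) < q ^ 4 * (q ^ 2 + 1))
    (hR : 3 * R ≤ q ^ 2)
    (hb : (q ^ 4 - 1) * G * (q * (h * q)) ≤ c * s * R) : False := by
  have hh0 : (0 : ℤ) ≤ h := by linarith
  have hG0 : (0 : ℤ) ≤ G := by linarith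
  have hq1 : (0 : ℤ) ≤ q - 1 := by linarith
  have hq4 : (0 : ℤ) ≤ q ^ 4 - 1 := by
    nlinarith only [one_le_pow₀ (n := 4) (show (1 : ℤ) ≤ q by linarith)]
  have h1 : 3 * ((q - 1) * ((q ^ 4 - 1) * G * (q * (h * q))))
      ≤ (q - 1) * (c * s) * (3 * R) := by
    calc _ ≤ 3 * ((q - 1) * (c * s * R)) := by gcongr
      _ = _ := by ring
  have h2 : (q - 1) * (c * s) * (3 * R) < q ^ 4 * (q ^ 2 + 1) * (3 * R) :=
    mul_lt_mul_of_pos_right hlt (by linarith)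
  have h3 : q ^ 4 * (q ^ 2 + 1) * (3 * R) ≤ q ^ 4 * (q ^ 2 + 1) * q ^ 2 :=
    mul_le_mul_of_nonneg_left hR (by positivity)
  have h5 : 3 * ((q - 1) * G * h * (q ^ 2 - 1)) * ((q ^ 2 + 1) * q ^ 2)
      < q ^ 4 * ((q ^ 2 + 1) * q ^ 2) := by
    calc _ = 3 * ((q - 1) * ((q ^ 4 - 1) * G * (q * (h * q)))) := by ring
      _ < _ := lt_of_le_of_lt h1 (lt_of_lt_of_le h2 h3)
      _ = _ := by ring
  have h6 := lt_of_mul_lt_mul_right h5 (by positivity)
  have e1 : (q - 1) ^ 2 * (q - 2) ≤ 4 * ((q - 1) * G * h) := by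
    have := mul_le_mul (mul_le_mul_of_nonneg_left hG hq1) hh (by linarith) (by positivity)
    linarith
  have hq2 : (0 : ℤ) ≤ q ^ 2 - 1 := by nlinarith only [hq]
  have e2 := mul_le_mul_of_nonneg_right e1 hq2
  have e3 : 16 * q ^ 2 * 3 ≤ 25 * (q - 1) ^ 2 * (q - 2) :=
    mul_le_mul (by nlinarith only [hq]) (by linarith) (by norm_num) (by positivity)
  have e4 := mul_le_mul e3 (show 24 * q ^ 2 ≤ 25 * (q ^ 2 - 1) by nlinarith only [hq])
    (by positivity) (mul_nonneg (by positivity) (by linarith))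
  have e5 : (0 : ℤ) < q ^ 4 := pow_pos (by linarith) 4
  nlinarith only [h6, e2, e4, e5]

/-- A totally singular annihilator with a large span. -/
theorem span_big (hq : 4 ≤ q) (hk : k ≤ j + 1)
    (hlt : (q - 1) * (c * s) < q ^ (j + 4) * (q ^ 2 + 1))
    (hZ : q ^ (j + 2) * (q ^ 2 - 2) ≤ Z - 1)
    (he : (Z - 1) * (q * ((q - 1) * q ^ (j + 1))) ≤ e * q ^ (2 * k))
    (hes : e * q ^ k ≤ c * s) : False := by
  have hq1 : (0 : ℤ) ≤ q - 1 := by linarith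
  have h1 : (q - 1) ^ 2 * (q ^ 2 - 2) * q ^ (2 * j + 4) ≤ (q - 1) * (c * s) * q ^ k := by
    calc _ = (q - 1) * (q ^ (j + 2) * (q ^ 2 - 2) * (q * ((q - 1) * q ^ (j + 1)))) := by ring
      _ ≤ (q - 1) * (e * q ^ (2 * k)) := by
          refine mul_le_mul_of_nonneg_left (le_trans ?_ he) hq1
          gcongr
      _ = (q - 1) * (e * q ^ k) * q ^ k := by ring
      _ ≤ _ := by gcongr
  have h2 : (q - 1) * (c * s) * q ^ k < q ^ (j + 4) * (q ^ 2 + 1) * q ^ k :=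
    mul_lt_mul_of_pos_right hlt (pow_pos (by linarith) k)
  have h3 : q ^ (j + 4) * (q ^ 2 + 1) * q ^ k ≤ q ^ (j + 4) * (q ^ 2 + 1) * q ^ (j + 1) :=
    mul_le_mul_of_nonneg_left (pow_le hq hk) (by positivity)
  have h5 : (q - 1) ^ 2 * (q ^ 2 - 2) * q ^ (2 * j + 4) < q * (q ^ 2 + 1) * q ^ (2 * j + 4) := by
    calc _ < _ := lt_of_le_of_lt h1 (lt_of_lt_of_le h2 h3)
      _ = _ := by ring
  have h6 := lt_of_mul_lt_mul_right h5 (by positivity)
  have e1 : 9 * (q ^ 2 - 2) ≤ (q - 1) ^ 2 * (q ^ 2 - 2) :=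
    mul_le_mul_of_nonneg_right (by nlinarith only [hq]) (by nlinarith only [hq])
  have e2 : 2 * q * (q ^ 2 - 2) ≤ (q - 1) ^ 2 * (q ^ 2 - 2) :=
    mul_le_mul_of_nonneg_right (by nlinarith only [hq]) (by nlinarith only [hq])
  nlinarith only [h6, e1, e2, hq]

/-- A non-singular vector gives a large orbit. -/
theorem value_strict (hq : 4 ≤ q) (hG : q - 1 ≤ 2 * G) (h4 : q = 4 → 3 ≤ G) (hc0 : 0 < c)
    (hZ : Z ≤ q ^ (j + 4) + q ^ (j + 3))
    (hc : G * q ^ (j + 4) ≤ c * (s - 1) + G * q ^ (j + 2)) :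
    q * (Z - 1) < (q - 1) * (c * s) := by
  obtain ⟨g9, g0, g5⟩ := gam_bound hq hG h4
  have h1 : (q - 1) * (G * q ^ (j + 2) * (q ^ 2 - 1)) ≤ (q - 1) * (c * s) := by
    refine mul_le_mul_of_nonneg_left ?_ (by linarith)
    calc G * q ^ (j + 2) * (q ^ 2 - 1) = G * q ^ (j + 4) - G * q ^ (j + 2) := by ring
      _ ≤ _ := by linarith
  have h2 : q ^ 2 ≤ (q - 1) * G * (q - 1) := by
    rcases eq_or_lt_of_le hq with rfl | h5'
    · linarith only [h4 rfl]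
    · have h5q : (5 : ℤ) ≤ q := h5'
      have := mul_le_mul_of_nonneg_right (g5 h5q) (by linarith : (0 : ℤ) ≤ q - 1)
      have e3 : 16 * q ^ 2 * 4 ≤ 25 * (q - 1) ^ 2 * (q - 1) :=
        mul_le_mul (by nlinarith only [h5q]) (by linarith) (by norm_num) (by positivity)
      nlinarith only [this, e3, h5q]
  have h3 : q ^ 2 * ((q + 1) * q ^ (j + 2))
      ≤ (q - 1) * (G * q ^ (j + 2) * (q ^ 2 - 1)) := by
    calc _ ≤ (q - 1) * G * (q - 1) * ((q + 1) * q ^ (j + 2)) := by gcongr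
      _ = _ := by ring
  have h4' : q * (Z - 1) < q ^ 2 * ((q + 1) * q ^ (j + 2)) := by
    calc q * (Z - 1) ≤ q * (q ^ (j + 4) + q ^ (j + 3) - 1) := by gcongr
      _ < q * (q ^ (j + 4) + q ^ (j + 3)) := by nlinarith only [hq]
      _ = _ := by ring
  linarith

/-- Two non-singular vectors, in dimension five. -/
theorem two_values (hq : 9 ≤ q) (hG : q - 1 ≤ 2 * G) (hh : q - 2 ≤ 2 * h) (hc0 : 0 ≤ c)
    (hs0 : 0 ≤ s) (hlt : (q - 1) * (c * s) < q ^ 4 * (q ^ 2 + 1)) (hs : s ≤ q ^ 2)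
    (hb : (G * q ^ 4 - G * q ^ 2) * (h * q ^ 2) ≤ c * (s * s)) : False := by
  have hq1 : (0 : ℤ) ≤ q - 1 := by linarith
  have h1 : (q - 1) * G * h * (q ^ 2 - 1) * q ^ 4 ≤ (q - 1) * (c * s) * q ^ 2 := by
    calc _ = (q - 1) * ((G * q ^ 4 - G * q ^ 2) * (h * q ^ 2)) := by ring
      _ ≤ (q - 1) * (c * (s * s)) := mul_le_mul_of_nonneg_left hb hq1
      _ = (q - 1) * (c * s) * s := by ring
      _ ≤ _ := mul_le_mul_of_nonneg_left hs (mul_nonneg hq1 (mul_nonneg hc0 hs0))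
  have h2 : (q - 1) * (c * s) * q ^ 2 < q ^ 4 * (q ^ 2 + 1) * q ^ 2 :=
    mul_lt_mul_of_pos_right hlt (pow_pos (by linarith) 2)
  have h5 : (q - 1) * G * h * (q ^ 2 - 1) * q ^ 4 < q ^ 2 * (q ^ 2 + 1) * q ^ 4 := by
    calc _ < _ := lt_of_le_of_lt h1 h2
      _ = _ := by ring
  have h6 := lt_of_mul_lt_mul_right h5 (by positivity)
  have e1 : (q - 1) ^ 2 * (q - 2) ≤ 4 * ((q - 1) * G * h) := by
    have := mul_le_mul (mul_le_mul_of_nonneg_left hG hq1) hh (by linarith)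
      (mul_nonneg (by linarith) (by linarith))
    linarith
  have e2 := mul_le_mul_of_nonneg_right e1 (by nlinarith only [hq] : (0 : ℤ) ≤ q ^ 2 - 1)
  have e3 : 64 * q ^ 2 * 7 ≤ 81 * (q - 1) ^ 2 * (q - 2) :=
    mul_le_mul (by nlinarith only [hq]) (by linarith) (by norm_num) (by positivity)
  have e4 := mul_le_mul e3 (show 80 * (q ^ 2 + 1) ≤ 82 * (q ^ 2 - 1) by nlinarith only [hq])
    (by positivity) (mul_nonneg (by positivity) (by linarith))
  have e5 : (0 : ℤ) < q ^ 2 * (q ^ 2 + 1) := by positivity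
  nlinarith only [h6, e2, e4, e5]

end CfsgLib.MinIndexOrth.Arith
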