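import Cfsg.Agent.Lib.MinIndex.Orth.Main
import Cfsg.Agent.Lib.ClassicalForms.Ortho.POmega

/-!
The stabiliser of a singular point, and the transfer to `Cfsg.POmega`.
-/

set_option autoImplicit false
set_option linter.unusedSectionVars false

namespace CfsgLib.MinIndexOrth

open QuadraticMap Module CfsgLib.ClassicalForms

variable {F V : Type*} [Field F] [AddCommGroup V] [Module F V] {Q : QuadraticForm F V}

/-- The stabiliser of a line in the Siegel group. -/
def lineStab (Q : QuadraticForm F V) (x : V) : Subgroup (siegelGroup Q) where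
  carrier := {g | ∃ c : Fˣ, ap g x = (c : F) • x}
  one_mem' := ⟨1, by rw [ap_one, Units.val_one, one_smul]⟩
  mul_mem' := by
    rintro a b ⟨c, hc⟩ ⟨d, hd⟩
    exact ⟨c * d, by rw [ap_mul, hd, map_smul, hc, smul_smul, Units.val_mul, mul_comm]⟩
  inv_mem' := by
    rintro a ⟨c, hc⟩
    refine ⟨c⁻¹, (ap a).injective ?_⟩
    rw [ap_inv', map_smul, hc, smul_smul, Units.inv_mul, one_smul]

variable [Finite F] [FiniteDimensional F V]

theorem index_lineStab_of {x : V} {P : V → Prop} (hx0 : x ≠ 0)
    (horb' : ∀ v, (∃ g : siegelGroup Q, ap g x = v) ↔ P v) (hscale : ∀ c : Fˣ, P ((c : F) • x)) :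
    (Nat.card F - 1) * (lineStab Q x).index = Nat.card {v : V // P v} := by
  have : Finite V := Module.finite_of_finite F
  letI : MulAction (siegelGroup Q) V :=
    { smul := fun g v => ap g v
      one_smul := fun v => ap_one v
      mul_smul := fun g k v => ap_mul g k v }
  have horb : MulAction.orbit (siegelGroup Q) x = {v : V | P v} := by
    ext v
    exact horb' v
  have hle : MulAction.stabilizer (siegelGroup Q) x ≤ lineStab Q x := fun g hg => by
    refine ⟨1, ?_⟩
    rw [Units.val_one, one_smul]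
    exact MulAction.mem_stabilizer_iff.1 hg
  -- the character of the stabiliser of the line
  have huniq : ∀ c d : Fˣ, (c : F) • x = (d : F) • x → c = d := fun c d h =>
    Units.ext (smul_left_injective F hx0 h)
  let χ : lineStab Q x →* Fˣ :=
    { toFun := fun g => g.2.choose
      map_one' := huniq _ _ (by
        rw [← (1 : lineStab Q x).2.choose_spec, Units.val_one, one_smul]
        exact ap_one x)
      map_mul' := fun a b => huniq _ _ (by
        rw [← (a * b).2.choose_spec, Units.val_mul, mul_comm, ← smul_smul, ← a.2.choose_spec,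
          ← map_smul, ← b.2.choose_spec]
        rfl) }
  have hχ : ∀ g : lineStab Q x, ap (g : siegelGroup Q) x = (χ g : F) • x := fun g => g.2.choose_spec
  have hsurj : Function.Surjective χ := fun c => by
    obtain ⟨g, e⟩ := (horb' _).2 (hscale c)
    exact ⟨⟨g, c, e⟩, huniq _ _ ((hχ _).symm.trans e)⟩
  have hker : (MulAction.stabilizer (siegelGroup Q) x).subgroupOf (lineStab Q x) = χ.ker := by
    ext g
    rw [Subgroup.mem_subgroupOf, MulAction.mem_stabilizer_iff, MonoidHom.mem_ker]
    refine ⟨fun h => huniq _ _ ?_, fun h => ?_⟩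
    · rw [← hχ, Units.val_one, one_smul]; exact h
    · have := hχ g
      rwa [h, Units.val_one, one_smul] at this
  have h1 := Subgroup.relIndex_mul_index hle
  rw [Subgroup.relIndex, hker, Subgroup.index_ker,
    show χ.range = ⊤ from MonoidHom.range_eq_top.2 hsurj,
    Nat.card_congr Subgroup.topEquiv.toEquiv, Nat.card_units,
    MulAction.index_stabilizer, horb, ← Nat.card_coe_set_eq] at h1
  rw [h1]
  rfl

theorem index_lineStab (hQ : Nondeg Q) (hn : 5 ≤ finrank F V) {x : V} (hx : Q x = 0) (hx0 : x ≠ 0) :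
    (Nat.card F - 1) * (lineStab Q x).index = vc Q 0 - 1 := by
  have : Finite V := Module.finite_of_finite F
  rw [index_lineStab_of (Q := Q) (P := fun v : V => Q v = 0 ∧ v ≠ 0) hx0 (fun v => ⟨?_, ?_⟩)
    (fun c => ⟨by rw [QuadraticMap.map_smul, hx, smul_zero], smul_ne_zero c.ne_zero hx0⟩)]
  · rw [vc, ← card_punctured (fun v : V => Q v = 0) (QuadraticMap.map_zero Q), Nat.add_sub_cancel]
  · rintro ⟨g, rfl⟩
    exact ⟨(Q_ap g x).trans hx, (LinearEquiv.map_ne_zero_iff (ap g)).2 hx0⟩
  · rintro ⟨hv, hv0⟩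
    obtain ⟨g, hg, e⟩ := (Sec.top Q).transitive_singular hQ (by omega) (Sec.mem_top x)
      (Sec.mem_top v) hx hv hx0 hv0
    exact ⟨⟨g, hg.1⟩, e⟩

lemma center_le_lineStab (hQ : Nondeg Q) (hn : 5 ≤ finrank F V) (x : V) :
    Subgroup.center (siegelGroup Q) ≤ lineStab Q x := by
  intro g hg
  obtain ⟨c, hc, h⟩ := eq_smul_of_centralizes hQ hn (g : orth Q) fun s hs =>
    (congrArg Subtype.val (Subgroup.mem_center_iff.1 hg ⟨s, hs⟩)).symm
  exact ⟨⟨c, c, hc, hc⟩, h x⟩

/-- Minimal index of a simple quotient of a Siegel group, given the bound upstairs. -/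
theorem minIndex_of_bound {K : Type*} [Field K] [Finite K] {ι : Type} [Fintype ι] [DecidableEq ι]
    {f : (ι → K) → K} (Q : QuadraticForm K (ι → K)) (h : ∀ v, Q v = f v) (hQ : Nondeg Q)
    (hn : 7 ≤ finrank K (ι → K)) (hgen : IsGen Q)
    (hbound : ∀ H : Subgroup (siegelGroup Q), H ≠ ⊤ →
      vc Q 0 - 1 ≤ (Nat.card K - 1) * H.index) :
    (∀ H : Subgroup (Cfsg.POmega K f), H ≠ ⊤ → (vc Q 0 - 1) / (Nat.card K - 1) ≤ H.index) ∧
      ∃ H : Subgroup (Cfsg.POmega K f), H.index = (vc Q 0 - 1) / (Nat.card K - 1) := by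
  set e := pOmegaEquiv Q h (commutator_eq_siegelGroup hQ (by omega) hgen) with he
  set π : siegelGroup Q →* Cfsg.POmega K f :=
    e.symm.toMonoidHom.comp (QuotientGroup.mk' _) with hπ
  have hsurj : Function.Surjective π :=
    e.symm.surjective.comp (QuotientGroup.mk'_surjective _)
  have hker : π.ker = Subgroup.center (siegelGroup Q) := by
    ext g
    rw [MonoidHom.mem_ker, hπ, MonoidHom.comp_apply]
    exact (e.symm.map_eq_one_iff).trans (QuotientGroup.eq_one_iff g)
  obtain ⟨x, hx0, hx, -⟩ := exists_singular_ker Q (Sec.top Q).φ (by omega)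
  have hline := index_lineStab hQ (by omega) hx hx0
  have hval : (vc Q 0 - 1) / (Nat.card K - 1) = (lineStab Q x).index := by
    rw [← hline, Nat.mul_div_cancel_left _ (Nat.sub_pos_of_lt Finite.one_lt_card)]
  refine ⟨fun H hH => ?_, (lineStab Q x).map π, ?_⟩
  · rw [← Subgroup.index_comap_of_surjective H hsurj]
    refine Nat.div_le_of_le_mul (hbound _ fun htop => hH ?_)
    exact Subgroup.comap_injective hsurj (htop.trans (Subgroup.comap_top π).symm)
  · rw [hval]
    exact Subgroup.index_map_eq _ hsurj (hker ▸ center_le_lineStab hQ (by omega) x)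

/-- Minimal index of a simple quotient of a Siegel group, attained at the stabiliser of a line. -/
theorem minIndex_of_stab {K : Type*} [Field K] [Finite K] {ι : Type} [Fintype ι] [DecidableEq ι]
    {f : (ι → K) → K} (Q : QuadraticForm K (ι → K)) (h : ∀ v, Q v = f v) (hQ : Nondeg Q)
    (hn : 7 ≤ finrank K (ι → K)) (hgen : IsGen Q) {N : ℕ}
    (hbound : ∀ H : Subgroup (siegelGroup Q), H ≠ ⊤ → N ≤ H.index) {x : ι → K}
    (hx : (lineStab Q x).index = N) :
    (∀ H : Subgroup (Cfsg.POmega K f), H ≠ ⊤ → N ≤ H.index) ∧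
      ∃ H : Subgroup (Cfsg.POmega K f), H.index = N := by
  set e := pOmegaEquiv Q h (commutator_eq_siegelGroup hQ (by omega) hgen) with he
  set π : siegelGroup Q →* Cfsg.POmega K f :=
    e.symm.toMonoidHom.comp (QuotientGroup.mk' _) with hπ
  have hsurj : Function.Surjective π :=
    e.symm.surjective.comp (QuotientGroup.mk'_surjective _)
  have hker : π.ker = Subgroup.center (siegelGroup Q) := by
    ext g
    rw [MonoidHom.mem_ker, hπ, MonoidHom.comp_apply]
    exact (e.symm.map_eq_one_iff).trans (QuotientGroup.eq_one_iff g)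
  refine ⟨fun H hH => ?_, (lineStab Q x).map π, ?_⟩
  · rw [← Subgroup.index_comap_of_surjective H hsurj]
    refine hbound _ fun htop => hH ?_
    exact Subgroup.comap_injective hsurj (htop.trans (Subgroup.comap_top π).symm)
  · rw [← hx]
    exact Subgroup.index_map_eq _ hsurj (hker ▸ center_le_lineStab hQ (by omega) x)

/-- Minimal index, for a simple quotient of a Siegel group. -/
theorem minIndex_pOmega {K : Type*} [Field K] [Finite K] {ι : Type} [Fintype ι] [DecidableEq ι]
    {f : (ι → K) → K} (Q : QuadraticForm K (ι → K)) (h : ∀ v, Q v = f v) (hQ : Nondeg Q)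
    (hn : 7 ≤ finrank K (ι → K)) (hgen : IsGen Q) (hq : 4 ≤ Nat.card K) :
    (∀ H : Subgroup (Cfsg.POmega K f), H ≠ ⊤ → (vc Q 0 - 1) / (Nat.card K - 1) ≤ H.index) ∧
      ∃ H : Subgroup (Cfsg.POmega K f), H.index = (vc Q 0 - 1) / (Nat.card K - 1) :=
  minIndex_of_bound Q h hQ hn hgen (le_index hQ hn hq)

end CfsgLib.MinIndexOrth
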