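import Cfsg.Agent.Lib.MinIndex.Orth.Levi2
import Cfsg.Agent.Lib.ClassicalForms.Ortho.POmegaCard
import Cfsg.Agent.Lib.MinIndex.Orth.AnisoBound
import Cfsg.Agent.Lib.MinIndex.Orth.Arith2

/-!
Classification of the additive subgroups with a short orbit under a Levi-type group: the annihilator
is small, or it is a maximal totally singular subspace in dimension five or six.
-/

set_option autoImplicit false
set_option linter.unusedSectionVars false

namespace CfsgLib.MinIndexOrth

open QuadraticMap Module CfsgLib.ClassicalForms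

variable {F : Type*} [Field F] [Finite F] {M : Type*} [AddCommGroup M] [Module F M]
  [FiniteDimensional F M] [Finite M] {Q : QuadraticForm F M}

/-- The numerical condition that makes the commutator argument work. -/
def Small (F : Type*) [Field F] (M : Type*) [AddCommGroup M] [Module F M] (p s : ℕ) : Prop :=
  s * s < Nat.card F ^ (finrank F M - 2) * p * p

/-- The exceptional kind: the annihilator is a maximal totally singular subspace. -/
def IsMid (L : Lev Q) (A : AddSubgroup M) : Prop :=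
  ∃ E : Submodule F M, (∀ x, x ∈ E ↔ x ∈ ann Q A) ∧ (∀ x ∈ E, Q x = 0) ∧ 2 ≤ finrank F E ∧
    ((finrank F M = 5 ∧ finrank F E = 2) ∨ (finrank F M = 6 ∧ finrank F E = 3)) ∧
    Nat.card F * (vc Q 0 - 1) < (Nat.card F - 1) * (L.cnum A * Nat.card (ann Q A)) ∧
    ∃ r : ℕ, (Nat.card F - 1) * (1 + Nat.card F ^ finrank F M) + Nat.card F * (vc Q 0 - 1)
        ≤ (Nat.card F - 1) * (L.cnum A * Nat.card (ann Q A) + r) ∧
      r * r < 4 * (L.cnum A * Nat.card (ann Q A)) ∧ r < L.cnum A * Nat.card (ann Q A) ∧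
      (Nat.card F - 1) * r < Nat.card F * (vc Q 0 - 1)

lemma spanSing_perp {S : AddSubgroup M}
    (hperp : ∀ v ∈ S, Q v = 0 → ∀ w ∈ S, polar Q v w = 0) :
    (∀ x ∈ Lev.spanSing Q S, ∀ w ∈ S, polar Q x w = 0) ∧ ∀ x ∈ Lev.spanSing Q S, Q x = 0 := by
  have h1 : ∀ x ∈ Lev.spanSing Q S, ∀ w ∈ S, polar Q x w = 0 := fun x hx => by
    induction hx using Submodule.span_induction with
    | mem y hy => exact fun w hw => hperp y hy.1 hy.2 w hw
    | zero => intro w _; exact polar_zero_left _ w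
    | add a b _ _ ha hb => intro w hw; rw [polar_add_left, ha w hw, hb w hw, add_zero]
    | smul c a _ ha => intro w hw; rw [polar_smul_left, ha w hw, smul_zero]
  refine ⟨h1, fun x hx => ?_⟩
  have h2 : ∀ x ∈ Lev.spanSing Q S, Q x = 0 ∧ ∀ y ∈ Lev.spanSing Q S, polar Q x y = 0 := by
    intro x hx
    induction hx using Submodule.span_induction with
    | mem z hz =>
      exact ⟨hz.2, fun y hy => by rw [polar_comm]; exact h1 y hy z hz.1⟩
    | zero => exact ⟨QuadraticMap.map_zero Q, fun y _ => polar_zero_left _ y⟩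
    | add a b _ hb' ha hb =>
      exact ⟨by rw [QuadraticMap.map_add ⇑Q, ha.1, hb.1, ha.2 b hb', add_zero, add_zero],
        fun y hy => by rw [polar_add_left, ha.2 y hy, hb.2 y hy, add_zero]⟩
    | smul c a _ ha =>
      exact ⟨by rw [QuadraticMap.map_smul, ha.1, smul_zero],
        fun y hy => by rw [polar_smul_left, ha.2 y hy, smul_zero]⟩
  exact (h2 x hx).1

lemma spanSing_le_ann {S : AddSubgroup M}
    (hperp : ∀ v ∈ S, Q v = 0 → ∀ w ∈ S, polar Q v w = 0) :
    ∀ x ∈ Lev.spanSing Q S, x ∈ ann Q S := fun x hx w hw => by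
  rw [pp_apply, (spanSing_perp hperp).1 x hx w hw, AddChar.map_zero_eq_one]

/-- A totally singular subspace contained in a subgroup and of half dimension is its own
annihilator. -/
lemma ann_eq_of_half (hQ : Nondeg Q) {E : Submodule F M} (hts : ∀ x ∈ E, Q x = 0)
    (hk : 2 * finrank F E = finrank F M) : ann Q E.toAddSubgroup = E.toAddSubgroup := by
  refine (AddSubgroup.eq_of_le_of_card_ge (fun x hx w hw => ?_) (le_of_eq ?_)).symm
  · rw [pp_apply, polar, hts _ (add_mem hx hw), hts x hx, hts w hw, sub_zero, sub_zero,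
      AddChar.map_zero_eq_one]
  · have h1 := card_ann hQ E.toAddSubgroup
    have h2 : Nat.card E.toAddSubgroup = Nat.card F ^ finrank F E := Lev.card_submodule E
    rw [← hk, two_mul, pow_add, h2] at h1
    rw [h2]
    exact Nat.eq_of_mul_eq_mul_left (pow_pos Nat.card_pos _) h1

section

variable (hQ : Nondeg Q) (hq : 4 ≤ Nat.card F) (hd : 5 ≤ finrank F M)
include hQ hq hd

lemma count_facts {j : ℕ} (hj : finrank F M = j + 5) :
    1 ≤ vc Q 0 ∧
    (Nat.card F : ℤ) ^ (j + 2) * ((Nat.card F : ℤ) ^ 2 - 2) ≤ (vc Q 0 : ℤ) - 1 ∧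
    (vc Q 0 : ℤ) ≤ (Nat.card F : ℤ) ^ (j + 4) + (Nat.card F : ℤ) ^ (j + 3) := by
  refine ⟨one_le_vc_zero Q, ?_, ?_⟩
  · have h := vc_lower hQ hd (0 : F)
    rw [hj, show j + 5 - 1 = j + 4 by omega, show j + 5 - 3 = j + 2 by omega] at h
    have h' : (Nat.card F : ℤ) ^ (j + 4) ≤ (vc Q 0 : ℤ) + (Nat.card F : ℤ) ^ (j + 2) := by
      exact_mod_cast h
    have h1 : (1 : ℤ) ≤ (Nat.card F : ℤ) ^ (j + 2) := one_le_pow₀ (by omega)
    have e : (Nat.card F : ℤ) ^ (j + 4) = (Nat.card F : ℤ) ^ (j + 2) * (Nat.card F : ℤ) ^ 2 := by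
      ring
    linarith
  · have h := vc_upper hQ hd (0 : F)
    rw [hj, show j + 5 - 1 = j + 4 by omega, show j + 5 - 2 = j + 3 by omega] at h
    exact_mod_cast h

lemma gam_facts :
    (Nat.card F : ℤ) - 1 ≤ 2 * (Lev.gam F : ℤ) ∧
      ((Nat.card F : ℤ) = 4 → 3 ≤ (Lev.gam F : ℤ)) := by
  refine ⟨?_, fun h => ?_⟩
  · have := Lev.le_two_mul_gam (F := F)
    omega
  · have h4 : Nat.card F = 4 := by exact_mod_cast h
    have h2 : (2 : F) = 0 := by
      by_contra h2
      have := card_odd_of_two_ne_zero h2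
      rw [h4] at this
      exact absurd this (by decide)
    have := Lev.gam_eq_of_two_eq_zero h2
    omega

lemma five_le_of_five (h5 : finrank F M = 5) : 5 ≤ Nat.card F ∧ Odd (Nat.card F) := by
  have h := card_odd_of_two_ne_zero (two_ne_zero_of_odd_finrank (F := F) 2 Q hQ (by omega))
  refine ⟨?_, h⟩
  obtain ⟨t, ht⟩ := h
  omega

lemma singularPairs_gen {j : ℕ} (hj : finrank F M = j + 5) :
    ((vc Q 0 : ℤ) - 1) * ((Nat.card F : ℤ) * (((Nat.card F : ℤ) - 1) * (Nat.card F : ℤ) ^ (j + 1)))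
      ≤ (Nat.card (singularPairs Q) : ℤ) := by
  have h := singularPairs_lower (Q := Q) hQ ((Nat.card F - 1) * Nat.card F ^ (j + 1))
    fun v v' hp => by
      have hr := finrank_perp2 hp
      have h1 := le_vc_zero_of_three (nondeg_q2 hQ hp) (by omega)
      rw [show finrank F (perp2 Q v v') - 2 = j + 1 by omega] at h1
      omega
  have hZ := one_le_vc_zero Q
  have h' : (((vc Q 0 - 1) * (Nat.card F * ((Nat.card F - 1) * Nat.card F ^ (j + 1))) : ℕ) : ℤ)
      ≤ (Nat.card (singularPairs Q) : ℤ) := by exact_mod_cast h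
  push_cast [hZ, (by omega : 1 ≤ Nat.card F)] at h'
  exact h'

/-- The span bound, dimension five. -/
lemma enum_five (L : Lev Q) {A : AddSubgroup M} (hts : ∀ x ∈ Lev.spanSing Q A, Q x = 0)
    (hk : finrank F (Lev.spanSing Q A) = 2) (h5 : finrank F M = 5) :
    (Nat.card F + 1) * (Nat.card F ^ 2 + 1) ≤ L.enum A ∧ vc Q 0 = Nat.card F ^ 4 := by
  have hZ : vc Q 0 = Nat.card F ^ 4 := vc_zero_odd 2 Q hQ (by omega)
  refine ⟨?_, hZ⟩
  have h1 := singularPairs_lower (Q := Q) hQ (Nat.card F ^ 2 - 1) fun v v' hp => by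
    have hr := finrank_perp2 hp
    rw [vc_zero_odd 1 (q2 Q v v') (nondeg_q2 hQ hp) (by omega)]
    have := Nat.one_le_pow 2 (Nat.card F) Nat.card_pos
    simp only [Nat.mul_one]
    omega
  have h2 := h1.trans (L.enum_bound_pairs hQ hd hts (by omega))
  rw [hk, hZ] at h2
  obtain ⟨r, hr⟩ : ∃ r, Nat.card F = r + 1 := ⟨Nat.card F - 1, by omega⟩
  rw [hr] at h2 ⊢
  rw [show (r + 1) ^ 4 - 1 = (r + 2) * ((r + 1) ^ 2 + 1) * r by
        apply Nat.sub_eq_of_eq_add; ring,
    show (r + 1) ^ 2 - 1 = r * (r + 2) by apply Nat.sub_eq_of_eq_add; ring,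
    show (r + 1) ^ 2 - (r + 1) = r * (r + 1) by apply Nat.sub_eq_of_eq_add; ring] at h2
  have h3 : (r + 1 + 1) * ((r + 1) ^ 2 + 1) * (r * (r + 2) * (r * (r + 1)))
      ≤ L.enum A * (r * (r + 2) * (r * (r + 1))) := by
    refine le_trans (le_of_eq ?_) h2
    ring
  have hr0 : 0 < r := by omega
  exact Nat.le_of_mul_le_mul_right h3 (by positivity)

/-- The span bound, dimension six, hyperbolic. -/
lemma enum_six (L : Lev Q) {A : AddSubgroup M} (hts : ∀ x ∈ Lev.spanSing Q A, Q x = 0)
    (hk : finrank F (Lev.spanSing Q A) = 3) (h6 : finrank F M = 6) :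
    (Nat.card F ^ 2 + 1) * (Nat.card F + 1) ≤ L.enum A ∧
      vc Q 0 + Nat.card F ^ 2 = Nat.card F ^ 5 + Nat.card F ^ 3 := by
  have hZ := vc_zero_hyperbolic 2 Q hQ (by omega) ⟨_, hk, hts⟩
  refine ⟨?_, hZ⟩
  have h1 := singularPairs_lower (Q := Q) hQ ((Nat.card F - 1) * (Nat.card F + 1) ^ 2)
    fun v v' hp => by
      have hs := vc_step' hp (0 : F)
      rw [h6, show 6 - 2 = 4 by omega] at hs
      obtain ⟨r, hr⟩ : ∃ r, Nat.card F = r + 1 := ⟨Nat.card F - 1, by omega⟩
      rw [hr] at hs hZ ⊢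
      rw [Nat.add_sub_cancel] at hs ⊢
      have h : (r + 1) * (r * (r + 1 + 1) ^ 2 + 1) = (r + 1) * vc (q2 Q v v') 0 := by
        ring_nf at hs hZ ⊢
        omega
      exact le_of_eq (Nat.eq_of_mul_eq_mul_left (by omega) h)
  have h2 := h1.trans (L.enum_bound_pairs hQ hd hts (by omega))
  rw [hk] at h2
  obtain ⟨r, hr⟩ : ∃ r, Nat.card F = r + 1 := ⟨Nat.card F - 1, by omega⟩
  rw [hr] at h2 hZ ⊢
  have e1 : vc Q 0 - 1 = ((r + 1) ^ 2 + 1) * ((r + 1) ^ 2 + (r + 1) + 1) * r := by
    apply Nat.sub_eq_of_eq_add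
    apply Nat.add_right_cancel (m := (r + 1) ^ 2)
    rw [hZ]; ring
  rw [Nat.add_sub_cancel, e1,
    show (r + 1) ^ 3 - 1 = r * ((r + 1) ^ 2 + (r + 1) + 1) by apply Nat.sub_eq_of_eq_add; ring,
    show (r + 1) ^ 3 - (r + 1) = r * (r + 1) * (r + 2) by apply Nat.sub_eq_of_eq_add; ring] at h2
  have h3 : ((r + 1) ^ 2 + 1) * (r + 1 + 1) *
      (r * ((r + 1) ^ 2 + (r + 1) + 1) * (r * (r + 1) * (r + 2)))
      ≤ L.enum A * (r * ((r + 1) ^ 2 + (r + 1) + 1) * (r * (r + 1) * (r + 2))) := by
    refine le_trans (le_of_eq ?_) h2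
    ring
  have hr0 : 0 < r := by omega
  exact Nat.le_of_mul_le_mul_right h3 (by positivity)

end

variable {p : ℕ} [Fact p.Prime] [CharP F p]

lemma exists_card_pow : ∃ e, 0 < e ∧ Nat.card F = p ^ e := by
  have := Fintype.ofFinite F
  obtain ⟨e, -, he⟩ := FiniteField.card F p
  exact ⟨e, e.pos, by rw [Nat.card_eq_fintype_card, he]⟩

lemma card_prime_of_small (h : Nat.card F = 5 ∨ Nat.card F = 7) : Nat.card F = p := by
  obtain ⟨e, he, hc⟩ := exists_card_pow (F := F) (p := p)
  have hp : p.Prime := Fact.out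
  have : (p ^ e).Prime := by rw [← hc]; rcases h with h | h <;> rw [h] <;> norm_num
  rw [hc, (Nat.Prime.pow_eq_iff this).1 rfl |>.2, pow_one]

/-- The classification. -/
theorem classify (L : Lev Q) (hQ : Nondeg Q) (hq : 4 ≤ Nat.card F) (hd : 5 ≤ finrank F M)
    {A : AddSubgroup M} (hA0 : A ≠ ⊥) (hA1 : A ≠ ⊤)
    (hlt : (Nat.card F - 1) * (L.cnum A * Nat.card (ann Q A))
      < (Nat.card F - 1) * (1 + Nat.card F ^ finrank F M) + Nat.card F * (vc Q 0 - 1)) :
    (Small F M p (Nat.card (ann Q A)) ∧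
      Nat.card F * (vc Q 0 - 1) ≤ (Nat.card F - 1) * (L.cnum A * Nat.card (ann Q A))) ∨
    IsMid L A := by
  obtain ⟨j, hj⟩ : ∃ j, finrank F M = j + 5 := ⟨finrank F M - 5, by omega⟩
  obtain ⟨hG, hG4⟩ := gam_facts hQ hq hd
  obtain ⟨hZ1, hZlo, hZhi⟩ := count_facts hQ hq hd hj
  have hp2 : 2 ≤ p := (Fact.out : p.Prime).two_le
  set W := ann Q A with hW
  have hAW : ann Q W = A := ann_ann hQ A
  have hcard : Nat.card A * Nat.card W = Nat.card F ^ (j + 5) := by rw [← hj]; exact card_ann hQ A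
  have hc0 : 0 < L.cnum A := L.cnum_pos A
  have hcW : L.flip.cnum W = L.cnum A := L.cnum_ann hQ A
  have hj0 : j = 0 → 5 ≤ Nat.card F := fun h => (five_le_of_five hQ hq hd (by omega)).1
  set q := Nat.card F with hqdef
  set c := L.cnum A with hc
  set a := Nat.card A with ha
  set s := Nat.card W with hs
  have hqZ : (4 : ℤ) ≤ (q : ℤ) := by exact_mod_cast hq
  have hasZ : (a : ℤ) * (s : ℤ) = (q : ℤ) ^ (j + 5) := by exact_mod_cast hcard
  have hltZ : ((q : ℤ) - 1) * ((c : ℤ) * (s : ℤ))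
      < (q : ℤ) ^ (j + 4) * ((q : ℤ) ^ 2 + 1) := by
    have h' : (((q - 1) * (c * s) : ℕ) : ℤ)
        < (((q - 1) * (1 + q ^ finrank F M) + q * (vc Q 0 - 1) : ℕ) : ℤ) := by exact_mod_cast hlt
    push_cast [hZ1, (by omega : 1 ≤ q)] at h'
    rw [hj] at h'
    have e1 : (q : ℤ) * ((vc Q 0 : ℤ) - 1)
        ≤ (q : ℤ) * ((q : ℤ) ^ (j + 4) + (q : ℤ) ^ (j + 3) - 1) := by gcongr
    have e2 : ((q : ℤ) - 1) * (1 + (q : ℤ) ^ (j + 5))
        + (q : ℤ) * ((q : ℤ) ^ (j + 4) + (q : ℤ) ^ (j + 3) - 1)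
        = (q : ℤ) ^ (j + 4) * ((q : ℤ) ^ 2 + 1) - 1 := by ring
    linarith
  have ha1 : 1 < a := by
    rw [ha]; exact (AddSubgroup.one_lt_card_iff_ne_bot A).2 hA0
  have hs1 : 1 < s := by
    by_contra hcon
    have hs' : s = 1 := by
      have : 0 < s := Nat.card_pos
      omega
    refine hA1 (AddSubgroup.eq_top_of_card_eq A ?_)
    rw [hs', mul_one] at hcard
    rw [show Nat.card M = q ^ finrank F M from card_eq_pow, hj]
    exact hcard
  -- `A` has singular vectors
  have hAsing : ∃ v ∈ A, Q v = 0 ∧ v ≠ 0 := by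
    by_contra hcon
    simp only [not_exists, not_and, not_not] at hcon
    have h1 : a ≤ q ^ 2 := card_le_of_anisotropic Q A fun x hx hx0 => hcon x hx hx0
    obtain ⟨w, hw, hw0⟩ := (AddSubgroup.ne_bot_iff_exists_ne_zero.1 hA0 : ∃ w : A, w ≠ 0).elim
      fun w hw => (⟨(w : M), w.2, fun h => hw (Subtype.ext h)⟩ : ∃ w ∈ A, w ≠ (0 : M))
    have h2 := L.value_bound hQ hd hw fun h => hw0 (hcon w hw h)
    rw [hj, show j + 5 - 1 = j + 4 by omega, show j + 5 - 3 = j + 2 by omega] at h2
    have h2' : (Lev.gam F : ℤ) * (q : ℤ) ^ (j + 4)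
        ≤ (c : ℤ) * (a : ℤ) + (Lev.gam F : ℤ) * (q : ℤ) ^ (j + 2) := by
      have h3 : Lev.gam F * q ^ (j + 4) ≤ c * a + Lev.gam F * q ^ (j + 2) :=
        h2.trans (Nat.add_le_add_right (Nat.mul_le_mul_left _ (Nat.sub_le _ _)) _)
      exact_mod_cast h3
    exact Arith.no_aniso hqZ (fun h => by exact_mod_cast hj0 h) hG hG4 (Int.natCast_nonneg c)
      (Int.natCast_nonneg a) (Int.natCast_nonneg s) hasZ hltZ h2' (by exact_mod_cast h1)
  -- non-orthogonal bound
  have hnp : ∀ (L' : Lev Q) (S : AddSubgroup M) (v w : M), v ∈ S → w ∈ S → Q v = 0 →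
      polar Q v w ≠ 0 → ((vc Q 0 : ℤ) - 1) * (Lev.gam F : ℤ) * (q : ℤ) ^ (j + 3)
        ≤ (L'.cnum S : ℤ) * ((Nat.card S : ℤ) * (Nat.card S : ℤ)) := by
    intro L' S v w hv hw hQv hvw
    have h := L'.nonperp_bound hQ hd hv hw hQv hvw
    rw [hj, show j + 5 - 2 = j + 3 by omega] at h
    have h' : (((vc Q 0 - 1) * Lev.gam F * q ^ (j + 3) : ℕ) : ℤ)
        ≤ ((L'.cnum S * (Nat.card S * Nat.card S) : ℕ) : ℤ) := by exact_mod_cast h
    push_cast [hZ1] at h'
    exact h'
  by_cases hWs : ∀ x ∈ W, Q x = 0 → x = 0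
  · -- anisotropic annihilator
    left
    have hs2 : s ≤ q ^ 2 := card_le_of_anisotropic Q W hWs
    obtain ⟨w, hw, hw0⟩ : ∃ w ∈ W, w ≠ 0 := by
      have : W ≠ ⊥ := (AddSubgroup.one_lt_card_iff_ne_bot W).1 hs1
      obtain ⟨w, hw⟩ := AddSubgroup.ne_bot_iff_exists_ne_zero.1 this
      exact ⟨(w : M), w.2, fun h => hw (Subtype.ext h)⟩
    have hQw : Q w ≠ 0 := fun h => hw0 (hWs w hw h)
    refine ⟨?_, ?_⟩
    · by_cases h6 : 6 ≤ finrank F M
      · calc s * s ≤ q ^ 2 * q ^ 2 := Nat.mul_le_mul hs2 hs2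
          _ = q ^ 4 * 1 := by ring
          _ < q ^ 4 * (p * p) := Nat.mul_lt_mul_of_pos_left (by nlinarith) (pow_pos (by omega) 4)
          _ ≤ q ^ (finrank F M - 2) * (p * p) :=
              Nat.mul_le_mul_right _ (Nat.pow_le_pow_right (by omega) (by omega))
          _ = _ := by ring
      · have h5 : finrank F M = 5 := by omega
        show s * s < q ^ (finrank F M - 2) * p * p
        rw [h5]
        by_cases hsq : s ≤ q
        · calc s * s ≤ q * q * 1 := by rw [mul_one]; exact Nat.mul_le_mul hsq hsq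
            _ < q * q * (q * p * p) := Nat.mul_lt_mul_of_pos_left
                (lt_of_lt_of_le hp2 (Nat.le_mul_of_pos_left p (Nat.mul_pos (by omega) (by omega))))
                (Nat.mul_pos (by omega) (by omega))
            _ = _ := by ring
        · have hindep : ∃ w' ∈ W, ∀ t : F, w' ≠ t • w := by
            by_contra hcon
            simp only [not_exists, not_and, not_forall, not_not] at hcon
            refine hsq ?_
            rw [show q = Nat.card (Submodule.span F ({w} : Set M)) from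
              (Lev.card_span_singleton hw0).symm, hs]
            refine Nat.card_le_card_of_injective (fun x : W => (⟨(x : M), ?_⟩ :
              Submodule.span F ({w} : Set M))) fun x y h => Subtype.ext
                (congrArg (fun t : Submodule.span F ({w} : Set M) => (t : M)) h)
            obtain ⟨t, ht⟩ := hcon (x : M) x.2
            exact Submodule.mem_span_singleton.2 ⟨t, ht.symm⟩
          obtain ⟨w', hw', hind⟩ := hindep
          obtain ⟨hq5, hodd⟩ := five_le_of_five hQ hq hd h5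
          by_cases hq9 : 9 ≤ q
          · exfalso
            have h2 : (2 : F) ≠ 0 := two_ne_zero_of_odd_finrank (F := F) 2 Q hQ (by omega)
            have h1 := L.flip.two_value_bound hQ h2 hd hw hw' hQw hind
            have h3 := Lev.valSet_lower (Q := Q) hQ hd hQw
            rw [hcW, h5] at h1
            rw [h5] at h3
            simp only [show 5 - 3 = 2 by omega, show 5 - 1 = 4 by omega] at h1 h3
            set V := Nat.card (Lev.valSet Q (Q w))
            have h1' : (V : ℤ) * ((((q - 1) / 2 : ℕ) : ℤ) * (q : ℤ) ^ 2)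
                ≤ (c : ℤ) * ((s : ℤ) * (s : ℤ)) := by exact_mod_cast h1
            have h3' : (Lev.gam F : ℤ) * (q : ℤ) ^ 4
                ≤ (V : ℤ) + (Lev.gam F : ℤ) * (q : ℤ) ^ 2 := by exact_mod_cast h3
            refine Arith.two_values (q := (q : ℤ)) (h := (((q - 1) / 2 : ℕ) : ℤ)) (c := (c : ℤ))
              (s := (s : ℤ)) (by exact_mod_cast hq9) hG (by omega) (Int.natCast_nonneg c)
              (Int.natCast_nonneg s) ?_ (by exact_mod_cast hs2) (le_trans ?_ h1')
            · rwa [show j = 0 by omega] at hltZ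
            · exact mul_le_mul_of_nonneg_right (by linarith) (by positivity)
          · have hqp : q = p := card_prime_of_small (by
              obtain ⟨t, ht⟩ := hodd
              omega)
            calc s * s ≤ q ^ 4 * 1 := by
                  rw [mul_one, show q ^ 4 = q ^ 2 * q ^ 2 by ring]
                  exact Nat.mul_le_mul hs2 hs2
              _ < q ^ 4 * q := Nat.mul_lt_mul_of_pos_left (by omega) (pow_pos (by omega) 4)
              _ = _ := by rw [← hqp, show 5 - 2 = 3 from rfl]; ring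
    · have h := L.flip.value_bound hQ hd hw hQw
      rw [hcW, hj, show j + 5 - 1 = j + 4 by omega, show j + 5 - 3 = j + 2 by omega] at h
      have h' : (((Lev.gam F * q ^ (j + 4)) : ℕ) : ℤ)
          ≤ ((c * (s - 1) + Lev.gam F * q ^ (j + 2) : ℕ) : ℤ) := by exact_mod_cast h
      push_cast [(by omega : 1 ≤ s)] at h'
      have h1 := Arith.value_strict hqZ hG hG4 (by exact_mod_cast hc0) hZhi h'
      have h2 : ((q * (vc Q 0 - 1) : ℕ) : ℤ) ≤ (((q - 1) * (c * s) : ℕ) : ℤ) := by
        push_cast [hZ1, (by omega : 1 ≤ q)]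
        exact h1.le
      exact_mod_cast h2
  simp only [not_forall] at hWs
  obtain ⟨v0, hv0W, hQv0, hv00⟩ := hWs
  -- is the annihilator degenerate on its singular vectors
  by_cases hWK : ∃ v ∈ W, Q v = 0 ∧ ∃ w ∈ W, polar Q v w ≠ 0
  · -- `W` has a non-orthogonal pair
    exfalso
    obtain ⟨v, hv, hQv, w, hw, hvw⟩ := hWK
    have hsK := hnp L.flip W v w hv hw hQv hvw
    rw [hcW] at hsK
    by_cases hAK : ∃ v ∈ A, Q v = 0 ∧ ∃ w ∈ A, polar Q v w ≠ 0
    · obtain ⟨v', hv', hQv', w', hw', hvw'⟩ := hAK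
      have haK := hnp L A v' w' hv' hw' hQv' hvw'
      by_cases hj9 : j = 0 → 9 ≤ q
      · exact Arith.both_nonperp hqZ (fun h => by exact_mod_cast hj9 h) hG hG4
          (Int.natCast_nonneg c) (Int.natCast_nonneg a) (Int.natCast_nonneg s) hasZ hltZ hZlo
          haK hsK
      · simp only [Classical.not_imp, not_le] at hj9
        obtain ⟨rfl, hq9⟩ := hj9
        obtain ⟨hq5, hodd⟩ := five_le_of_five hQ hq hd (by omega)
        have hqq : q = 5 ∨ q = 7 := by
          obtain ⟨t, ht⟩ := hodd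
          omega
        have hqp : q = p := card_prime_of_small hqq
        have hqprime : q.Prime := hqp ▸ (Fact.out : p.Prime)
        obtain ⟨i, hi, hsi⟩ := (Nat.dvd_prime_pow hqprime).1 (⟨a, by rw [← hcard, mul_comm]⟩ :
          s ∣ q ^ (0 + 5))
        have hai : a = q ^ (5 - i) := by
          rw [hsi, show 0 + 5 = (5 - i) + i by omega, pow_add] at hcard
          exact Nat.eq_of_mul_eq_mul_right (pow_pos (by omega) i) hcard
        rw [vc_zero_odd 2 Q hQ (by omega)] at haK hsK
        rw [← ha, hai] at haK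
        rw [← hs, hsi] at hsK
        rw [hsi] at hltZ
        simp only [← hqdef, ← hc] at haK hsK
        push_cast at haK hsK hltZ
        have hg : (q : ℤ) - 1 ≤ 2 * (Lev.gam F : ℤ) := hG
        rcases hqq with h | h <;> rw [h] at haK hsK hltZ hg <;>
          interval_cases i <;> norm_num at haK hsK hltZ hg <;> linarith
    · simp only [not_exists, not_and, not_not] at hAK
      obtain ⟨hE1, hts⟩ := spanSing_perp hAK
      have hEW := spanSing_le_ann hAK
      obtain ⟨va, hva, hQva, hva0⟩ := hAsing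
      set k := finrank F (Lev.spanSing Q A) with hk
      have hk1 : 1 ≤ k := by
        have : va ∈ Lev.spanSing Q A := Submodule.subset_span ⟨hva, hQva⟩
        exact Submodule.one_le_finrank_iff.2 fun h => hva0 (by rwa [h, Submodule.mem_bot] at this)
      have hk2 : 2 * k ≤ finrank F M := two_mul_le_of_hasTS k Q hQ ⟨_, rfl, hts⟩
      have hec : (L.enum A : ℤ) ≤ (c : ℤ) := by exact_mod_cast L.enum_le_cnum A
      rcases eq_or_lt_of_le hk1 with hk1' | hk2'
      · have he := L.enum_bound_points hQ hd hva hQva hva0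
        rw [← hk, ← hk1', pow_one] at he
        have he' : (((vc Q 0 - 1 : ℕ)) : ℤ) ≤ ((L.enum A * (q - 1) : ℕ) : ℤ) := by exact_mod_cast he
        push_cast [hZ1, (by omega : 1 ≤ q)] at he'
        exact Arith.one_nonperp_point hqZ hG hG4 (Int.natCast_nonneg c) (Int.natCast_nonneg s)
          hltZ hZlo hec he' hsK
      · rcases lt_or_eq_of_le hk2 with hlt2 | heq2
        · rcases Nat.eq_zero_or_pos j with rfl | hj'
          · obtain ⟨he, hZ5⟩ := enum_five hQ hq hd L hts (by omega) (by omega)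
            rw [hZ5] at hsK
            push_cast at hsK
            refine Arith.one_nonperp_five (e := (L.enum A : ℤ)) (by exact_mod_cast hj0 rfl) hG
              (Int.natCast_nonneg c) (Int.natCast_nonneg s) hltZ hec
              (by exact_mod_cast he) hsK
          · have h1 := (singularPairs_gen hQ hq hd hj).trans
              (Int.ofNat_le.2 (L.enum_bound_pairs hQ hd hts hk2'))
            refine Arith.one_nonperp_span (k := k) (e := (L.enum A : ℤ)) hqZ hj' hG hG4 (by omega)
              (Int.natCast_nonneg c) (Int.natCast_nonneg s) hltZ hZlo hec (h1.trans ?_) hsK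
            have : (L.enum A * ((q ^ k - 1) * (q ^ k - q)) : ℕ) ≤ L.enum A * q ^ (2 * k) := by
              rw [two_mul, pow_add]
              exact Nat.mul_le_mul_left _ (Nat.mul_le_mul (Nat.sub_le _ _) (Nat.sub_le _ _))
            exact_mod_cast this
        · -- half dimension: `W` contains the span properly
          have hEeq := ann_eq_of_half hQ hts heq2
          have hsub : (Lev.spanSing Q A).toAddSubgroup ≤ W := hEW
          have hne : (Lev.spanSing Q A).toAddSubgroup ≠ W := fun h => hvw (by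
            rw [← h] at hv hw
            rw [polar, hts _ (Submodule.add_mem _ hv hw), hts v hv, hts w hw, sub_zero, sub_zero])
          have hdvd := AddSubgroup.card_dvd_of_le hsub
          have hE : Nat.card (Lev.spanSing Q A).toAddSubgroup = q ^ k := Lev.card_submodule _
          rw [hE, ← hs] at hdvd
          have hs2 : 2 * q ^ k ≤ s := by
            obtain ⟨t, ht⟩ := hdvd
            have : t ≠ 0 := fun h => by rw [h, mul_zero] at ht; omega
            have : t ≠ 1 := fun h => hne (AddSubgroup.eq_of_le_of_card_ge hsub (by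
              rw [hE, ← hs, ht, h, mul_one]))
            rw [ht, mul_comm]
            exact Nat.mul_le_mul_left _ (by omega)
          have hcs : 2 * (L.enum A * q ^ k) ≤ c * s := by
            calc 2 * (L.enum A * q ^ k) = L.enum A * (2 * q ^ k) := by ring
              _ ≤ c * s := Nat.mul_le_mul (L.enum_le_cnum A) hs2
          by_cases h63 : j = 1
          · subst h63
            obtain ⟨he, -⟩ := enum_six hQ hq hd L hts (by omega) (by omega)
            have h1 : 2 * (((q ^ 2 + 1) * (q + 1)) * q ^ k) ≤ c * s :=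
              le_trans (Nat.mul_le_mul_left _ (Nat.mul_le_mul_right _ he)) hcs
            rw [show k = 3 by omega] at h1
            have h1' : (((2 * (((q ^ 2 + 1) * (q + 1)) * q ^ 3)) : ℕ) : ℤ) ≤ ((c * s : ℕ) : ℤ) := by
              exact_mod_cast h1
            push_cast at h1'
            have h2 := mul_le_mul_of_nonneg_left h1' (by linarith : (0 : ℤ) ≤ (q : ℤ) - 1)
            have h3 : (0 : ℤ) < (q : ℤ) ^ 3 := by positivity
            have h4 : (q : ℤ) ^ 2 * ((q : ℤ) ^ 2 + 1) ≤ 2 * ((q : ℤ) ^ 4 - 1) := by nlinarith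
            have h5 := mul_le_mul_of_nonneg_left h4 h3.le
            simp only [show (1 : ℕ) + 4 = 5 from rfl] at hltZ
            nlinarith only [h2, h5, hltZ]
          · have h1 := (singularPairs_gen hQ hq hd hj).trans
              (Int.ofNat_le.2 (L.enum_bound_pairs hQ hd hts hk2'))
            refine Arith.span_big (k := k) (e := (L.enum A : ℤ)) hqZ (by omega) hltZ hZlo
              (h1.trans ?_) ?_
            · have : (L.enum A * ((q ^ k - 1) * (q ^ k - q)) : ℕ) ≤ L.enum A * q ^ (2 * k) := by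
                rw [two_mul, pow_add]
                exact Nat.mul_le_mul_left _ (Nat.mul_le_mul (Nat.sub_le _ _) (Nat.sub_le _ _))
              exact_mod_cast this
            · have : L.enum A * q ^ k ≤ c * s := by omega
              exact_mod_cast this
  -- `W` is orthogonal to its singular vectors
  simp only [not_exists, not_and, not_not] at hWK
  obtain ⟨hE1, hts⟩ := spanSing_perp hWK
  have hEA := spanSing_le_ann hWK
  set k := finrank F (Lev.spanSing Q W) with hk
  have hk1 : 1 ≤ k := by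
    have : v0 ∈ Lev.spanSing Q W := Submodule.subset_span ⟨hv0W, hQv0⟩
    exact Submodule.one_le_finrank_iff.2 fun h => hv00 (by rwa [h, Submodule.mem_bot] at this)
  have hk2 : 2 * k ≤ finrank F M := two_mul_le_of_hasTS k Q hQ ⟨_, rfl, hts⟩
  have hEq : Nat.card (Lev.spanSing Q W).toAddSubgroup = q ^ k := Lev.card_submodule _
  set nR := Nat.card {x : M // x ∈ W ∧ Q x = 0 ∧ x ≠ 0} with hnR
  have hsingE : nR + 1 ≤ q ^ k := by
    rw [← hEq, hnR, ← card_punctured (fun x => x ∈ (Lev.spanSing Q W).toAddSubgroup)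
      (Submodule.zero_mem _)]
    refine Nat.add_le_add_right (Nat.card_le_card_of_injective
      (fun x : {x : M // x ∈ W ∧ Q x = 0 ∧ x ≠ 0} => (⟨(x : M), Submodule.subset_span ⟨x.2.1, x.2.2.1⟩, x.2.2.2⟩ :
        {x : M // x ∈ (Lev.spanSing Q W).toAddSubgroup ∧ x ≠ 0})) fun x y h => ?_) 1
    exact Subtype.ext (congrArg (fun t : {x : M // x ∈ (Lev.spanSing Q W).toAddSubgroup ∧ x ≠ 0} =>
      (t : M)) h)
  by_cases hWE : ∀ x ∈ W, Q x = 0
  swap
  · -- non-singular vectors in `W`
    exfalso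
    simp only [not_forall] at hWE
    obtain ⟨w, hw, hQw⟩ := hWE
    have h1 := L.flip.perp_bound hQ hd hv0W hw hQv0 hv00 hQw (hWK v0 hv0W hQv0 w hw)
    rw [hcW, hj, show j + 5 - 4 = j + 1 by omega] at h1
    have hnN : Nat.card {x : M // x ∈ W ∧ Q x ≠ 0} ≤ s :=
      Nat.card_le_card_of_injective (fun x => (⟨(x : M), x.2.1⟩ : W)) fun x y h =>
        Subtype.ext (congrArg (fun t : W => (t : M)) h)
    have hnR0 : 0 < nR := Finite.card_pos_iff.2 ⟨⟨v0, hv0W, hQv0, hv00⟩⟩
    have hk3 : 2 * k < finrank F M := by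
      rcases lt_or_eq_of_le hk2 with h | h
      · exact h
      · exfalso
        have hE := ann_eq_of_half hQ hts h
        have : w ∈ ann Q (Lev.spanSing Q W).toAddSubgroup := fun x hx => by
          rw [pp_apply, polar_comm, hE1 x hx w hw, AddChar.map_zero_eq_one]
        rw [hE] at this
        exact hQw (hts w this)
    have hb : ((vc Q 0 : ℤ) - 1) * (Lev.gam F : ℤ) *
        ((q : ℤ) * ((((q - 1) / 2 : ℕ) : ℤ) * (q : ℤ) ^ (j + 1)))
          ≤ (c : ℤ) * (s : ℤ) * (nR : ℤ) := by
      have h0 : (vc Q 0 - 1) * Lev.gam F * (q * ((q - 1) / 2 * q ^ (j + 1)))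
          ≤ c * (nR * s) := h1.trans (Nat.mul_le_mul_left _ (Nat.mul_le_mul_left _ hnN))
      generalize (q - 1) / 2 = hh at h0 ⊢
      have h' : (((vc Q 0 - 1) * Lev.gam F * (q * (hh * q ^ (j + 1))) : ℕ) : ℤ)
          ≤ ((c * (nR * s) : ℕ) : ℤ) := by
        exact_mod_cast h0
      push_cast [hZ1] at h'
      linarith
    by_cases h52 : j = 0 ∧ k = 2
    · obtain ⟨rfl, hk22⟩ := h52
      obtain ⟨he, hZ5⟩ := enum_five hQ hq hd L.flip hts hk22 (by omega)
      obtain ⟨hq5, hodd⟩ := five_le_of_five hQ hq hd (by omega)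
      rw [hZ5] at hb
      push_cast at hb
      -- the singular part is a proper subgroup
      let R0 : AddSubgroup M := W ⊓ (Lev.spanSing Q W).toAddSubgroup
      have hR0ne : R0 ≠ W := fun h => hQw (hts w ((inf_eq_left.1 h) hw))
      obtain ⟨t, ht⟩ := AddSubgroup.card_dvd_of_le (inf_le_left : R0 ≤ W)
      rw [← hs] at ht
      obtain ⟨e, he0, hpe⟩ := exists_card_pow (F := F) (p := p)
      have hspow : s ∣ p ^ (e * 5) := by
        rw [pow_mul, ← hpe, ← hqdef]
        exact ⟨a, by rw [← hcard]; ring⟩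
      have hs3 : s ≤ q ^ 2 + 1 := by
        have hec := L.flip.enum_le_cnum W
        rw [hcW] at hec
        have hcz : ((q : ℤ) + 1) * ((q : ℤ) ^ 2 + 1) ≤ (c : ℤ) := by exact_mod_cast he.trans hec
        by_contra hcon
        have hcon' : (q : ℤ) ^ 2 + 2 ≤ (s : ℤ) := by
          exact_mod_cast (by omega : q ^ 2 + 2 ≤ s)
        have h2 := mul_le_mul_of_nonneg_left (mul_le_mul hcz hcon' (by positivity)
          (Int.natCast_nonneg c)) (by linarith : (0 : ℤ) ≤ (q : ℤ) - 1)
        simp only [zero_add] at hltZ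
        have h3 : (0 : ℤ) ≤ (q : ℤ) ^ 4 - 1 - 1 := by nlinarith [pow_le_pow_left₀ (by norm_num) hqZ 4]
        nlinarith [sq_nonneg ((q : ℤ) ^ 2)]
      obtain ⟨i, -, hsi⟩ := (Nat.dvd_prime_pow (Fact.out : p.Prime)).1 hspow
      have hs4 : s ≤ q ^ 2 := by
        rcases Nat.lt_or_ge (2 * e) i with h | h
        · exfalso
          have h2 : p ^ (2 * e + 1) ≤ s := hsi ▸ Nat.pow_le_pow_right (by omega) h
          have h3 : q ^ 2 * 2 ≤ s := by
            refine le_trans ?_ h2
            have hqe : q = p ^ e := hpe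
            calc q ^ 2 * 2 = p ^ (2 * e) * 2 := by rw [hqe, ← pow_mul, mul_comm e 2]
              _ ≤ p ^ (2 * e) * p := Nat.mul_le_mul_left _ hp2
              _ = p ^ (2 * e + 1) := (pow_succ _ _).symm
          have : 2 ≤ q ^ 2 := le_trans (by omega) (Nat.pow_le_pow_left hq 2)
          omega
        · rw [hsi, hqdef, hpe, ← pow_mul, mul_comm e 2]
          exact Nat.pow_le_pow_right (by omega) h
      have ht3 : 3 ≤ t := by
        have hp3 : 3 ≤ p := by
          rcases Nat.lt_or_ge p 3 with h | h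
          · exfalso
            obtain rfl : p = 2 := by omega
            rw [hpe] at hodd
            exact absurd hodd (Nat.not_odd_iff_even.2 (even_two.pow_of_ne_zero (by omega)))
          · exact h
        have ht1 : t ≠ 1 := fun h => hR0ne (AddSubgroup.eq_of_le_of_card_ge inf_le_left (by
          rw [← hs, ht, h, mul_one]))
        have ht0 : t ≠ 0 := fun h => by rw [h, mul_zero] at ht; omega
        obtain ⟨l, -, hl⟩ := (Nat.dvd_prime_pow (Fact.out : p.Prime)).1
          (Dvd.dvd.trans ⟨Nat.card R0, by rw [ht, mul_comm]⟩ hspow : t ∣ p ^ (e * 5))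
        have : l ≠ 0 := fun h => ht1 (by rw [hl, h, pow_zero])
        calc 3 ≤ p := hp3
          _ = p ^ 1 := (pow_one p).symm
          _ ≤ t := hl ▸ Nat.pow_le_pow_right (by omega) (by omega)
      have hnR1 : nR ≤ Nat.card R0 := by
        refine Nat.card_le_card_of_injective (fun x => (⟨(x : M), x.2.1,
          Submodule.subset_span ⟨x.2.1, x.2.2.1⟩⟩ : R0)) fun x y h =>
            Subtype.ext (congrArg (fun t : R0 => (t : M)) h)
      have hR3 : 3 * nR ≤ q ^ 2 := by
        calc 3 * nR ≤ t * Nat.card R0 := Nat.mul_le_mul ht3 hnR1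
          _ = s := by rw [ht, mul_comm]
          _ ≤ _ := hs4
      simp only [zero_add, pow_one] at hb hltZ
      exact Arith.perp_case_five (q := (q : ℤ)) (h := (((q - 1) / 2 : ℕ) : ℤ)) (R := (nR : ℤ))
        (c := (c : ℤ)) (s := (s : ℤ)) (by exact_mod_cast hq5) hG (by omega)
        (by exact_mod_cast hnR0) hltZ (by exact_mod_cast hR3) hb
    · refine Arith.perp_case (q := (q : ℤ)) (h := (((q - 1) / 2 : ℕ) : ℤ)) (R := (nR : ℤ))
        hqZ hG hG4 (by omega) (by exact_mod_cast hnR0) hltZ hZlo ?_ hb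
      have h2 : nR ≤ q ^ (j + 1) :=
        le_trans (by omega) (Nat.pow_le_pow_right (by omega) (show k ≤ j + 1 by omega))
      exact_mod_cast h2
  -- `W` is totally singular
  have hWle : W ≤ (Lev.spanSing Q W).toAddSubgroup := fun x hx =>
    Submodule.subset_span ⟨hx, hWE x hx⟩
  have hsk : s ≤ q ^ k := by
    rw [← hEq]; exact AddSubgroup.card_le_of_le hWle
  have hnRs : nR + 1 = s := by
    rw [hs, ← card_punctured (fun x => x ∈ W) W.zero_mem, hnR]
    refine congrArg (· + 1) (Nat.card_congr ?_)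
    exact Equiv.subtypeEquivRight fun x => ⟨fun h => ⟨h.1, h.2.2⟩, fun h => ⟨h.1, hWE x h.1, h.2⟩⟩
  rcases eq_or_lt_of_le hk1 with hk1' | hk2'
  · -- a line
    left
    rw [← hk1', pow_one] at hsk
    refine ⟨?_, ?_⟩
    · show s * s < q ^ (finrank F M - 2) * p * p
      calc s * s ≤ q * q * 1 := by rw [mul_one]; exact Nat.mul_le_mul hsk hsk
        _ < q * q * (p * p) := Nat.mul_lt_mul_of_pos_left (by nlinarith) (Nat.mul_pos (by omega) (by omega))
        _ ≤ q ^ (finrank F M - 2) * (p * p) := by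
            refine Nat.mul_le_mul_right _ ?_
            rw [← pow_two]
            exact Nat.pow_le_pow_right (by omega) (by omega)
        _ = _ := by ring
    · have h1 := L.flip.singular_bound hQ hd hv0W hQv0 hv00
      rw [hcW] at h1
      have h2 := L.flip.enum_bound_points hQ hd hv0W hQv0 hv00
      rw [← hk, ← hk1', pow_one] at h2
      have h3 : vc Q 0 - 1 ≤ c * (q - 1) :=
        h2.trans (Nat.mul_le_mul_right _ (hcW ▸ L.flip.enum_le_cnum W))
      calc q * (vc Q 0 - 1) = (q - 1) * (vc Q 0 - 1) + (vc Q 0 - 1) := by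
            conv_lhs => rw [show q = (q - 1) + 1 by omega]
            ring
        _ ≤ (q - 1) * (c * (s - 1)) + c * (q - 1) := Nat.add_le_add (Nat.mul_le_mul_left _ h1) h3
        _ = (q - 1) * (c * (s - 1 + 1)) := by ring
        _ = _ := by rw [Nat.sub_add_cancel (by omega : 1 ≤ s)]
  -- a span of dimension at least two
  have hflag := L.flip.flag_bound hQ hts hk2'
  rw [hcW, ← hk, ← hnR, show nR = s - 1 by omega] at hflag
  set e := L.flip.enum W with he
  have hec : e ≤ c := hcW ▸ L.flip.enum_le_cnum W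
  have hes : e * q ^ k ≤ c * s := by
    calc e * q ^ k = e * (q ^ k - 1) + e := by
          conv_rhs => rw [← Nat.mul_add_one, Nat.sub_add_cancel (Nat.one_le_pow _ _ (by omega))]
      _ ≤ c * (s - 1) + c := Nat.add_le_add hflag hec
      _ = _ := by rw [← Nat.mul_add_one, Nat.sub_add_cancel (by omega : 1 ≤ s)]
  by_cases hex : (j = 0 ∧ k = 2) ∨ (j = 1 ∧ k = 3)
  swap
  · exfalso
    have h1 := (singularPairs_gen hQ hq hd hj).trans
      (Int.ofNat_le.2 (L.flip.enum_bound_pairs hQ hd hts hk2'))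
    refine Arith.span_big (k := k) (e := (e : ℤ)) hqZ (by omega) hltZ hZlo (h1.trans ?_)
      (by exact_mod_cast hes)
    have : (e * ((q ^ k - 1) * (q ^ k - q)) : ℕ) ≤ e * q ^ (2 * k) := by
      rw [two_mul, pow_add]
      exact Nat.mul_le_mul_left _ (Nat.mul_le_mul (Nat.sub_le _ _) (Nat.sub_le _ _))
    exact_mod_cast this
  -- the exceptional kind
  have hz : ((q - 1) * (1 + q ^ finrank F M) + q * (vc Q 0 - 1) : ℕ)
      ≤ (q - 1) * (e * (q ^ k + 1)) ∧
      ∃ r : ℕ, (q - 1) * (1 + q ^ finrank F M) + q * (vc Q 0 - 1) ≤ (q - 1) * (e * q ^ k + r) ∧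
        r * r < 4 * (e * q ^ k) ∧ r < e * q ^ k ∧ (q - 1) * r < q * (vc Q 0 - 1) ∧
        q * (vc Q 0 - 1) < (q - 1) * (e * q ^ k) := by
    obtain ⟨r, hr⟩ : ∃ r, q = r + 4 := ⟨q - 4, by omega⟩
    rcases hex with ⟨rfl, hk22⟩ | ⟨rfl, hk3⟩
    · obtain ⟨he', hZ5⟩ := enum_five hQ hq hd L.flip hts hk22 (by omega)
      rw [← he, ← hqdef] at he'
      rw [hZ5, hj, ← hqdef, hk22]
      rw [hr] at he' ⊢
      rw [show (r + 4) ^ 4 - 1 = (r + 5) * ((r + 4) ^ 2 + 1) * (r + 3) by
        apply Nat.sub_eq_of_eq_add; ring, show r + 4 - 1 = r + 3 by omega]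
      refine ⟨?_, r + 5, ?_, ?_, ?_, ?_, ?_⟩
      · refine le_trans ?_ (Nat.mul_le_mul_left _ (Nat.mul_le_mul_right _ he'))
        ring_nf; omega
      · refine le_trans ?_ (Nat.mul_le_mul_left _ (Nat.add_le_add_right
          (Nat.mul_le_mul_right _ he') _))
        ring_nf; omega
      · refine lt_of_lt_of_le ?_ (Nat.mul_le_mul_left _ (Nat.mul_le_mul_right _ he'))
        ring_nf; omega
      · refine lt_of_lt_of_le ?_ (Nat.mul_le_mul_right _ he')
        ring_nf; omega
      · ring_nf; omega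
      · refine lt_of_lt_of_le ?_ (Nat.mul_le_mul_left _ (Nat.mul_le_mul_right _ he'))
        ring_nf; omega
    · obtain ⟨he', hZ6⟩ := enum_six hQ hq hd L.flip hts hk3 (by omega)
      rw [← he, ← hqdef] at he'
      rw [← hqdef] at hZ6
      rw [hr] at hZ6
      have e1 : vc Q 0 - 1 = ((r + 4) ^ 2 + 1) * ((r + 4) ^ 2 + (r + 4) + 1) * (r + 3) := by
        apply Nat.sub_eq_of_eq_add
        apply Nat.add_right_cancel (m := (r + 4) ^ 2)
        rw [hZ6]; ring
      rw [hj, hk3, e1]
      rw [hr] at he' ⊢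
      rw [show r + 4 - 1 = r + 3 by omega]
      refine ⟨?_, ((r + 4) ^ 2 + 1) * (r + 5), ?_, ?_, ?_, ?_, ?_⟩
      · refine le_trans ?_ (Nat.mul_le_mul_left _ (Nat.mul_le_mul_right _ he'))
        ring_nf; omega
      · refine le_trans ?_ (Nat.mul_le_mul_left _ (Nat.add_le_add_right
          (Nat.mul_le_mul_right _ he') _))
        ring_nf; omega
      · refine lt_of_lt_of_le ?_ (Nat.mul_le_mul_left _ (Nat.mul_le_mul_right _ he'))
        ring_nf; omega
      · refine lt_of_lt_of_le ?_ (Nat.mul_le_mul_right _ he')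
        ring_nf; omega
      · ring_nf; omega
      · refine lt_of_lt_of_le ?_ (Nat.mul_le_mul_left _ (Nat.mul_le_mul_right _ he'))
        ring_nf; omega
  obtain ⟨hbig, r, hr1, hr2, hr3, hr4, hr5⟩ := hz
  have hWeq : s = q ^ k := by
    by_contra hne
    have hdvd := AddSubgroup.card_dvd_of_le hWle
    rw [hEq, ← hs] at hdvd
    obtain ⟨t, ht⟩ := hdvd
    have ht2 : 2 ≤ t := by
      rcases Nat.lt_or_ge t 2 with h | h
      · interval_cases t <;> simp at ht <;> omega
      · exact h
    have hs2 : 2 * s ≤ q ^ k := by rw [ht, mul_comm]; exact Nat.mul_le_mul_left _ ht2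
    have h2e : 2 * e ≤ c := by
      by_contra hcon
      have hck : c ≤ 2 * e - 1 := by omega
      have h3 : e * (q ^ k - 1) ≤ (2 * e - 1) * (s - 1) :=
        hflag.trans (Nat.mul_le_mul_right _ hck)
      have h4 : 2 * (s - 1) + 1 ≤ q ^ k - 1 := by omega
      have h5 : e * (2 * (s - 1) + 1) ≤ (2 * e - 1) * (s - 1) :=
        (Nat.mul_le_mul_left e h4).trans h3
      have e2 : (2 * e - 1) * (s - 1) ≤ 2 * e * (s - 1) := Nat.mul_le_mul_right _ (Nat.sub_le _ _)
      have e3 : e * (2 * (s - 1) + 1) = 2 * e * (s - 1) + e := by ring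
      have he0 : 0 < e := Finite.card_pos_iff.2 ⟨⟨_, _, ⟨1, one_mem _, rfl⟩, rfl⟩⟩
      omega
    have : e * (q ^ k + 1) ≤ c * s := by
      calc e * (q ^ k + 1) = e * (q ^ k - 1) + 2 * e := by
            rw [show q ^ k + 1 = (q ^ k - 1) + 2 by
              have := Nat.one_le_pow k q (by omega); omega]
            ring
        _ ≤ c * (s - 1) + c := Nat.add_le_add hflag h2e
        _ = _ := by rw [← Nat.mul_add_one, Nat.sub_add_cancel (by omega : 1 ≤ s)]
    exact absurd (hbig.trans (Nat.mul_le_mul_left _ this)) (not_le.2 hlt)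
  right
  refine ⟨Lev.spanSing Q W, fun x => ⟨fun hx => ?_, fun hx => hWle hx⟩, hts, hk2', ?_, ?_, r,
    ?_, ?_, ?_, hr4⟩
  · have := AddSubgroup.eq_of_le_of_card_ge hWle (by rw [hEq, ← hs, hWeq])
    show x ∈ W
    rw [this]; exact hx
  · rw [← hk, hj]; omega
  · exact lt_of_lt_of_le hr5 (Nat.mul_le_mul_left _ hes)
  · exact hr1.trans (Nat.mul_le_mul_left _ (Nat.add_le_add_right hes _))
  · exact lt_of_lt_of_le hr2 (Nat.mul_le_mul_left _ hes)
  · exact lt_of_lt_of_le hr3 hes

end CfsgLib.MinIndexOrth
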