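import Cfsg.Agent.Lib.MinIndex.Orth.Split

/-!
Bounds for the number of vectors of a given value in a non-degenerate quadratic space over a finite
field, exact numbers of singular vectors in some cases, and the bound for totally singular
subspaces.
-/

set_option autoImplicit false
set_option linter.unusedSectionVars false

namespace CfsgLib.MinIndexOrth

open QuadraticMap Module CfsgLib.ClassicalForms

universe u

variable {F : Type*} [Field F] [Finite F] {M : Type u} [AddCommGroup M] [Module F M]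
  [FiniteDimensional F M] {Q : QuadraticForm F M}

lemma card_perp2 [Finite M] {e f : M} (h : IsHypPair Q (e, f)) :
    Nat.card (perp2 Q e f) = Nat.card F ^ (finrank F M - 2) := by
  rw [card_eq_pow (F := F), show finrank F M - 2 = finrank F (perp2 Q e f) by
    have := finrank_perp2 h; omega]

lemma vc_step' [Finite M] {e f : M} (h : IsHypPair Q (e, f)) (a : F) :
    vc Q a = Nat.card F * vc (q2 Q e f) a + (Nat.card F - 1) * Nat.card F ^ (finrank F M - 2) := by
  rw [vc_step h, card_perp2 h]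

lemma le_vc_of_three [Finite M] (hQ : Nondeg Q) (hd : 3 ≤ finrank F M) (a : F) :
    (Nat.card F - 1) * Nat.card F ^ (finrank F M - 2) ≤ vc Q a := by
  obtain ⟨e, f, h⟩ := exists_hypPair hQ hd
  rw [vc_step' h]
  exact Nat.le_add_left _ _

lemma le_vc_zero_of_three [Finite M] (hQ : Nondeg Q) (hd : 3 ≤ finrank F M) :
    Nat.card F + (Nat.card F - 1) * Nat.card F ^ (finrank F M - 2) ≤ vc Q 0 := by
  obtain ⟨e, f, h⟩ := exists_hypPair hQ hd
  rw [vc_step' h]
  have := Nat.mul_le_mul_left (Nat.card F) (one_le_vc_zero (q2 Q e f))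
  omega

lemma vc_le_of_three [Finite M] (hQ : Nondeg Q) (hd : 3 ≤ finrank F M) (a : F) :
    vc Q a ≤ (2 * Nat.card F - 1) * Nat.card F ^ (finrank F M - 2) := by
  obtain ⟨e, f, h⟩ := exists_hypPair hQ hd
  rw [vc_step' h]
  have h1 := vc_le (q2 Q e f) a
  rw [card_perp2 h] at h1
  have h2 : (2 * Nat.card F - 1) = Nat.card F + (Nat.card F - 1) := by
    have : 1 ≤ Nat.card F := Nat.card_pos
    omega
  rw [h2, Nat.add_mul]
  exact Nat.add_le_add_right (Nat.mul_le_mul_left _ h1) _

/-- `q^(d-1) - q^(d-3) ≤ #{Q = a}`. -/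
theorem vc_lower [Finite M] (hQ : Nondeg Q) (hd : 5 ≤ finrank F M) (a : F) :
    Nat.card F ^ (finrank F M - 1) ≤ vc Q a + Nat.card F ^ (finrank F M - 3) := by
  obtain ⟨e, f, h⟩ := exists_hypPair hQ (by omega)
  have hr := finrank_perp2 h
  have h1 := le_vc_of_three (nondeg_q2 hQ h) (by omega) a
  rw [vc_step' h]
  obtain ⟨j, hj⟩ : ∃ j, finrank F M = j + 5 := ⟨finrank F M - 5, by omega⟩
  rw [show finrank F (perp2 Q e f) = j + 3 by omega] at h1
  rw [hj]
  simp only [show j + 5 - 2 = j + 3 by omega, show j + 5 - 1 = j + 4 by omega,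
    show j + 5 - 3 = j + 2 by omega, show j + 3 - 2 = j + 1 by omega] at h1 ⊢
  obtain ⟨r, hr'⟩ : ∃ r, Nat.card F = r + 1 := ⟨Nat.card F - 1, by
    have : 1 ≤ Nat.card F := Nat.card_pos
    omega⟩
  rw [hr'] at h1 ⊢
  simp only [Nat.add_sub_cancel] at h1 ⊢
  have := Nat.mul_le_mul_left (r + 1) h1
  ring_nf at this ⊢
  omega

/-- `#{Q = a} ≤ q^(d-1) + q^(d-2)`. -/
theorem vc_upper [Finite M] (hQ : Nondeg Q) (hd : 5 ≤ finrank F M) (a : F) :
    vc Q a ≤ Nat.card F ^ (finrank F M - 1) + Nat.card F ^ (finrank F M - 2) := by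
  obtain ⟨e, f, h⟩ := exists_hypPair hQ (by omega)
  have hr := finrank_perp2 h
  have h1 := vc_le_of_three (nondeg_q2 hQ h) (by omega) a
  rw [vc_step' h]
  obtain ⟨j, hj⟩ : ∃ j, finrank F M = j + 5 := ⟨finrank F M - 5, by omega⟩
  rw [show finrank F (perp2 Q e f) = j + 3 by omega] at h1
  rw [hj]
  simp only [show j + 5 - 2 = j + 3 by omega, show j + 5 - 1 = j + 4 by omega,
    show j + 3 - 2 = j + 1 by omega] at h1 ⊢
  obtain ⟨r, hr'⟩ : ∃ r, Nat.card F = r + 1 := ⟨Nat.card F - 1, by
    have : 1 ≤ Nat.card F := Nat.card_pos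
    omega⟩
  rw [hr'] at h1 ⊢
  simp only [Nat.add_sub_cancel, show 2 * (r + 1) - 1 = 2 * r + 1 by omega] at h1 ⊢
  have := Nat.mul_le_mul_left (r + 1) h1
  ring_nf at this ⊢
  omega

/-- One-dimensional non-degenerate forms are anisotropic. -/
lemma eq_zero_of_finrank_one (hQ : Nondeg Q) (hd : finrank F M = 1) {x : M} (hx : Q x = 0) :
    x = 0 := by
  by_contra h0
  refine h0 (hQ x fun y => ?_)
  obtain ⟨c, rfl⟩ := (finrank_eq_one_iff_of_nonzero' x h0).1 hd y
  rw [polar_smul_right, polar_self_mul, hx]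
  simp

/-- An odd dimensional non-degenerate space needs characteristic different from two. -/
theorem two_ne_zero_of_odd_finrank (k : ℕ) : ∀ {N : Type u} [AddCommGroup N] [Module F N]
    [FiniteDimensional F N] (Q : QuadraticForm F N), Nondeg Q → finrank F N = 2 * k + 1 →
    (2 : F) ≠ 0 := by
  induction k with
  | zero =>
    intro N _ _ _ Q hQ hd h2
    have : Nontrivial N := Module.nontrivial_of_finrank_pos (R := F) (by omega)
    obtain ⟨x, hx⟩ := exists_ne (0 : N)
    refine hx (hQ x fun y => ?_)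
    obtain ⟨c, rfl⟩ := (finrank_eq_one_iff_of_nonzero' x hx).1 hd y
    rw [polar_smul_right, polar_self_mul, h2]
    simp
  | succ k ih =>
    intro N _ _ _ Q hQ hd
    obtain ⟨e, f, h⟩ := exists_hypPair hQ (by omega)
    have hr := finrank_perp2 h
    exact ih (q2 Q e f) (nondeg_q2 hQ h) (by omega)

/-- Singular vectors in odd dimension: `q^(d-1)`. -/
theorem vc_zero_odd (k : ℕ) : ∀ {N : Type u} [AddCommGroup N] [Module F N]
    [FiniteDimensional F N] (Q : QuadraticForm F N), Nondeg Q → finrank F N = 2 * k + 1 →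
    vc Q 0 = Nat.card F ^ (2 * k) := by
  induction k with
  | zero =>
    intro N _ _ _ Q hQ hd
    have : Finite N := Module.finite_of_finite F
    rw [vc, pow_zero, Nat.card_eq_one_iff_unique]
    exact ⟨⟨fun x y => Subtype.ext ((eq_zero_of_finrank_one hQ hd x.2).trans
      (eq_zero_of_finrank_one hQ hd y.2).symm)⟩, ⟨⟨0, QuadraticMap.map_zero Q⟩⟩⟩
  | succ k ih =>
    intro N _ _ _ Q hQ hd
    have : Finite N := Module.finite_of_finite F
    obtain ⟨e, f, h⟩ := exists_hypPair hQ (by omega)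
    have hr := finrank_perp2 h
    rw [vc_step' h, ih (q2 Q e f) (nondeg_q2 hQ h) (by omega), hd,
      show 2 * (k + 1) + 1 - 2 = 2 * k + 1 by omega]
    obtain ⟨r, hr'⟩ : ∃ r, Nat.card F = r + 1 := ⟨Nat.card F - 1, by
      have : 1 ≤ Nat.card F := Nat.card_pos
      omega⟩
    rw [hr', Nat.add_sub_cancel]
    ring

/-- A totally singular subspace of dimension `k` exists. -/
def HasTS (Q : QuadraticForm F M) (k : ℕ) : Prop :=
  ∃ E : Submodule F M, finrank F E = k ∧ ∀ x ∈ E, Q x = 0

lemma HasTS.descend (hQ : Nondeg Q) {k : ℕ} (hk : HasTS Q (k + 1)) :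
    ∃ e f, IsHypPair Q (e, f) ∧ HasTS (q2 Q e f) k := by
  obtain ⟨E, hE, hs⟩ := hk
  have hne : E ≠ ⊥ := fun h => by rw [h, finrank_bot] at hE; omega
  obtain ⟨e, he, he0⟩ := Submodule.exists_mem_ne_zero_of_ne_bot hne
  obtain ⟨f, -, hp⟩ := (Sec.top Q).exists_partner hQ (Sec.mem_top e) (hs e he) he0
  refine ⟨e, f, hp, ?_⟩
  set E' := E ⊓ LinearMap.ker (polarBilin Q f) with hE'
  have hle : E' ≤ perp2 Q e f := by
    rintro x ⟨hx, hxf⟩
    refine mem_perp2.2 ⟨?_, by simpa using hxf⟩
    have h1 := hs (e + x) (E.add_mem he hx)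
    rwa [QuadraticMap.map_add ⇑Q, hs e he, hs x hx, zero_add, zero_add] at h1
  have hdim : k ≤ finrank F E' := by
    have h1 := Submodule.finrank_sup_add_finrank_inf_eq E (LinearMap.ker (polarBilin Q f))
    have h2 := Submodule.finrank_le (E ⊔ LinearMap.ker (polarBilin Q f))
    have h3 := (polarBilin Q f).finrank_range_add_finrank_ker
    have h4 : finrank F (LinearMap.range (polarBilin Q f)) ≤ 1 :=
      (Submodule.finrank_le _).trans (finrank_self F).le
    rw [hE'] at *
    omega
  obtain ⟨g, hg⟩ := exists_linearIndependent_of_le_finrank (R := F) (M := E') hdim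
  have hT : Submodule.span F (Set.range fun i => (g i : M)) ≤ E' ∧
      finrank F (Submodule.span F (Set.range fun i => (g i : M))) = k := by
    refine ⟨Submodule.span_le.2 (by rintro _ ⟨i, rfl⟩; exact (g i).2), ?_⟩
    have hl : LinearIndependent F fun i => (g i : M) := hg.map' E'.subtype (Submodule.ker_subtype E')
    rw [finrank_span_eq_card hl, Fintype.card_fin]
  generalize Submodule.span F (Set.range fun i => (g i : M)) = T at hT
  refine ⟨T.comap (perp2 Q e f).subtype, ?_, fun x hx => hs _ ((hT.1 hx).1)⟩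
  rw [← hT.2]
  exact (Submodule.comapSubtypeEquivOfLe (hT.1.trans hle)).finrank_eq

/-- A totally singular subspace has at most half the dimension. -/
theorem two_mul_le_of_hasTS (k : ℕ) : ∀ {N : Type u} [AddCommGroup N] [Module F N]
    [FiniteDimensional F N] (Q : QuadraticForm F N), Nondeg Q → HasTS Q k →
    2 * k ≤ finrank F N := by
  induction k with
  | zero => intro N _ _ _ Q _ _; omega
  | succ k ih =>
    intro N _ _ _ Q hQ hk
    obtain ⟨e, f, h, hk'⟩ := hk.descend hQ
    have hr := finrank_perp2 h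
    have := ih (q2 Q e f) (nondeg_q2 hQ h) hk'
    omega

/-- Singular vectors of a hyperbolic space: `q^(2k-1) + q^k - q^(k-1)`. -/
theorem vc_zero_hyperbolic (k : ℕ) : ∀ {N : Type u} [AddCommGroup N] [Module F N]
    [FiniteDimensional F N] (Q : QuadraticForm F N), Nondeg Q → finrank F N = 2 * (k + 1) →
    HasTS Q (k + 1) →
    vc Q 0 + Nat.card F ^ k = Nat.card F ^ (2 * k + 1) + Nat.card F ^ (k + 1) := by
  induction k with
  | zero =>
    intro N _ _ _ Q hQ hd hk
    have : Finite N := Module.finite_of_finite F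
    obtain ⟨e, f, h, -⟩ := hk.descend hQ
    have hr := finrank_perp2 h
    have h1 : vc (q2 Q e f) 0 = 1 := by
      refine le_antisymm ((vc_le _ _).trans ?_) (one_le_vc_zero _)
      rw [card_perp2 h, hd]
      simp
    rw [vc_step' h, h1, hd]
    have : 1 ≤ Nat.card F := Nat.card_pos
    simp
    omega
  | succ k ih =>
    intro N _ _ _ Q hQ hd hk
    have : Finite N := Module.finite_of_finite F
    obtain ⟨e, f, h, hk'⟩ := hk.descend hQ
    have hr := finrank_perp2 h
    have h1 := ih (q2 Q e f) (nondeg_q2 hQ h) (by omega) hk'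
    rw [vc_step' h, hd, show 2 * (k + 1 + 1) - 2 = 2 * k + 2 by omega]
    obtain ⟨r, hr'⟩ : ∃ r, Nat.card F = r + 1 := ⟨Nat.card F - 1, by
      have : 1 ≤ Nat.card F := Nat.card_pos
      omega⟩
    rw [hr'] at h1 ⊢
    rw [Nat.add_sub_cancel]
    have h2 := congrArg (fun t => (r + 1) * t) h1
    ring_nf at h2 ⊢
    omega

end CfsgLib.MinIndexOrth
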