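import Mathlib

/-!
Duality of subgroups of a finite group with a non-degenerate pairing into a finite field, through a
fixed non-trivial additive character.
-/

set_option autoImplicit false
set_option linter.unusedSectionVars false

namespace CfsgLib.MinIndexOrth

variable (F : Type*) [Field F] [Finite F]

lemma exists_char : ∃ ψ : AddChar F ℂ, ψ 1 ≠ 1 :=
  AddChar.exists_apply_ne_zero.2 one_ne_zero

/-- A fixed non-trivial character. -/
noncomputable def chi : AddChar F ℂ := (exists_char F).choose

lemma chi_one_ne : chi F 1 ≠ 1 := (exists_char F).choose_spec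

variable {F} {M : Type*} [AddCommGroup M]

lemma eq_zero_of_chi {t : F} (h : ∀ s : F, chi F (t * s) = 1) : t = 0 := by
  by_contra ht
  exact chi_one_ne F (by simpa [ht] using h t⁻¹)

/-- The annihilator of a subgroup. -/
def perpG (β : M →+ M →+ F) (A : AddSubgroup M) : AddSubgroup M where
  carrier := {x | ∀ a ∈ A, chi F (β x a) = 1}
  zero_mem' a _ := by simp
  add_mem' {x y} hx hy a ha := by
    rw [map_add, AddMonoidHom.add_apply, AddChar.map_add_eq_mul, hx a ha, hy a ha, one_mul]
  neg_mem' {x} hx a ha := by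
    rw [map_neg, AddMonoidHom.neg_apply, AddChar.map_neg_eq_inv, hx a ha, inv_one]

lemma mem_perpG {β : M →+ M →+ F} {A : AddSubgroup M} {x : M} :
    x ∈ perpG β A ↔ ∀ a ∈ A, chi F (β x a) = 1 := Iff.rfl

/-- The character attached to a vector. -/
noncomputable def toChar (β : M →+ M →+ F) (x : M) : AddChar M ℂ :=
  (chi F).compAddMonoidHom (β x)

lemma toChar_apply (β : M →+ M →+ F) (x a : M) : toChar β x a = chi F (β x a) := rfl

variable [Finite M]

lemma toChar_bijective {β : M →+ M →+ F} (hβ : ∀ x, (∀ a, chi F (β x a) = 1) → x = 0) :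
    Function.Bijective (toChar β) := by
  have := Fintype.ofFinite M
  rw [Fintype.bijective_iff_injective_and_card]
  refine ⟨fun x y h => sub_eq_zero.1 (hβ _ fun a => ?_), AddChar.card_eq.symm⟩
  have h1 : chi F (β x a) = chi F (β y a) := DFunLike.congr_fun h a
  rw [map_sub, AddMonoidHom.sub_apply, AddChar.map_sub_eq_div, h1, div_self]
  intro h0
  have := (chi F).map_add_eq_mul (β y a) (-(β y a))
  rw [h0, zero_mul, add_neg_cancel, AddChar.map_zero_eq_one] at this
  exact one_ne_zero this

/-- `|A| |A^⊥| = |M|`. -/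
theorem card_mul_perpG {β : M →+ M →+ F} (hβ : ∀ x, (∀ a, chi F (β x a) = 1) → x = 0)
    (A : AddSubgroup M) : Nat.card A * Nat.card (perpG β A) = Nat.card M := by
  have := Fintype.ofFinite M
  have := Fintype.ofFinite (M ⧸ A)
  have hb := toChar_bijective hβ
  let f : perpG β A → AddChar (M ⧸ A) ℂ := fun x =>
    AddChar.toAddMonoidHomEquiv.symm (QuotientAddGroup.lift A (toChar β (x : M)).toAddMonoidHom
      (fun a ha => by
        rw [AddMonoidHom.mem_ker, AddChar.toAddMonoidHom_apply, toChar_apply, x.2 a ha]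
        rfl))
  have hf : ∀ x a, f x (QuotientAddGroup.mk a) = chi F (β (x : M) a) := fun x a => rfl
  have hbij : Function.Bijective f := by
    refine ⟨fun x y h => Subtype.ext (hb.1 (AddChar.ext _ _ fun a => ?_)), fun θ => ?_⟩
    · rw [toChar_apply, toChar_apply, ← hf, ← hf, h]
    · obtain ⟨x, hx⟩ := hb.2 (θ.compAddMonoidHom (QuotientAddGroup.mk' A))
      have hx' : ∀ a, chi F (β x a) = θ (QuotientAddGroup.mk a) := fun a =>
        DFunLike.congr_fun hx a
      refine ⟨⟨x, fun a ha => ?_⟩, AddChar.ext _ _ fun a => ?_⟩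
      · rw [hx', (QuotientAddGroup.eq_zero_iff a).2 ha, AddChar.map_zero_eq_one]
      · induction a using QuotientAddGroup.induction_on with
        | H a => rw [hf, hx']
  rw [Nat.card_congr (Equiv.ofBijective f hbij), Nat.card_eq_fintype_card (α := AddChar _ _),
    AddChar.card_eq, ← Nat.card_eq_fintype_card, mul_comm,
    ← AddSubgroup.card_eq_card_quotient_mul_card_addSubgroup]

/-- The double annihilator, for a symmetric pairing. -/
theorem perpG_perpG {β : M →+ M →+ F} (hβ : ∀ x, (∀ a, chi F (β x a) = 1) → x = 0)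
    (hsym : ∀ x y, β x y = β y x) (A : AddSubgroup M) : perpG β (perpG β A) = A := by
  refine (AddSubgroup.eq_of_le_of_card_ge (fun a ha x hx => ?_) ?_).symm
  · rw [hsym]; exact hx a ha
  · have h1 := card_mul_perpG hβ A
    have h2 := card_mul_perpG hβ (perpG β A)
    rw [← h1, mul_comm] at h2
    exact (Nat.eq_of_mul_eq_mul_right Nat.card_pos h2).le

end CfsgLib.MinIndexOrth
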