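import Cfsg.Agent.Lib.MinIndex.Orth.Good
import Cfsg.Agent.Lib.MinIndex.Orth.Classify

/-!
No transitive action of the Siegel group has fewer points than there are singular points.
-/

set_option autoImplicit false
set_option linter.unusedSectionVars false

namespace CfsgLib.MinIndexOrth

open QuadraticMap Module CfsgLib.ClassicalForms

variable {F V : Type*} [Field F] [Finite F] [AddCommGroup V] [Module F V]
  [FiniteDimensional F V] {Q : QuadraticForm F V}

/-- A set of non-zero vectors closed under scalars has a multiple of `q - 1` elements. -/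
lemma dvd_card_cone (P : V → Prop) (h0 : ∀ x, P x → x ≠ 0)
    (hP : ∀ c : F, c ≠ 0 → ∀ x, P x → P (c • x)) :
    Nat.card F - 1 ∣ Nat.card {x // P x} := by
  letI : MulAction Fˣ {x // P x} :=
    { smul := fun c x => ⟨(c : F) • (x : V), hP c c.ne_zero _ x.2⟩
      one_smul := fun x => Subtype.ext (one_smul F (x : V))
      mul_smul := fun c d x => Subtype.ext (mul_smul (c : F) (d : F) (x : V)) }
  have hfree : ∀ x : {x // P x}, MulAction.stabilizer Fˣ x = ⊥ := fun x => by
    rw [eq_bot_iff]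
    intro c hc
    have h1 : (c : F) • (x : V) = x := congrArg Subtype.val (MulAction.mem_stabilizer_iff.1 hc)
    rw [← sub_eq_zero, ← one_smul F (x : V), smul_smul, mul_one, ← sub_smul] at h1
    exact Subgroup.mem_bot.2 (Units.ext
      (sub_eq_zero.1 ((smul_eq_zero.1 h1).resolve_right (h0 _ x.2))))
  rw [Nat.card_congr (MulAction.selfEquivOrbitsQuotientProd hfree), Nat.card_prod, ← Nat.card_units]
  exact dvd_mul_left _ _

lemma exists_units_sq_ne (hq : 4 ≤ Nat.card F) : ∃ μ : Fˣ, (μ : F) * μ ≠ 1 := by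
  classical
  have := Fintype.ofFinite F
  obtain ⟨x, hx, hx'⟩ := Finset.exists_mem_notMem_of_card_lt_card
    (s := ({0, 1, -1} : Finset F)) (t := Finset.univ) (lt_of_le_of_lt Finset.card_le_three
      (by rw [Finset.card_univ, ← Nat.card_eq_fintype_card]; omega))
  simp only [Finset.mem_insert, Finset.mem_singleton, not_or] at hx'
  refine ⟨Units.mk0 x hx'.1, fun h => ?_⟩
  rw [Units.val_mk0] at h
  rcases mul_self_eq_one_iff.1 h with h | h
  · exact hx'.2.1 h
  · exact hx'.2.2 h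

/-- The middle kind, inside the complement of a pair. -/
def MidM {M : Type*} [AddCommGroup M] [Module F M] (Q : QuadraticForm F M) (A : AddSubgroup M) :
    Prop :=
  ∃ E : Submodule F M, (∀ x ∈ E, Q x = 0) ∧ 2 ≤ finrank F E ∧
    ((finrank F M = 5 ∧ finrank F E = 2) ∨ (finrank F M = 6 ∧ finrank F E = 3)) ∧
    ∀ x, x ∈ A ↔ ∀ e ∈ E, polar Q x e = 0

lemma midM_of_isMid {M : Type*} [AddCommGroup M] [Module F M] [FiniteDimensional F M] [Finite M]
    {Q : QuadraticForm F M} (hQ : Nondeg Q) {L : Lev Q} {A : AddSubgroup M} (h : IsMid L A) :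
    MidM Q A := by
  obtain ⟨E, hE, hts, hk, hdims, -⟩ := h
  refine ⟨E, hts, hk, hdims, fun x => ⟨fun hx e he => eq_zero_of_chi fun s => ?_, fun hx => ?_⟩⟩
  · have h1 := (hE (s • e)).1 (E.smul_mem s he) x hx
    rwa [pp_apply, polar_smul_left, smul_eq_mul, mul_comm, polar_comm Q e x] at h1
  · rw [← ann_ann hQ A]
    intro e he
    rw [pp_apply, hx e ((hE e).2 he), AddChar.map_zero_eq_one]

lemma midM_twSub {M : Type*} [AddCommGroup M] [Module F M] [FiniteDimensional F M]
    {Q : QuadraticForm F M} {A : AddSubgroup M} (h : MidM Q A) (γ : orth Q × Fˣ) :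
    MidM Q (twSub γ A) := by
  obtain ⟨E, hts, hk, hdims, hA⟩ := h
  have hr : finrank F (E.map (tw γ).toLinearMap) = finrank F E := LinearEquiv.finrank_map_eq (tw γ) E
  refine ⟨E.map (tw γ).toLinearMap, ?_, by rw [hr]; exact hk, by rw [hr]; exact hdims, fun x => ?_⟩
  · rintro _ ⟨e, he, rfl⟩
    exact (Q_tw_eq_zero γ e).2 (hts e he)
  · obtain ⟨y, rfl⟩ := (tw γ).surjective x
    rw [mem_twSub, hA]
    constructor
    · rintro hy _ ⟨e, he, rfl⟩
      show polar Q (tw γ y) (tw γ e) = 0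
      rw [polar_tw, hy e he, mul_zero]
    · intro hy e he
      have h1 : polar Q (tw γ y) (tw γ e) = 0 := hy _ ⟨e, he, rfl⟩
      rw [polar_tw] at h1
      exact (mul_eq_zero.1 h1).resolve_left (mul_ne_zero γ.2.ne_zero γ.2.ne_zero)

variable {Ω : Type*} [MulAction (siegelGroup Q) Ω]

variable (Q) in
/-- The middle kind, inside the whole space. -/
def MidV (u u' : V) (z : Ω) : Prop :=
  ∃ E : Submodule F V, E ≤ perp2 Q u u' ∧ (∀ x ∈ E, Q x = 0) ∧ 2 ≤ finrank F E ∧
    ((finrank F V = 7 ∧ finrank F E = 2) ∨ (finrank F V = 8 ∧ finrank F E = 3)) ∧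
    ∀ w ∈ perp2 Q u u', (w ∈ K Q u z ↔ ∀ e ∈ E, polar Q w e = 0)

lemma midV_of_midM {u u' : V} (h : IsHypPair Q (u, u')) {z : Ω}
    (hm : MidM (q2 Q u u') (asub Q u u' z)) : MidV Q u u' z := by
  obtain ⟨E, hts, hk, hdims, hA⟩ := hm
  have hr : finrank F (E.map (perp2 Q u u').subtype) = finrank F E :=
    Submodule.finrank_map_subtype_eq _ E
  refine ⟨E.map (perp2 Q u u').subtype, Submodule.map_subtype_le _ _, ?_, by rw [hr]; exact hk,
    ?_, fun w hw => ?_⟩
  · rintro _ ⟨e, he, rfl⟩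
    exact hts e he
  · have := finrank_perp2 h
    rw [hr]
    omega
  · rw [show (w ∈ K Q u z) = ((⟨w, hw⟩ : perp2 Q u u') ∈ asub Q u u' z) from rfl, hA]
    constructor
    · rintro hy _ ⟨e, he, rfl⟩
      have := hy e he
      rwa [polar_q2] at this
    · intro hy e he
      rw [polar_q2]
      exact hy _ ⟨e, he, rfl⟩

lemma ap_mem_perp2 (g : siegelGroup Q) {u u' x : V} :
    ap g x ∈ perp2 Q (ap g u) (ap g u') ↔ x ∈ perp2 Q u u' := by
  rw [mem_perp2, mem_perp2, polar_ap, polar_ap]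

lemma midV_ap (g : siegelGroup Q) {u u' : V} {z : Ω} (hm : MidV Q u u' z) :
    MidV Q (ap g u) (ap g u') (g • z) := by
  obtain ⟨E, hE, hts, hk, hdims, hA⟩ := hm
  have hr : finrank F (E.map (ap g).toLinearMap) = finrank F E := LinearEquiv.finrank_map_eq (ap g) E
  refine ⟨E.map (ap g).toLinearMap, ?_, ?_, by rw [hr]; exact hk, by rw [hr]; exact hdims,
    fun w hw => ?_⟩
  · rintro _ ⟨e, he, rfl⟩
    exact (ap_mem_perp2 g).2 (hE he)
  · rintro _ ⟨e, he, rfl⟩
    exact (Q_ap g e).trans (hts e he)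
  · obtain ⟨x, rfl⟩ := (ap g).surjective w
    rw [mem_K_ap, hA x ((ap_mem_perp2 g).1 hw)]
    constructor
    · rintro hy _ ⟨e, he, rfl⟩
      show polar Q (ap g x) (ap g e) = 0
      rw [polar_ap, hy e he]
    · intro hy e he
      rw [← polar_ap g]
      exact hy _ ⟨e, he, rfl⟩

lemma card_ann_bot {M : Type*} [AddCommGroup M] [Module F M] [FiniteDimensional F M] [Finite M]
    {Q : QuadraticForm F M} (hQ : Nondeg Q) :
    Nat.card (ann Q (⊥ : AddSubgroup M)) = Nat.card F ^ finrank F M := by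
  have := card_ann hQ (⊥ : AddSubgroup M)
  rwa [AddSubgroup.card_bot, one_mul] at this

lemma root_commutes {t : siegelGroup Q} {a w : V} (ha : ap t a = a) (hw : ap t w = w) :
    t * root Q a w = root Q a w * t := by
  have h := root_conj t a w
  rw [ha, hw, mul_inv_eq_iff_eq_mul] at h
  exact h

lemma target_eq {u u' : V} (h : IsHypPair Q (u, u')) :
    vc Q 0 - 1 = (Nat.card F - 1) * (1 + Nat.card F ^ finrank F (perp2 Q u u'))
      + Nat.card F * (vc (q2 Q u u') 0 - 1) := by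
  have : Finite V := Module.finite_of_finite F
  have hs := vc_step h (0 : F)
  have hZ := one_le_vc_zero (q2 Q u u')
  rw [card_eq_pow (F := F) (V := perp2 Q u u')] at hs
  obtain ⟨r, hr⟩ : ∃ r, Nat.card F = r + 1 :=
    ⟨Nat.card F - 1, by have := Nat.card_pos (α := F); omega⟩
  obtain ⟨Y, hY⟩ : ∃ Y, vc (q2 Q u u') 0 = Y + 1 := ⟨_, (Nat.sub_add_cancel hZ).symm⟩
  rw [hs, hY, hr, Nat.add_sub_cancel, Nat.add_sub_cancel]
  apply Nat.sub_eq_of_eq_add
  ring

lemma asub_trichotomy [Finite Ω] {p : ℕ} [Fact p.Prime] [CharP F p] (hQ : Nondeg Q)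
    (hn : 7 ≤ finrank F V) (hq : 4 ≤ Nat.card F)
    (hν : (Nat.card F - 1) * Nat.card Ω < vc Q 0 - 1) {u u' : V} (h : IsHypPair Q (u, u'))
    (z : Ω) :
    IsReg Q u z ∨ IsFix Q u z ∨
      (Small F (perp2 Q u u') p (Nat.card (ann (q2 Q u u') (asub Q u u' z))) ∧
        Nat.card F * (vc (q2 Q u u') 0 - 1)
          ≤ (Nat.card F - 1) * Nat.card (cls hQ (by omega) h z)) ∨
      IsMid (levi hQ (by omega) h) (asub Q u u' z) := by
  have : Finite V := Module.finite_of_finite F
  by_cases h0 : asub Q u u' z = ⊥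
  · exact Or.inl ((asub_eq_bot_iff h).1 h0)
  by_cases h1 : asub Q u u' z = ⊤
  · exact Or.inr (Or.inl ((asub_eq_top_iff h).1 h1))
  have hd := finrank_perp2 h
  have hle : (Nat.card F - 1) * ((levi hQ (by omega) h).cnum (asub Q u u' z)
      * Nat.card (ann (q2 Q u u') (asub Q u u' z)))
      ≤ (Nat.card F - 1) * Nat.card (cls hQ (by omega) h z) :=
    Nat.mul_le_mul_left _ (cnum_mul_le hQ (by omega) h z)
  have hlt : (Nat.card F - 1) * ((levi hQ (by omega) h).cnum (asub Q u u' z)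
      * Nat.card (ann (q2 Q u u') (asub Q u u' z)))
      < (Nat.card F - 1) * (1 + Nat.card F ^ finrank F (perp2 Q u u'))
        + Nat.card F * (vc (q2 Q u u') 0 - 1) := by
    rw [← target_eq h]
    exact lt_of_le_of_lt (hle.trans (Nat.mul_le_mul_left _
      (Nat.card_le_card_of_injective _ Subtype.val_injective))) hν
  rcases classify (p := p) (levi hQ (by omega) h) (nondeg_q2 hQ h) hq (by omega) h0 h1 hlt with
    h2 | h2
  · exact Or.inr (Or.inr (Or.inl ⟨h2.1, h2.2.trans hle⟩))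
  · exact Or.inr (Or.inr (Or.inr h2))

variable (Q Ω) in
/-- The possible kinds of stabilisers at every pair and every point. -/
def Tri (p : ℕ) (hQ : Nondeg Q) (hn : 7 ≤ finrank F V) : Prop :=
  ∀ (u u' : V) (h : IsHypPair Q (u, u')) (z : Ω), IsReg Q u z ∨ IsFix Q u z ∨
    (Small F (perp2 Q u u') p (Nat.card (ann (q2 Q u u') (asub Q u u' z))) ∧
      Nat.card F * (vc (q2 Q u u') 0 - 1)
        ≤ (Nat.card F - 1) * Nat.card (cls hQ (by omega) h z)) ∨
    IsMid (levi hQ (by omega) h) (asub Q u u' z)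

lemma twSub_one {M : Type*} [AddCommGroup M] [Module F M] [FiniteDimensional F M]
    {Q : QuadraticForm F M} (A : AddSubgroup M) : twSub (1 : orth Q × Fˣ) A = A := by
  have e : ∀ x : M, tw (1 : orth Q × Fˣ) x = x := fun x => by
    rw [tw_apply, Prod.snd_one, Prod.fst_one, Units.val_one, one_smul, orth_one_apply]
  ext x
  conv_lhs => rw [← e x]
  exact mem_twSub

lemma twSub_mul {M : Type*} [AddCommGroup M] [Module F M] [FiniteDimensional F M]
    {Q : QuadraticForm F M} (γ δ : orth Q × Fˣ) (A : AddSubgroup M) :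
    twSub (γ * δ) A = twSub γ (twSub δ A) := by
  ext x
  obtain ⟨y, rfl⟩ := (tw (γ * δ)).surjective x
  rw [mem_twSub, tw_mul, mem_twSub, mem_twSub]

lemma Lev.orb_eq_of_mem {M : Type*} [AddCommGroup M] [Module F M] [FiniteDimensional F M]
    {Q : QuadraticForm F M} (L : Lev Q) {A B : AddSubgroup M} (h : B ∈ L.orb A) :
    L.orb B = L.orb A := by
  obtain ⟨γ, hγ, rfl⟩ := h
  ext C
  constructor
  · rintro ⟨δ, hδ, rfl⟩
    exact ⟨δ * γ, mul_mem hδ hγ, twSub_mul δ γ A⟩
  · rintro ⟨δ, hδ, rfl⟩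
    refine ⟨δ * γ⁻¹, mul_mem hδ (inv_mem hγ), ?_⟩
    show twSub (δ * γ⁻¹) (twSub γ A) = twSub δ A
    rw [← twSub_mul, inv_mul_cancel_right]

lemma mem_cls_self (hQ : Nondeg Q) (hn : 5 ≤ finrank F V) {u u' : V}
    (h : IsHypPair Q (u, u')) (z : Ω) : z ∈ cls hQ hn h z :=
  ⟨1, one_mem _, twSub_one _⟩

lemma cls_meet (hQ : Nondeg Q) (hn : 5 ≤ finrank F V) {u u' : V}
    (h : IsHypPair Q (u, u')) {x z z₁ : Ω} (hxz : x ∈ cls hQ hn h z)
    (hx1 : x ∈ cls hQ hn h z₁) : z ∈ cls hQ hn h z₁ := by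
  show asub Q u u' z ∈ (levi hQ hn h).orb (asub Q u u' z₁)
  rw [← (levi hQ hn h).orb_eq_of_mem hx1, (levi hQ hn h).orb_eq_of_mem hxz]
  exact mem_cls_self hQ hn h z

section Main

variable [Finite Ω] [MulAction.IsPretransitive (siegelGroup Q) Ω]

/-- Double counting for an invariant relation between singular vectors and points. -/
lemma double_count (hQ : Nondeg Q) (hn : 7 ≤ finrank F V) (Φ : V → Ω → Prop)
    (hg : ∀ (g : siegelGroup Q) x z, Φ (ap g x) (g • z) ↔ Φ x z)
    (hc : ∀ c : F, c ≠ 0 → ∀ x z, Φ x z → Φ (c • x) z) {u : V} (hu : Q u = 0) (hu0 : u ≠ 0)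
    (z₀ : Ω) {N : ℕ} (hN : vc Q 0 - 1 = (Nat.card F - 1) * N) (hq : 2 ≤ Nat.card F) :
    ∃ k, N * Nat.card {z : Ω // Φ u z} = Nat.card Ω * k := by
  have : Finite V := Module.finite_of_finite F
  have hX : Nat.card {x : V // Q x = 0 ∧ x ≠ 0} = vc Q 0 - 1 := by
    rw [vc, ← card_punctured (fun x : V => Q x = 0) (QuadraticMap.map_zero Q), Nat.add_sub_cancel]
  obtain ⟨k, hk⟩ := dvd_card_cone (F := F) (fun x : V => (Q x = 0 ∧ x ≠ 0) ∧ Φ x z₀)
    (fun x h => h.1.2) fun c hc0 x h =>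
      ⟨⟨by rw [QuadraticMap.map_smul, h.1.1, smul_zero], smul_ne_zero hc0 h.1.2⟩,
        hc c hc0 x z₀ h.2⟩
  refine ⟨k, Nat.eq_of_mul_eq_mul_left (show 0 < Nat.card F - 1 by omega) ?_⟩
  rw [← mul_assoc, ← hN, ← hX, mul_left_comm, ← hk]
  have e1 : ∀ x : {x : V // Q x = 0 ∧ x ≠ 0},
      Nonempty ({z : Ω // Φ u z} ≃ {z : Ω // Φ (x : V) z}) := fun x => by
    obtain ⟨g, hg1, hg2⟩ := (Sec.top Q).transitive_singular hQ (by omega) (Sec.mem_top u)
      (Sec.mem_top (x : V)) hu x.2.1 hu0 x.2.2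
    refine ⟨(MulAction.toPerm (⟨g, hg1.1⟩ : siegelGroup Q)).subtypeEquiv fun z => ?_⟩
    rw [MulAction.toPerm_apply, ← hg2]
    exact (hg ⟨g, hg1.1⟩ u z).symm
  have e2 : ∀ z : Ω, Nonempty ({x : V // (Q x = 0 ∧ x ≠ 0) ∧ Φ x z₀}
      ≃ {x : V // (Q x = 0 ∧ x ≠ 0) ∧ Φ x z}) := fun z => by
    obtain ⟨g, rfl⟩ := MulAction.exists_smul_eq (siegelGroup Q) z₀ z
    refine ⟨(ap g).toEquiv.subtypeEquiv fun x => ?_⟩
    simp only [LinearEquiv.coe_toEquiv, hg, Q_ap, ne_eq, LinearEquiv.map_eq_zero_iff]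
  rw [← Nat.card_prod, ← Nat.card_prod]
  refine Nat.card_congr ?_
  calc {x : V // Q x = 0 ∧ x ≠ 0} × {z : Ω // Φ u z}
      ≃ Σ _x : {x : V // Q x = 0 ∧ x ≠ 0}, {z : Ω // Φ u z} := (Equiv.sigmaEquivProd _ _).symm
    _ ≃ Σ x : {x : V // Q x = 0 ∧ x ≠ 0}, {z : Ω // Φ (x : V) z} :=
        Equiv.sigmaCongrRight fun x => (e1 x).some
    _ ≃ Σ z : Ω, {x : V // (Q x = 0 ∧ x ≠ 0) ∧ Φ x z} :=
        { toFun := fun p => ⟨p.2.1, (p.1 : V), p.1.2, p.2.2⟩
          invFun := fun p => ⟨⟨(p.2 : V), p.2.2.1⟩, p.1, p.2.2.2⟩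
          left_inv := fun _ => rfl
          right_inv := fun _ => rfl }
    _ ≃ Σ _z : Ω, {x : V // (Q x = 0 ∧ x ≠ 0) ∧ Φ x z₀} :=
        Equiv.sigmaCongrRight fun z => (e2 z).some.symm
    _ ≃ _ := Equiv.sigmaEquivProd _ _

lemma exists_np (hq : 2 ≤ Nat.card F) :
    ∃ N, vc Q 0 - 1 = (Nat.card F - 1) * N := by
  have : Finite V := Module.finite_of_finite F
  have hX : Nat.card {x : V // Q x = 0 ∧ x ≠ 0} = vc Q 0 - 1 := by
    rw [vc, ← card_punctured (fun x : V => Q x = 0) (QuadraticMap.map_zero Q), Nat.add_sub_cancel]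
  obtain ⟨N, hN⟩ := dvd_card_cone (F := F) (fun x : V => Q x = 0 ∧ x ≠ 0) (fun x h => h.2)
    fun c hc x h => ⟨by rw [QuadraticMap.map_smul, h.1, smul_zero], smul_ne_zero hc h.2⟩
  exact ⟨N, hX ▸ hN⟩

variable [Nontrivial Ω]

/-- No point is fixed by all root elements. -/
lemma not_all_fix (z : Ω) (h : ∀ x w : V, root Q x w • z = z) : False := by
  obtain ⟨y, hy⟩ := exists_ne z
  obtain ⟨g, rfl⟩ := MulAction.exists_smul_eq (siegelGroup Q) z y
  exact hy (smul_eq_of_roots h g)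

/-- The singular vectors have a regular root group at every point or fix it, so all are regular. -/
lemma all_reg_of (hQ : Nondeg Q) (hn : 7 ≤ finrank F V)
    (hall : ∀ y : V, Q y = 0 → y ≠ 0 → ∀ z' : Ω, IsReg Q y z' ∨ IsFix Q y z') :
    ∀ y : V, Q y = 0 → y ≠ 0 → ∀ z' : Ω, IsReg Q y z' := by
  have : Finite V := Module.finite_of_finite F
  -- fixing spreads
  have spread : ∀ a b : V, Q a = 0 → a ≠ 0 → Q b = 0 → b ≠ 0 → polar Q a b = 0 → ∀ z' : Ω,
      IsFix Q a z' → IsFix Q b z' := by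
    intro a b ha ha0 hb hb0 hab z' hfa
    by_cases hind : ∀ c : F, a ≠ c • b
    · refine (hall b hb hb0 z').resolve_left fun hr => ?_
      obtain ⟨b', -, hbp⟩ := (Sec.top Q).exists_partner hQ (Sec.mem_top b) hb hb0
      have hba : polar Q b a = 0 := by rw [polar_comm]; exact hab
      have hfix : root Q b a • z' = z' := by
        rw [← root_swap hb ha]; exact hfa _
      have h2 := hr a ⟨hba, hfix⟩
      rw [root_eq_proj hbp hba] at h2
      have h3 := eq_zero_of_root hbp h2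
      refine hind (polar Q b' a) ?_
      conv_lhs => rw [decomp2 hbp a, hba, h3, zero_smul, ZeroMemClass.coe_zero, add_zero, add_zero]
    · simp only [not_forall, not_not] at hind
      obtain ⟨c, rfl⟩ := hind
      have hc : c ≠ 0 := fun h => ha0 (by rw [h, zero_smul])
      have := isFix_smul (inv_ne_zero hc) hfa
      rwa [smul_smul, inv_mul_cancel₀ hc, one_smul] at this
  have noFix : ∀ y : V, Q y = 0 → y ≠ 0 → ∀ z' : Ω, IsReg Q y z' := by
    intro y hy hy0 z'
    refine (hall y hy hy0 z').resolve_right fun hf => not_all_fix (Q := Q) z' fun a w => ?_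
    by_cases ha : Q a = 0 ∧ polar Q a w = 0
    swap
    · rw [root_of_not ha, one_smul]
    by_cases ha0 : a = 0
    · rw [ha0, root_fst_zero, one_smul]
    obtain ⟨c, hc0, hQc, hc⟩ := exists_singular_ker Q
      (Fin.cons (polarBilin Q y) (Fin.cons (polarBilin Q a) (Sec.top Q).φ)) (by omega)
    have hyc : polar Q y c = 0 := by simpa using hc 0
    have hac : polar Q a c = 0 := by simpa using hc (Fin.succ 0)
    exact spread c a hQc hc0 ha.1 ha0 (by rw [polar_comm]; exact hac) z'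
      (spread y c hy hy0 hQc hc0 hyc z' hf) w
  exact noFix


/-- A root group regular on every point of a short set has one orbit. -/
lemma one_orbit_of_reg (hQ : Nondeg Q) {x u' : V} (hp : IsHypPair Q (x, u')) (z : Ω)
    (hreg : ∀ z' : Ω, IsReg Q x z')
    (hν : Nat.card Ω < Nat.card F ^ finrank F (perp2 Q x u')
      + Nat.card F ^ finrank F (perp2 Q x u')) :
    ∀ z' : Ω, z' ∈ orbT Q x u' z := by
  have : Finite V := Module.finite_of_finite F
  set q := Nat.card F
  set d := finrank F (perp2 Q x u') with hd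
  have hbot : ∀ z' : Ω, asub Q x u' z' = ⊥ := fun z' => (asub_eq_bot_iff hp).2 (hreg z')
  have hcard : ∀ z' : Ω, Nat.card (orbT Q x u' z') = q ^ d := fun z' => by
    rw [card_orbT hQ hp, hbot, card_ann_bot (nondeg_q2 hQ hp)]
  intro z'
  by_contra hnot
  have hdis : Disjoint (orbT Q x u' z) (orbT Q x u' z') := by
    rw [Set.disjoint_left]
    rintro _ ⟨w, rfl⟩ ⟨w', hw'⟩
    refine hnot ⟨w - w', ?_⟩
    have hw'' : root Q x (w' : V) • z' = root Q x (w : V) • z := hw'
    show root Q x ((w - w' : perp2 Q x u') : V) • z = z'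
    rw [← smul_left_cancel_iff (root Q x (w' : V)), hw'', ← mul_smul,
      root_add hp.1 (mem_perp2.1 w'.2).1 (mem_perp2.1 (w - w').2).1,
      ← Submodule.coe_add, add_sub_cancel]
  have e := Set.ncard_union_eq hdis (Set.toFinite _) (Set.toFinite _)
  rw [← Nat.card_coe_set_eq, ← Nat.card_coe_set_eq, ← Nat.card_coe_set_eq, hcard, hcard] at e
  have hle : q ^ d + q ^ d ≤ Nat.card Ω :=
    e ▸ Nat.card_le_card_of_injective _ Subtype.val_injective
  omega


section Generic

variable {p : ℕ} [Fact p.Prime] [CharP F p] (hQ : Nondeg Q) (hn : 7 ≤ finrank F V)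
  (hq : 2 ≤ Nat.card F) (htri : Tri Q Ω p hQ hn)
  (hν : (Nat.card F - 1) * Nat.card Ω < vc Q 0 - 1)
include p hQ hn hq htri hν

/-- A regular orbit excludes the small and middle kinds. -/
lemma reg_or_fix {u u' : V} (h : IsHypPair Q (u, u')) {z₁ : Ω} (h1 : IsReg Q u z₁) (z : Ω) :
    IsReg Q u z ∨ IsFix Q u z := by
  have : Finite V := Module.finite_of_finite F
  rcases htri u u' h z with hz | hz | hz
  · exact Or.inl hz
  · exact Or.inr hz
  exfalso
  have hz' : Nat.card F * (vc (q2 Q u u') 0 - 1)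
      ≤ (Nat.card F - 1) * Nat.card (cls hQ (by omega) h z) := by
    rcases hz with hz | hz
    · exact hz.2
    · obtain ⟨E, -, -, -, -, hE, -⟩ := hz
      exact hE.le.trans (Nat.mul_le_mul_left _ (cnum_mul_le hQ (by omega) h z))
  by_cases hzb : asub Q u u' z = ⊥
  · rcases hz with hz | hz
    · have hs := hz.1
      rw [Small, hzb, card_ann_bot (nondeg_q2 hQ h)] at hs
      have hp : p ≤ Nat.card F := by
        obtain ⟨e, he, hpe⟩ := exists_card_pow (F := F) (p := p)
        rw [hpe]; exact Nat.le_self_pow (by omega) p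
      have hd := finrank_perp2 h
      set d := finrank F (perp2 Q u u')
      have : Nat.card F ^ (d - 2) * p * p ≤ Nat.card F ^ d * Nat.card F ^ d := by
        calc Nat.card F ^ (d - 2) * p * p
            ≤ Nat.card F ^ (d - 2) * Nat.card F * Nat.card F :=
              Nat.mul_le_mul (Nat.mul_le_mul_left _ hp) hp
          _ = Nat.card F ^ d := by rw [← pow_succ, ← pow_succ]; congr 1; omega
          _ ≤ _ := Nat.le_mul_of_pos_left _ (pow_pos Nat.card_pos _)
      omega
    · obtain ⟨E, hE, hts, hk, hdims, -⟩ := hz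
      have : (⊤ : AddSubgroup (perp2 Q u u')) ≤ E.toAddSubgroup := fun x _ =>
        (hE x).2 (by rw [hzb]; intro a ha; rw [AddSubgroup.mem_bot.1 ha]; simp)
      have hE' : E = ⊤ := eq_top_iff.2 fun x _ => this (AddSubgroup.mem_top x)
      rw [hE', finrank_top] at hdims
      omega
  obtain ⟨N, hN⟩ := exists_np (Q := Q) (by omega)
  obtain ⟨k, hk⟩ := double_count hQ hn (IsReg Q) (fun g x z => isReg_ap g x z)
    (fun c hc x z hx => isReg_smul hc hx) h.1 h.fst_ne_zero z hN (by omega)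
  have ht := target_eq h
  rw [hN] at ht
  set q := Nat.card F with hqdef
  set d := finrank F (perp2 Q u u')
  set nR := Nat.card {z : Ω // IsReg Q u z} with hnR
  set nC := Nat.card (cls hQ (by omega) h z)
  have hR : q ^ d ≤ nR := by
    rw [← card_ann_bot (nondeg_q2 hQ h), ← (asub_eq_bot_iff h).2 h1, ← card_orbT hQ h]
    exact Nat.card_le_card_of_injective (fun x => (⟨(x : Ω), (asub_eq_bot_iff h).1
      (by rw [asub_of_mem_orbT h x.2]; exact (asub_eq_bot_iff h).2 h1)⟩ : {z : Ω // IsReg Q u z}))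
      fun a b hab => Subtype.ext (congrArg (fun t : {z : Ω // IsReg Q u z} => (t : Ω)) hab)
  have hsum : nR + nC ≤ Nat.card Ω := by
    rw [hnR, ← Nat.card_sum]
    refine Nat.card_le_card_of_injective (Sum.elim Subtype.val Subtype.val) ?_
    rintro (a | a) (b | b) hab
    · exact congrArg Sum.inl (Subtype.ext hab)
    · exfalso
      have hb := card_asub_of_mem_cls hQ (by omega) h b.2
      rw [← show (a : Ω) = (b : Ω) from hab, (asub_eq_bot_iff h).2 a.2, AddSubgroup.card_bot] at hb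
      exact hzb ((AddSubgroup.eq_bot_iff_card _).2 hb.symm)
    · exfalso
      have hb := card_asub_of_mem_cls hQ (by omega) h a.2
      rw [show (a : Ω) = (b : Ω) from hab, (asub_eq_bot_iff h).2 b.2, AddSubgroup.card_bot] at hb
      exact hzb ((AddSubgroup.eq_bot_iff_card _).2 hb.symm)
    · exact congrArg Sum.inr (Subtype.ext hab)
  have hC0 : 0 < nC := Finite.card_pos_iff.2 ⟨⟨z, mem_cls_self hQ (by omega) h z⟩⟩
  have hνN : Nat.card Ω < N := Nat.lt_of_mul_lt_mul_left (hN ▸ hν)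
  have hNle : N ≤ 1 + q ^ d + nC := by
    refine Nat.le_of_mul_le_mul_left ?_ (show 0 < q - 1 by omega)
    rw [ht, mul_add (q - 1) (1 + q ^ d)]
    exact Nat.add_le_add_left hz' _
  have e1 : N = Nat.card Ω + 1 := by omega
  have e2 : nR = q ^ d := by omega
  rw [e1, e2, add_mul, one_mul] at hk
  have hdiv : Nat.card Ω ∣ q ^ d :=
    (Nat.dvd_add_right (dvd_mul_right _ _)).1 ⟨k, hk⟩
  have := Nat.le_of_dvd (pow_pos (by omega) _) hdiv
  omega

/-- One regular root group makes all root groups regular. -/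
lemma all_reg {x : V} (hx : Q x = 0) (hx0 : x ≠ 0) {z : Ω} (h1 : IsReg Q x z) :
    ∀ y : V, Q y = 0 → y ≠ 0 → ∀ z' : Ω, IsReg Q y z' := by
  have : Finite V := Module.finite_of_finite F
  have hall : ∀ y : V, Q y = 0 → y ≠ 0 → ∀ z' : Ω, IsReg Q y z' ∨ IsFix Q y z' := by
    intro y hy hy0 z'
    obtain ⟨g, hg, e⟩ := (Sec.top Q).transitive_singular hQ (by omega) (Sec.mem_top x)
      (Sec.mem_top y) hx hy hx0 hy0
    obtain ⟨x', -, hp⟩ := (Sec.top Q).exists_partner hQ (Sec.mem_top x) hx hx0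
    set g' : siegelGroup Q := ⟨g, hg.1⟩
    rw [show y = ap g' x from e.symm, show z' = g' • g'⁻¹ • z' from (smul_inv_smul g' z').symm,
      isReg_ap, isFix_ap]
    exact reg_or_fix (p := p) hQ hn hq htri hν hp h1 _
  exact all_reg_of hQ hn hall

omit htri in
/-- A root group regular on every point has one orbit. -/
lemma one_reg_orbit {x u' : V} (hp : IsHypPair Q (x, u')) (z : Ω)
    (hreg : ∀ z' : Ω, IsReg Q x z')
    (hb : vc Q 0 - 1 ≤ (Nat.card F - 1) * (Nat.card F ^ finrank F (perp2 Q x u')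
      + Nat.card F ^ finrank F (perp2 Q x u'))) :
    ∀ z' : Ω, z' ∈ orbT Q x u' z :=
  one_orbit_of_reg hQ hp z hreg (Nat.lt_of_mul_lt_mul_left (hν.trans_le hb))

end Generic

variable {p : ℕ} [Fact p.Prime] [CharP F p] (hQ : Nondeg Q) (hn : 7 ≤ finrank F V)
  (hq : 4 ≤ Nat.card F) (hν : (Nat.card F - 1) * Nat.card Ω < vc Q 0 - 1)
include p hQ hn hq hν

lemma tri_of_four : Tri Q Ω p hQ hn := fun _ _ h z => asub_trichotomy (p := p) hQ hn hq hν h z

/-- There are no regular root groups. -/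
lemma not_reg {x : V} (hx : Q x = 0) (hx0 : x ≠ 0) (z : Ω) : ¬ IsReg Q x z := by
  have : Finite V := Module.finite_of_finite F
  intro h1
  have noFix := all_reg (p := p) hQ hn (by omega) (tri_of_four hQ hn hq hν) hν hx hx0 h1
  obtain ⟨u', -, hp⟩ := (Sec.top Q).exists_partner hQ (Sec.mem_top x) hx hx0
  set q := Nat.card F
  set d := finrank F (perp2 Q x u') with hd
  have hd2 : d + 2 = finrank F V := finrank_perp2 hp
  have hbot : ∀ z' : Ω, asub Q x u' z' = ⊥ := fun z' => (asub_eq_bot_iff hp).2 (noFix x hx hx0 z')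
  have hone : ∀ z' : Ω, z' ∈ orbT Q x u' z := by
    refine one_reg_orbit (p := p) hQ hn (by omega) hν hp z (noFix x hx hx0) ?_
    have ht := target_eq hp
    have hZ := one_le_vc_zero (q2 Q x u')
    have hu := vc_upper (nondeg_q2 hQ hp) (by omega) (0 : F)
    rw [← hd] at hu ht
    have h2 : q * (vc (q2 Q x u') 0 - 1) ≤ q ^ d + q ^ d := by
      calc q * (vc (q2 Q x u') 0 - 1) ≤ q * (q ^ (d - 1) + q ^ (d - 2)) :=
            Nat.mul_le_mul_left _ (le_trans (Nat.sub_le _ _) hu)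
        _ ≤ q * (q ^ (d - 1) + q ^ (d - 1)) := Nat.mul_le_mul_left _ (Nat.add_le_add_left
            (Nat.pow_le_pow_right (by omega) (by omega)) _)
        _ = q ^ (d - 1 + 1) + q ^ (d - 1 + 1) := by ring
        _ = _ := by rw [show d - 1 + 1 = d by omega]
    obtain ⟨r, hr⟩ : ∃ r, q = r + 4 := ⟨q - 4, by omega⟩
    have hr' : Nat.card F = r + 4 := hr
    have h4 : q ≤ q ^ d := Nat.le_self_pow (by omega) _
    rw [hr'] at ht
    rw [hr] at h2 h4
    rw [← hd, hr'] 
    rw [show r + 4 - 1 = r + 3 by omega] at ht ⊢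
    nlinarith
  obtain ⟨μ, hμ⟩ := exists_units_sq_ne hq
  obtain ⟨t, t1, t2, t3⟩ := exists_torus hQ (by omega) hp μ
  set e : F := ((μ : F) * μ)⁻¹ with he
  have he0 : e ≠ 0 := inv_ne_zero (mul_ne_zero μ.ne_zero μ.ne_zero)
  have he1 : (1 : F) - e ≠ 0 := fun h => hμ (by
    rwa [sub_eq_zero, he, eq_comm, inv_eq_one] at h)
  obtain ⟨a, ha⟩ := hone (t • z)
  have ha' : root Q x (a : V) • z = t • z := ha
  set b : perp2 Q x u' := (1 - e)⁻¹ • a with hb
  set z0 := root Q x (b : V) • z with hz0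
  have comm : ∀ w : perp2 Q x u', ∀ z' : Ω,
      t • root Q x (w : V) • z' = root Q x ((e • w : perp2 Q x u') : V) • t • z' := fun w z' => by
    rw [← mul_smul, ← mul_smul, ← torus_root he0 t1 t3 w, inv_mul_cancel_right]
  have hfix : t • z0 = z0 := by
    rw [hz0, comm, ← ha', ← mul_smul,
      root_add hp.1 (mem_perp2.1 (e • b : perp2 Q x u').2).1 (mem_perp2.1 a.2).1,
      ← Submodule.coe_add]
    congr 3
    have hab : a = (1 - e) • b := by rw [hb, smul_smul, mul_inv_cancel₀ he1, one_smul]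
    rw [hab, sub_smul, one_smul, add_sub_cancel]
  -- a root element commuting with the torus element
  obtain ⟨v, hv0, hQv, -⟩ :=
    exists_singular_ker (q2 Q x u') (Sec.top (q2 Q x u')).φ (by omega)
  obtain ⟨v', -, hvv⟩ := (Sec.top (q2 Q x u')).exists_partner (nondeg_q2 hQ hp) (Sec.mem_top v)
    hQv hv0
  have hr := finrank_perp2 hvv
  obtain ⟨w, hw⟩ : ∃ w : perp2 (q2 Q x u') v v', w ≠ 0 := by
    have : Nontrivial (perp2 (q2 Q x u') v v') :=
      Module.nontrivial_of_finrank_pos (R := F) (by omega)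
    exact exists_ne 0
  set wV : V := ((w : perp2 Q x u') : V) with hwV
  set g := root Q (v : V) wV with hg
  have hcomm : t * g = g * t := root_commutes (t3 _ v.2) (t3 _ (w : perp2 Q x u').2)
  have hgz : t • g • z0 = g • z0 := by rw [← mul_smul, hcomm, mul_smul, hfix]
  obtain ⟨c, hc⟩ := hone (g • z0)
  obtain ⟨c0, hc0⟩ := hone z0
  have huniq : ∀ w₁ : perp2 Q x u', t • root Q x (w₁ : V) • z = root Q x (w₁ : V) • z → w₁ = b := by
    intro w₁ h₁
    rw [comm, ← ha', ← mul_smul,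
      root_add hp.1 (mem_perp2.1 (e • w₁ : perp2 Q x u').2).1 (mem_perp2.1 a.2).1,
      ← Submodule.coe_add] at h₁
    have hm : e • w₁ + a - w₁ ∈ asub Q x u' z := by
      rw [mem_asub, ← smul_left_cancel_iff (root Q x (w₁ : V)), ← mul_smul,
        root_add hp.1 (mem_perp2.1 w₁.2).1 (mem_perp2.1 (e • w₁ + a - w₁).2).1,
        ← Submodule.coe_add, add_sub_cancel]
      exact h₁
    rw [hbot, AddSubgroup.mem_bot, sub_eq_zero] at hm
    have : a = (1 - e) • w₁ := by rw [sub_smul, one_smul, eq_sub_iff_add_eq, add_comm]; exact hm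
    rw [hb, this, smul_smul, inv_mul_cancel₀ he1, one_smul]
  have hgfix : g • z0 = z0 := by
    have hc' : root Q x (c : V) • z = g • z0 := hc
    rw [← hc'] at hgz
    rw [← hc', huniq c hgz, hz0]
  have hwV' : polar Q (v : V) wV = 0 := by
    have := (mem_perp2.1 w.2).1
    rwa [polar_q2] at this
  have h2 := noFix (v : V) hQv (fun h => hv0 (Subtype.ext h)) z0 wV ⟨hwV', hgfix⟩
  have hpair : IsHypPair Q ((v : V), (v' : V)) :=
    ⟨hQv, hvv.2.1, by have := hvv.2.2; rwa [polar_q2] at this⟩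
  rw [root_eq_proj hpair hwV'] at h2
  have h3 := eq_zero_of_root hpair h2
  have h4 : wV = polar Q (v' : V) wV • (v : V) := by
    conv_lhs => rw [decomp2 hpair wV, hwV', h3, zero_smul, ZeroMemClass.coe_zero, add_zero, add_zero]
  have h5 : polar Q (v' : V) wV = 0 := by
    have := (mem_perp2.1 w.2).2
    rwa [polar_q2] at this
  rw [h5, zero_smul] at h4
  exact hw (Subtype.ext (Subtype.ext h4))

/-- The middle kind spreads to every pair and every point. -/
lemma midV_all {u u' : V} (h : IsHypPair Q (u, u')) {z₁ : Ω}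
    (h1 : IsMid (levi hQ (by omega) h) (asub Q u u' z₁)) :
    (∀ (v v' : V), IsHypPair Q (v, v') → ∀ z : Ω, MidV Q v v' z) ∧
      ∀ z z' : Ω, asub Q u u' z = asub Q u u' z' → z' ∈ orbT Q u u' z := by
  have : Finite V := Module.finite_of_finite F
  have hMid := midM_of_isMid (nondeg_q2 hQ h) h1
  obtain ⟨E, -, -, -, -, hbig, r, hr1, hr2, hr3, hr4⟩ := h1
  obtain ⟨N, hN⟩ := exists_np (Q := Q) (by omega)
  rw [← target_eq h, hN] at hr1
  set q := Nat.card F with hqdef
  set cs := (levi hQ (by omega) h).cnum (asub Q u u' z₁)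
    * Nat.card (ann (q2 Q u u') (asub Q u u' z₁)) with hcs
  have hNle : N ≤ cs + r := Nat.le_of_mul_le_mul_left hr1 (by omega)
  have hνN : Nat.card Ω < N := Nat.lt_of_mul_lt_mul_left (hN ▸ hν)
  set C : Set Ω := cls hQ (by omega) h z₁ with hC
  have hCge : cs ≤ Nat.card C := cnum_mul_le hQ (by omega) h z₁
  have hsplit := Set.ncard_add_ncard_compl C (Set.toFinite _) (Set.toFinite _)
  rw [← Nat.card_coe_set_eq, ← Nat.card_coe_set_eq] at hsplit
  have hout : ∀ z, z ∉ C → IsFix Q u z := by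
    intro z hz
    rcases asub_trichotomy (p := p) hQ hn hq hν h z with hz1 | hz1 | hz1
    · exact absurd hz1 (not_reg (p := p) hQ hn hq hν h.1 h.fst_ne_zero z)
    · exact hz1
    exfalso
    have hz' : q * (vc (q2 Q u u') 0 - 1) ≤ (q - 1) * Nat.card (cls hQ (by omega) h z) := by
      rcases hz1 with hz1 | hz1
      · exact hz1.2
      · obtain ⟨E', -, -, -, -, hE', -⟩ := hz1
        exact hE'.le.trans (Nat.mul_le_mul_left _ (cnum_mul_le hQ (by omega) h z))
    have hsub : Nat.card (cls hQ (by omega) h z) ≤ Nat.card (Cᶜ : Set Ω) :=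
      Nat.card_mono (Set.toFinite _) fun x hx hxC =>
        hz (cls_meet hQ (by omega) h hx hxC)
    have : r < Nat.card (cls hQ (by omega) h z) := Nat.lt_of_mul_lt_mul_left (hr4.trans_le hz')
    omega
  have hfix : ∀ z, IsFix Q u z → z ∉ C := by
    intro z hz hzC
    have hc := card_asub_of_mem_cls hQ (by omega) h hzC
    rw [(asub_eq_top_iff h).2 hz, AddSubgroup.card_top] at hc
    obtain ⟨E', hts, hk, -, hA⟩ := hMid
    have hA1 : asub Q u u' z₁ = ⊤ := AddSubgroup.eq_top_of_card_eq _ hc.symm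
    have hbot : ∀ e ∈ E', e = 0 := fun e he => nondeg_q2 hQ h e fun y => by
      rw [polar_comm]; exact (hA y).1 (hA1 ▸ AddSubgroup.mem_top y) e he
    rw [show E' = ⊥ from (Submodule.eq_bot_iff _).2 hbot, finrank_bot] at hk
    omega
  have hf : Nat.card (Cᶜ : Set Ω) = Nat.card {z : Ω // IsFix Q u z} :=
    Nat.card_congr (Equiv.subtypeEquivRight fun z => ⟨hout z, hfix z⟩)
  obtain ⟨k, hk⟩ := double_count hQ hn (IsFix Q) (fun g x z => isFix_ap g x z)
    (fun c hc x z hx => isFix_smul hc hx) h.1 h.fst_ne_zero z₁ hN (by omega)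
  rw [← hf] at hk
  set f := Nat.card (Cᶜ : Set Ω)
  have hf0 : f = 0 := by
    by_contra hf0
    obtain ⟨g, hg⟩ : ∃ g, N = Nat.card Ω + g + 1 := ⟨N - Nat.card Ω - 1, by omega⟩
    rw [hg, add_assoc, add_mul] at hk
    have hdvd : Nat.card Ω ∣ (g + 1) * f := (Nat.dvd_add_right (dvd_mul_right _ _)).1 ⟨k, hk⟩
    have hle := Nat.le_of_dvd (Nat.mul_pos (by omega) (by omega)) hdvd
    have hgf : g + 1 + f ≤ r := by omega
    have h4 : 4 * ((g + 1) * f) ≤ r * r :=
      le_trans (by nlinarith [sq_nonneg ((g : ℤ) + 1 - f)]) (Nat.mul_le_mul hgf hgf)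
    omega
  have hallC : ∀ z, z ∈ C := fun z => by
    by_contra hz
    have : 0 < f := Finite.card_pos_iff.2 ⟨⟨z, hz⟩⟩
    omega
  refine ⟨fun v v' hv z => ?_, fun z z' hzz => ?_⟩
  · obtain ⟨g, hg, e1, e2⟩ := (Sec.top Q).transitive_hypPair hQ (by omega) (Sec.mem_top u)
      (Sec.mem_top u') (Sec.mem_top v) (Sec.mem_top v') h hv
    obtain ⟨γ, -, eγ⟩ := hallC ((⟨g, hg.1⟩ : siegelGroup Q)⁻¹ • z)
    have eγ' : twSub γ (asub Q u u' z₁)
        = asub Q u u' ((⟨g, hg.1⟩ : siegelGroup Q)⁻¹ • z) := eγ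
    have := midV_ap ⟨g, hg.1⟩ (midV_of_midM h (eγ' ▸ midM_twSub hMid γ))
    rw [show ap ⟨g, hg.1⟩ u = v from e1, show ap ⟨g, hg.1⟩ u' = v' from e2, smul_inv_smul] at this
    exact this
  · by_contra hnot
    have h2 := one_orbit hQ (by omega) h z z' hzz.symm hnot
    have hle : Nat.card (cls hQ (by omega) h z) ≤ Nat.card Ω :=
      Nat.card_le_card_of_injective _ Subtype.val_injective
    obtain ⟨γ, hγ, eγ⟩ := hallC z
    have e1 : (levi hQ (by omega) h).cnum (asub Q u u' z) = (levi hQ (by omega) h).cnum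
        (asub Q u u' z₁) := by
      unfold Lev.cnum
      rw [(levi hQ (by omega) h).orb_eq_of_mem (hallC z)]
    have e2 : Nat.card (ann (q2 Q u u') (asub Q u u' z))
        = Nat.card (ann (q2 Q u u') (asub Q u u' z₁)) := by
      have a1 := card_ann (nondeg_q2 hQ h) (asub Q u u' z)
      have a2 := card_ann (nondeg_q2 hQ h) (asub Q u u' z₁)
      rw [card_asub_of_mem_cls hQ (by omega) h (hallC z), ← a2] at a1
      exact Nat.eq_of_mul_eq_mul_left Nat.card_pos a1
    rw [e1, e2, ← hcs] at h2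
    omega

end Main

end CfsgLib.MinIndexOrth
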