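import Cfsg.Agent.Lib.MinIndex.Orth.Action

/-!
A point with large root stabilisers at every hyperbolic pair is fixed by every root element: the
commutator of two stabilised root elements is a stabilised root element of a singular line.
-/

set_option autoImplicit false
set_option linter.unusedSectionVars false

namespace CfsgLib.MinIndexOrth

open QuadraticMap Module CfsgLib.ClassicalForms

variable {F V : Type*} [Field F] [AddCommGroup V] [Module F V] {Q : QuadraticForm F V}
  {Ω : Type*} [MulAction (siegelGroup Q) Ω]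

lemma root_fst_zero (w : V) : root Q 0 w = 1 := by
  refine Subtype.ext (orth_ext fun x => ?_)
  rw [root_val (QuadraticMap.map_zero Q) (polar_zero_left _ w), siegel_apply]
  simp [orth_one_apply]

/-- The commutator of two root elements. -/
lemma comm_root {u y v w : V} (hu : Q u = 0) (hy : Q y = 0) (huy : polar Q u y = 0)
    (hvu : polar Q u v = 0) (hvy : polar Q y v = 0) (hwu : polar Q u w = 0)
    (hwy : polar Q y w = 0) (t s : F) {z : Ω} (h1 : root Q u (v + t • y) • z = z)
    (h2 : root Q y (w + s • u) • z = z) : root Q u (polar Q v w • y) • z = z := by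
  have hyu : polar Q y u = 0 := by rw [polar_comm]; exact huy
  have huu : polar Q u u = 0 := by rw [polar_self_mul, hu, mul_zero]
  have hyy : polar Q y y = 0 := by rw [polar_self_mul, hy, mul_zero]
  have ha : polar Q u (v + t • y) = 0 := by
    simp [polar_add_right, polar_smul_right, hvu, huy]
  have hb : polar Q y (w + s • u) = 0 := by
    simp [polar_add_right, polar_smul_right, hwy, hyu]
  set g := root Q u (v + t • y) with hg
  set S := root Q y (w + s • u) with hS
  set c := polar Q v w with hc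
  have e1 : ap g y = y := by
    rw [hg, ap_root hu ha, hyu]
    simp [polar_add_right, polar_smul_right, hvy, hyy]
  have e2 : ap g (w + s • u) = (w + s • u) + -(c • u) := by
    rw [hg, ap_root hu ha]
    simp [polar_add_left, polar_add_right, polar_smul_left, polar_smul_right, huu, huy,
      polar_comm Q w u, hwu, polar_comm Q w y, hwy, polar_comm Q w v, hvu, ← hc]
    abel
  have hcy : polar Q y (-(c • u)) = 0 := by simp [polar_smul_right, hyu]
  have hconj : g * S * g⁻¹ = S * root Q y (-(c • u)) := by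
    rw [root_conj, e1, e2, root_add hy hb hcy]
  have hfix : (g * S * g⁻¹) • z = z := by
    rw [mul_smul, mul_smul, inv_smul_eq_iff.2 h1.symm, h2, h1]
  rw [hconj, mul_smul] at hfix
  have h3 : root Q y (-(c • u)) • z = z := smul_left_cancel S (hfix.trans h2.symm)
  rw [root_swap (by rw [QuadraticMap.map_smul, hu, smul_zero]) hy] at h3
  by_cases hc0 : c = 0
  · rw [hc0, zero_smul, root_zero, one_smul]
  · rwa [root_smul hc0] at h3

lemma card_eq_map_mul_inf {G H : Type*} [AddCommGroup G] [AddCommGroup H] (f : G →+ H)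
    (S : AddSubgroup G) :
    Nat.card S = Nat.card (S.map f) * Nat.card (S ⊓ f.ker : AddSubgroup G) := by
  set g : S →+ H := f.comp S.subtype with hg
  have e1 : Nat.card (S ⧸ g.ker) = Nat.card (S.map f) := by
    rw [Nat.card_congr (QuotientAddGroup.quotientKerEquivRange g).toEquiv, hg,
      AddMonoidHom.range_comp, AddSubgroup.range_subtype]
  have e2 : Nat.card g.ker = Nat.card (S ⊓ f.ker : AddSubgroup G) :=
    Nat.card_congr
      { toFun := fun x => ⟨((x : S) : G), (x : S).2, x.2⟩
        invFun := fun x => ⟨⟨(x : G), x.2.1⟩, x.2.2⟩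
        left_inv := fun _ => rfl
        right_inv := fun _ => rfl }
  rw [AddSubgroup.card_eq_card_quotient_mul_card_addSubgroup g.ker, e1, e2]

variable [Finite F] [FiniteDimensional F V]

variable (Q) in
/-- The subgroup of the scalars of a line. -/
noncomputable def lineC (u y : V) (z : Ω) : AddSubgroup F :=
  (K Q u z).comap (LinearMap.toSpanSingleton F V y).toAddMonoidHom

lemma mem_lineC {u y : V} {z : Ω} {t : F} :
    t ∈ lineC Q u y z ↔ t • y ∈ K Q u z := Iff.rfl

/-- One side of the pairing. -/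
lemma side {u u' y y' : V} (hp : IsHypPair Q (u, u')) (hy : IsHypPair Q (y, y'))
    (h1 : polar Q u y = 0) (h2 : polar Q u y' = 0) (h3 : polar Q u' y = 0)
    (h4 : polar Q u' y' = 0) (z : Ω) :
    ∃ A1 : AddSubgroup V,
      Nat.card (asub Q u u' z) ≤ Nat.card F * Nat.card (lineC Q u y z) * Nat.card A1 ∧
      ∀ v ∈ A1, v ∈ perp2 Q u u' ∧ v ∈ perp2 Q y y' ∧
        ∃ t : F, root Q u (v + t • y) • z = z := by
  have : Finite V := Module.finite_of_finite F
  set S : AddSubgroup V := K Q u z ⊓ (perp2 Q u u').toAddSubgroup with hS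
  have hcard : Nat.card (asub Q u u' z) = Nat.card S :=
    Nat.card_congr
      { toFun := fun x => ⟨((x : perp2 Q u u') : V), x.2, (x : perp2 Q u u').2⟩
        invFun := fun x => ⟨⟨(x : V), x.2.2⟩, x.2.1⟩
        left_inv := fun _ => rfl
        right_inv := fun _ => rfl }
  set θ : V →+ F := (polarBilin Q y).toAddMonoidHom with hθ
  set S0 : AddSubgroup V := S ⊓ θ.ker with hS0
  set P : V →+ V := ((perp2 Q y y').subtype.comp (proj2 hy)).toAddMonoidHom with hP
  have b1 : Nat.card S ≤ Nat.card F * Nat.card S0 := by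
    rw [card_eq_map_mul_inf θ S]
    exact Nat.mul_le_mul_right _ (Nat.card_le_card_of_injective _ Subtype.val_injective)
  have hP0 : ∀ a : V, a ∈ θ.ker → a = polar Q y' a • y + P a := fun a ha => by
    have ha' : polar Q y a = 0 := ha
    conv_lhs => rw [decomp2 hy a, ha', zero_smul, add_zero]
    rfl
  have b2 : Nat.card (S0 ⊓ P.ker : AddSubgroup V) ≤ Nat.card (lineC Q u y z) := by
    have key : ∀ a ∈ (S0 ⊓ P.ker : AddSubgroup V), a = polar Q y' a • y := fun a ha => by
      have h := hP0 a ha.1.2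
      rwa [show P a = 0 from ha.2, add_zero] at h
    refine Nat.card_le_card_of_injective (fun a : (S0 ⊓ P.ker : AddSubgroup V) =>
      (⟨polar Q y' (a : V), mem_lineC.2 (key _ a.2 ▸ a.2.1.1.1)⟩ : lineC Q u y z))
      fun a b hab => Subtype.ext ?_
    rw [key _ a.2, key _ b.2]
    exact congrArg (fun t : lineC Q u y z => (t : F) • y) hab
  refine ⟨S0.map P, ?_, ?_⟩
  · rw [hcard]
    calc Nat.card S ≤ Nat.card F * Nat.card S0 := b1
      _ = Nat.card F * (Nat.card (S0.map P) * Nat.card (S0 ⊓ P.ker : AddSubgroup V)) := by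
          rw [← card_eq_map_mul_inf P S0]
      _ ≤ Nat.card F * (Nat.card (S0.map P) * Nat.card (lineC Q u y z)) :=
          Nat.mul_le_mul_left _ (Nat.mul_le_mul_left _ b2)
      _ = _ := by ring
  · rintro v ⟨a, ⟨⟨haK, haM⟩, haθ⟩, rfl⟩
    obtain ⟨g1, g2⟩ := mem_perp2.1 (show a ∈ perp2 Q u u' from haM)
    refine ⟨mem_perp2.2 ⟨?_, ?_⟩, (proj2 hy a).2, polar Q y' a, ?_⟩
    · show polar Q u (proj2 hy a : V) = 0
      simp [coe_proj2, polar_sub_right, polar_smul_right, g1, h1, h2]
    · show polar Q u' (proj2 hy a : V) = 0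
      simp [coe_proj2, polar_sub_right, polar_smul_right, g2, h3, h4]
    · rw [add_comm, ← hP0 a haθ]
      exact haK.2

variable {p : ℕ} [Fact p.Prime] [CharP F p]

lemma card_mul_le_of_ne_top {C : AddSubgroup F} (hC : C ≠ ⊤) :
    Nat.card C * p ≤ Nat.card F := by
  have := Fintype.ofFinite F
  obtain ⟨e, -, he⟩ := FiniteField.card F p
  have hi := AddSubgroup.card_mul_index C
  have h1 : C.index ≠ 1 := fun h => hC (AddSubgroup.index_eq_one.1 h)
  obtain ⟨i, -, hi'⟩ := (Nat.dvd_prime_pow (Fact.out : p.Prime)).1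
    (show C.index ∣ p ^ (e : ℕ) by
      rw [← he, ← Nat.card_eq_fintype_card, ← hi]; exact dvd_mul_left _ _)
  have : i ≠ 0 := fun h => h1 (by rw [hi', h, pow_zero])
  calc Nat.card C * p = Nat.card C * p ^ 1 := by rw [pow_one]
    _ ≤ Nat.card C * C.index := Nat.mul_le_mul_left _
        (hi' ▸ Nat.pow_le_pow_right (Fact.out : p.Prime).pos (by omega))
    _ = _ := hi

lemma exists_killing {C : AddSubgroup F} (hC : C ≠ ⊤) :
    ∃ a : F, a ≠ 0 ∧ ∀ c ∈ C, chi F (a * c) = 1 := by
  have hβ : ∀ x : F, (∀ a, chi F ((AddMonoidHom.mul : F →+ F →+ F) x a) = 1) → x = 0 :=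
    fun x hx => eq_zero_of_chi fun s => hx s
  have h1 := card_mul_perpG hβ C
  have h2 : perpG (AddMonoidHom.mul : F →+ F →+ F) C ≠ ⊥ := fun h => by
    rw [h, AddSubgroup.card_bot, mul_one] at h1
    exact hC (AddSubgroup.eq_top_of_card_eq C h1)
  obtain ⟨a, ha⟩ := AddSubgroup.ne_bot_iff_exists_ne_zero.1 h2
  exact ⟨a, fun h => ha (Subtype.ext h), fun c hc => a.2 c hc⟩

variable (p)

/-- A singular line is fixed. -/
theorem line_fixed (hQ : Nondeg Q) {z : Ω}
    (hsize : ∀ u u' : V, IsHypPair Q (u, u') →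
      Nat.card F ^ (finrank F (perp2 Q u u') + 2) < (Nat.card (asub Q u u' z) * p) ^ 2)
    {u u' y y' : V} (hp : IsHypPair Q (u, u')) (hy : IsHypPair Q (y, y'))
    (h1 : polar Q u y = 0) (h2 : polar Q u y' = 0) (h3 : polar Q u' y = 0)
    (h4 : polar Q u' y' = 0) (t : F) : root Q u (t • y) • z = z := by
  have : Finite V := Module.finite_of_finite F
  by_contra hcon
  set C := lineC Q u y z with hC
  set C' := lineC Q y u z with hC'
  have hflip : ∀ c : F, c ∈ C' ↔ -c ∈ C := fun c => by
    simp only [hC, hC', mem_lineC, mem_K, polar_smul_right, h1, polar_comm Q y u, smul_zero,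
      true_and]
    by_cases hc : c = 0
    · simp [hc, root_zero]
    have e : root Q y (c • u) = root Q u ((-c) • y) := by
      rw [show c • u = -((-c) • u) by simp,
        root_swap (by rw [QuadraticMap.map_smul, hp.1, smul_zero]) hy.1,
        root_smul (neg_ne_zero.2 hc)]
    rw [e]
  have hCne : C ≠ ⊤ := fun h => hcon (mem_lineC.1 (show t ∈ C by rw [h]; exact AddSubgroup.mem_top t)).2
  have hC'ne : C' ≠ ⊤ := fun h => hCne (eq_top_iff.2 fun c _ => by
    have := (hflip (-c)).1 (by rw [h]; exact AddSubgroup.mem_top (-c))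
    rwa [neg_neg] at this)
  obtain ⟨A1, hA1, hv1⟩ := side hp hy h1 h2 h3 h4 z
  obtain ⟨A2, hA2, hv2⟩ := side hy hp (by rw [polar_comm]; exact h1)
    (by rw [polar_comm]; exact h3) (by rw [polar_comm]; exact h2) (by rw [polar_comm]; exact h4) z
  obtain ⟨a, ha0, ha⟩ := exists_killing hCne
  -- the complement of both pairs
  set Y : perp2 Q u u' := ⟨y, mem_perp2.2 ⟨h1, h3⟩⟩
  set Y' : perp2 Q u u' := ⟨y', mem_perp2.2 ⟨h2, h4⟩⟩
  have hY : IsHypPair (q2 Q u u') (Y, Y') := ⟨hy.1, hy.2.1, by rw [polar_q2]; exact hy.2.2⟩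
  set X := perp2 (q2 Q u u') Y Y'
  set ι : X →+ V := ((perp2 Q u u').subtype.comp X.subtype).toAddMonoidHom with hι
  have hιinj : Function.Injective ι := fun a b h => Subtype.ext (Subtype.ext h)
  have hrange : ∀ v, v ∈ perp2 Q u u' → v ∈ perp2 Q y y' → v ∈ ι.range := fun v hv hv' =>
    ⟨⟨⟨v, hv⟩, mem_perp2.2 ⟨by rw [polar_q2]; exact (mem_perp2.1 hv').1,
      by rw [polar_q2]; exact (mem_perp2.1 hv').2⟩⟩, rfl⟩
  have hc1 : Nat.card (A1.comap ι) = Nat.card A1 := by
    rw [Nat.card_congr ((A1.comap ι).equivMapOfInjective ι hιinj).toEquiv,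
      AddSubgroup.map_comap_eq_self fun v hv => hrange v (hv1 v hv).1 (hv1 v hv).2.1]
  have hc2 : Nat.card (A2.comap ι) = Nat.card A2 := by
    rw [Nat.card_congr ((A2.comap ι).equivMapOfInjective ι hιinj).toEquiv,
      AddSubgroup.map_comap_eq_self fun v hv => hrange v (hv2 v hv).2.1 (hv2 v hv).1]
  set q' : QuadraticForm F X := a • q2 (q2 Q u u') Y Y' with hq'
  have hq'p : ∀ v w : X, polar q' v w = a * polar Q (ι v) (ι w) := fun v w => by
    rw [hq', show ⇑(a • q2 (q2 Q u u') Y Y') = a • ⇑(q2 (q2 Q u u') Y Y') from rfl,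
      QuadraticMap.polar_smul, smul_eq_mul, polar_q2, polar_q2]
    rfl
  have hnd : Nondeg q' := fun v hv => nondeg_q2 (nondeg_q2 hQ hp) hY v fun w => by
    have h := hv w
    rw [hq'p] at h
    rw [polar_q2, polar_q2]
    exact (mul_eq_zero.1 h).resolve_left ha0
  have hle : A2.comap ι ≤ ann q' (A1.comap ι) := by
    intro w hw v hv
    obtain ⟨g1, g2, s, hs⟩ := hv2 _ hw
    obtain ⟨f1, f2, t', ht'⟩ := hv1 _ hv
    have := comm_root hp.1 hy.1 h1 (mem_perp2.1 f1).1 (mem_perp2.1 f2).1 (mem_perp2.1 g2).1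
      (mem_perp2.1 g1).1 t' s ht' hs
    have hmem : polar Q (ι v) (ι w) ∈ C :=
      mem_lineC.2 (mem_K.2 ⟨by rw [polar_smul_right, h1, smul_zero], this⟩)
    rw [pp_apply, hq'p, polar_comm Q (ι w)]
    exact ha _ hmem
  have hle' := AddSubgroup.card_le_of_le hle
  have h5 := card_ann hnd (A1.comap ι)
  have h6 : Nat.card (A1.comap ι) * Nat.card (A2.comap ι) ≤ Nat.card F ^ finrank F X :=
    h5 ▸ Nat.mul_le_mul_left _ hle'
  rw [hc1, hc2] at h6
  set d := finrank F (perp2 Q u u') with hd
  have hdX : finrank F X + 2 = d := finrank_perp2 hY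
  have hd' : finrank F (perp2 Q y y') = d := by
    have e1 := finrank_perp2 hy
    have e2 := finrank_perp2 hp
    omega
  have s1 := hsize u u' hp
  have s2 := hsize y y' hy
  rw [hd'] at s2
  set q := Nat.card F with hqdef
  have hq0 : 0 < q := Nat.card_pos
  have m1 : Nat.card (asub Q u u' z) * p ≤ q ^ 2 * Nat.card A1 := by
    calc Nat.card (asub Q u u' z) * p ≤ q * Nat.card C * Nat.card A1 * p :=
          Nat.mul_le_mul_right _ hA1
      _ = q * (Nat.card C * p) * Nat.card A1 := by ring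
      _ ≤ q * q * Nat.card A1 :=
          Nat.mul_le_mul_right _ (Nat.mul_le_mul_left _ (card_mul_le_of_ne_top hCne))
      _ = _ := by ring
  have m2 : Nat.card (asub Q y y' z) * p ≤ q ^ 2 * Nat.card A2 := by
    calc Nat.card (asub Q y y' z) * p ≤ q * Nat.card C' * Nat.card A2 * p :=
          Nat.mul_le_mul_right _ hA2
      _ = q * (Nat.card C' * p) * Nat.card A2 := by ring
      _ ≤ q * q * Nat.card A2 :=
          Nat.mul_le_mul_right _ (Nat.mul_le_mul_left _ (card_mul_le_of_ne_top hC'ne))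
      _ = _ := by ring
  have key : (Nat.card (asub Q u u' z) * p) * (Nat.card (asub Q y y' z) * p) ≤ q ^ (d + 2) := by
    calc _ ≤ (q ^ 2 * Nat.card A1) * (q ^ 2 * Nat.card A2) := Nat.mul_le_mul m1 m2
      _ = q ^ 4 * (Nat.card A1 * Nat.card A2) := by ring
      _ ≤ q ^ 4 * q ^ finrank F X := Nat.mul_le_mul_left _ h6
      _ = _ := by rw [← pow_add]; congr 1; omega
  have h7 := Nat.mul_lt_mul'' s1 s2
  rw [← pow_two, ← mul_pow] at h7
  exact absurd key (not_le.2 (lt_of_pow_lt_pow_left₀ 2 (Nat.zero_le _) h7))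

/-- Every root element fixes the point. -/
theorem fix_all (hQ : Nondeg Q) (hn : 7 ≤ finrank F V) {z : Ω}
    (hsize : ∀ u u' : V, IsHypPair Q (u, u') →
      Nat.card F ^ (finrank F (perp2 Q u u') + 2) < (Nat.card (asub Q u u' z) * p) ^ 2)
    (x w : V) : root Q x w • z = z := by
  -- singular second vectors
  have key : ∀ x y : V, Q x = 0 → Q y = 0 → polar Q x y = 0 → root Q x y • z = z := by
    intro x y hx hy hxy
    by_cases hx0 : x = 0
    · rw [hx0, root_fst_zero, one_smul]
    by_cases hind : ∀ c : F, y ≠ c • x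
    · have hxx : polar Q x x = 0 := by rw [polar_self_mul, hx, mul_zero]
      obtain ⟨x', -, hx', hx'1, hx'2⟩ := (Sec.top Q).exists_common hQ (Sec.mem_top x)
        (Sec.mem_top (x + y)) hx (by rw [polar_add_right, hxx, hxy, add_zero]) hx0
        fun c hc => hind (c - 1) (by rw [sub_smul, one_smul, ← hc]; abel)
      rw [polar_add_right, hx'1, add_eq_left] at hx'2
      have hp : IsHypPair Q (x, x') := ⟨hx, hx', by rw [polar_comm]; exact hx'1⟩
      have hy0 : (⟨y, mem_perp2.2 ⟨hxy, hx'2⟩⟩ : perp2 Q x x') ≠ 0 := fun h =>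
        hind 0 (by rw [zero_smul]; exact congrArg Subtype.val h)
      obtain ⟨⟨y', hy'M⟩, -, hY1, hY2, hY3⟩ := (Sec.top (q2 Q x x')).exists_partner
        (nondeg_q2 hQ hp) (Sec.mem_top _) hy hy0
      have hyp : IsHypPair Q (y, y') := ⟨hy, hY2, by rw [polar_q2] at hY3; exact hY3⟩
      have := line_fixed p hQ hsize hp hyp hxy (mem_perp2.1 hy'M).1 hx'2 (mem_perp2.1 hy'M).2 1
      rwa [one_smul] at this
    · simp only [not_forall, not_not] at hind
      obtain ⟨c, rfl⟩ := hind
      rw [show c • x = 0 + c • x from (zero_add _).symm, root_add_smul hx (polar_zero_right _ _),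
        root_zero, one_smul]
  by_cases h : Q x = 0 ∧ polar Q x w = 0
  swap
  · rw [root_of_not h, one_smul]
  obtain ⟨hx, hxw⟩ := h
  by_cases hx0 : x = 0
  · rw [hx0, root_fst_zero, one_smul]
  obtain ⟨x', -, hp⟩ := (Sec.top Q).exists_partner hQ (Sec.mem_top x) hx hx0
  rw [root_eq_proj hp hxw]
  set m := proj2 hp w
  by_cases hm : m = 0
  · rw [hm, ZeroMemClass.coe_zero, root_zero, one_smul]
  obtain ⟨e, -, he, hem⟩ := (Sec.top (q2 Q x x')).exists_singular_polar_one (nondeg_q2 hQ hp)
    (by have := finrank_perp2 hp; omega) (Sec.mem_top m) hm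
  set m' : perp2 Q x x' := m - q2 Q x x' m • e with hm'def
  have hm' : q2 Q x x' m' = 0 := by
    rw [hm'def, map_sub_eq, QuadraticMap.map_smul, he, smul_zero, polar_smul_right,
      polar_comm _ m e, hem, smul_eq_mul, mul_one, add_zero, sub_self]
  have e1 : (m : V) = (m' : V) + ((q2 Q x x' m • e : perp2 Q x x') : V) := by
    rw [← Submodule.coe_add, hm'def, sub_add_cancel]
  rw [e1, ← root_add hx (mem_perp2.1 m'.2).1 (mem_perp2.1 (q2 Q x x' m • e).2).1, mul_smul,
    key x _ hx ?_ (mem_perp2.1 (q2 Q x x' m • e).2).1, key x (m' : V) hx hm' (mem_perp2.1 m'.2).1]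
  show q2 Q x x' (q2 Q x x' m • e) = 0
  rw [QuadraticMap.map_smul, he, smul_zero]

/-- A point fixed by every root element is fixed by the Siegel group. -/
theorem smul_eq_of_roots {z : Ω} (h : ∀ x w : V, root Q x w • z = z) (g : siegelGroup Q) :
    g • z = z := by
  obtain ⟨g, hg⟩ := g
  refine Subgroup.closure_induction (p := fun g hg => (⟨g, hg⟩ : siegelGroup Q) • z = z)
    ?_ ?_ ?_ ?_ hg
  · rintro _ ⟨u, w, hu, hw, rfl⟩
    have := h u w
    rwa [show root Q u w = ⟨_, siegel_mem_siegelGroup hu hw⟩ from Subtype.ext (root_val hu hw)]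
      at this
  · exact one_smul _ z
  · intro a b ha hb h1 h2
    exact (mul_smul (⟨a, ha⟩ : siegelGroup Q) ⟨b, hb⟩ z).trans (by rw [h2, h1])
  · intro a ha h1
    exact inv_smul_eq_iff.2 (h1.symm : z = (⟨a, ha⟩ : siegelGroup Q) • z)

end CfsgLib.MinIndexOrth
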