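import Cfsg.Agent.Lib.MinIndex.Orth.Trans
import Cfsg.Agent.Lib.MinIndex.Orth.Duality

/-!
The twisted action of a Levi-type group on the subgroups of a quadratic space, the covering counts
and the lower bounds for orbits of subgroups that follow from them.
-/

set_option autoImplicit false
set_option linter.unusedSectionVars false

namespace CfsgLib.MinIndexOrth

open QuadraticMap Module CfsgLib.ClassicalForms

variable {F : Type*} [Field F] [Finite F] {M : Type*} [AddCommGroup M] [Module F M]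
  [FiniteDimensional F M]

/-- A group of pairs (isometry, scalar) containing the Siegel group and having every scalar. -/
structure Lev (Q : QuadraticForm F M) where
  /-- The group. -/
  grp : Subgroup (orth Q × Fˣ)
  siegel_mem : ∀ g ∈ siegelGroup Q, (g, (1 : Fˣ)) ∈ grp
  scalar : ∀ l : Fˣ, ∃ g : orth Q, (g, l) ∈ grp

variable {Q : QuadraticForm F M}

/-- The twisted action `x ↦ l • g x`. -/
noncomputable def tw (γ : orth Q × Fˣ) : M ≃ₗ[F] M :=
  (γ.1 : M ≃ₗ[F] M).trans (LinearEquiv.smulOfUnit γ.2)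

lemma tw_apply (γ : orth Q × Fˣ) (x : M) : tw γ x = (γ.2 : F) • (γ.1 : M ≃ₗ[F] M) x := rfl

lemma tw_mul (γ δ : orth Q × Fˣ) (x : M) : tw (γ * δ) x = tw γ (tw δ x) := by
  simp only [tw_apply, Prod.snd_mul, Prod.fst_mul, orth_mul_apply, map_smul, smul_smul,
    Units.val_mul]
  rw [mul_comm]

lemma tw_siegel (g : orth Q) (x : M) : tw (g, (1 : Fˣ)) x = (g : M ≃ₗ[F] M) x := by
  simp [tw_apply]

lemma Q_tw (γ : orth Q × Fˣ) (x : M) : Q (tw γ x) = (γ.2 : F) * γ.2 * Q x := by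
  rw [tw_apply, QuadraticMap.map_smul, orth_apply, smul_eq_mul]

lemma polar_tw (γ : orth Q × Fˣ) (x y : M) :
    polar Q (tw γ x) (tw γ y) = (γ.2 : F) * γ.2 * polar Q x y := by
  rw [tw_apply, tw_apply, polar_smul_left, polar_smul_right, polar_apply, smul_eq_mul, smul_eq_mul,
    mul_assoc]

lemma Q_tw_eq_zero (γ : orth Q × Fˣ) (x : M) : Q (tw γ x) = 0 ↔ Q x = 0 := by
  rw [Q_tw]; simp

/-- The action on subgroups. -/
noncomputable def twSub (γ : orth Q × Fˣ) (A : AddSubgroup M) : AddSubgroup M :=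
  A.map (tw γ).toLinearMap.toAddMonoidHom

lemma coe_twSub (γ : orth Q × Fˣ) (A : AddSubgroup M) : (twSub γ A : Set M) = tw γ '' A := rfl

lemma mem_twSub {γ : orth Q × Fˣ} {A : AddSubgroup M} {x : M} :
    tw γ x ∈ twSub γ A ↔ x ∈ A := by
  change tw γ x ∈ (twSub γ A : Set M) ↔ _
  rw [coe_twSub]
  exact (tw γ).injective.mem_set_image

lemma card_twSub (γ : orth Q × Fˣ) (A : AddSubgroup M) : Nat.card (twSub γ A) = Nat.card A :=
  Nat.card_image_of_injective (tw γ).injective A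

namespace Lev

variable (L : Lev Q)

/-- The opposite twist. -/
def flip : Lev Q where
  grp := L.grp.comap ((MonoidHom.id (orth Q)).prodMap (invMonoidHom : Fˣ →* Fˣ))
  siegel_mem g hg := by
    rw [Subgroup.mem_comap]
    simpa using L.siegel_mem g hg
  scalar l := by
    obtain ⟨g, hg⟩ := L.scalar l⁻¹
    exact ⟨g, by rw [Subgroup.mem_comap]; simpa using hg⟩

/-- The orbit of a subgroup. -/
def orb (A : AddSubgroup M) : Set (AddSubgroup M) :=
  (fun γ : orth Q × Fˣ => twSub γ A) '' SetLike.coe L.grp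

/-- The length of the orbit of a subgroup. -/
noncomputable def cnum (A : AddSubgroup M) : ℕ := Nat.card (L.orb A)

/-- The span of the singular vectors of a subgroup. -/
def spanSing (Q : QuadraticForm F M) (A : AddSubgroup M) : Submodule F M :=
  Submodule.span F {x | x ∈ A ∧ Q x = 0}

lemma spanSing_twSub (γ : orth Q × Fˣ) (A : AddSubgroup M) :
    spanSing Q (twSub γ A) = (spanSing Q A).map (tw γ).toLinearMap := by
  rw [spanSing, spanSing, Submodule.map_span]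
  congr 1
  ext x
  constructor
  · rintro ⟨hx, hQ⟩
    obtain ⟨y, hy, rfl⟩ : ∃ y ∈ A, tw γ y = x := hx
    exact ⟨y, ⟨hy, (Q_tw_eq_zero γ y).1 hQ⟩, rfl⟩
  · rintro ⟨y, ⟨hy, hQ⟩, rfl⟩
    exact ⟨mem_twSub.2 hy, (Q_tw_eq_zero γ y).2 hQ⟩

variable [Finite M]

instance : Finite (AddSubgroup M) := Finite.of_injective _ SetLike.coe_injective

lemma cnum_pos (A : AddSubgroup M) : 0 < L.cnum A :=
  Finite.card_pos_iff.2 ⟨⟨_, 1, one_mem _, rfl⟩⟩

/-- The covering count. -/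
theorem cover {ι X : Type*} [Finite ι] [Finite X] (O : Set X) (f : ι → Set X) (n : ℕ)
    (hn : ∀ i, Nat.card (f i) ≤ n) (hO : ∀ o ∈ O, ∃ i, o ∈ f i) :
    Nat.card O ≤ Nat.card ι * n := by
  have := Fintype.ofFinite ι
  calc Nat.card O ≤ Nat.card (Σ i, f i) := by
        refine Nat.card_le_card_of_surjective
          (fun p : {p : Σ i, f i // (p.2 : X) ∈ O} => (⟨(p.1.2 : X), p.2⟩ : O)) ?_ |>.trans
          (Nat.card_le_card_of_injective _ Subtype.val_injective)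
        rintro ⟨o, ho⟩
        obtain ⟨i, hi⟩ := hO o ho
        exact ⟨⟨⟨i, o, hi⟩, ho⟩, rfl⟩
    _ = ∑ i, Nat.card (f i) := Nat.card_sigma
    _ ≤ ∑ _i : ι, n := Finset.sum_le_sum fun i _ => hn i
    _ = Nat.card ι * n := by simp [Nat.card_eq_fintype_card]

/-- Covering by the images of a set attached to a subgroup. -/
theorem cover_orb {X : Type*} [Finite X] (A : AddSubgroup M) (O : Set X)
    (f : AddSubgroup M → Set X) (τ : orth Q × Fˣ → X → X)
    (hf : ∀ γ ∈ L.grp, f (twSub γ A) = τ γ '' f A)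
    (hO : ∀ o ∈ O, ∃ γ ∈ L.grp, o ∈ τ γ '' f A) :
    Nat.card O ≤ L.cnum A * Nat.card (f A) := by
  refine cover O (fun B : L.orb A => f (B : AddSubgroup M)) _ (fun B => ?_) fun o ho => ?_
  · obtain ⟨γ, hγ, hB⟩ := B.2
    rw [← hB, hf γ hγ]
    exact Nat.card_image_le (Set.toFinite _)
  · obtain ⟨γ, hγ, h⟩ := hO o ho
    exact ⟨⟨_, γ, hγ, rfl⟩, by rw [hf γ hγ]; exact h⟩

/-- The set of non-zero squares. -/
def sqSet (F : Type*) [Field F] : Set F := {b | ∃ l : Fˣ, (l : F) * l = b}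

lemma ne_zero_of_mem_sqSet {b : F} (hb : b ∈ sqSet F) : b ≠ 0 := by
  obtain ⟨l, rfl⟩ := hb
  exact mul_ne_zero l.ne_zero l.ne_zero

/-- The number of non-zero squares. -/
noncomputable def gam (F : Type*) [Field F] : ℕ := Nat.card (sqSet F)

lemma card_units : Nat.card F - 1 = Nat.card Fˣ := (Nat.card_units F).symm

lemma le_two_mul_gam : Nat.card F - 1 ≤ 2 * gam F := by
  classical
  have := Fintype.ofFinite F
  rw [card_units, Nat.card_eq_fintype_card, ← Finset.card_univ, gam]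
  refine (Finset.card_le_mul_card_image (f := fun l : Fˣ => (l : F) * l) _ 2 fun b _ => ?_).trans
    (Nat.mul_le_mul_left _ (le_of_eq ?_))
  · by_cases hne : (Finset.filter (fun l : Fˣ => (l : F) * l = b) Finset.univ).Nonempty
    · obtain ⟨r, hr⟩ := hne
      refine le_trans (Finset.card_le_card (fun l hl => ?_) :
        _ ≤ ({r, -r} : Finset Fˣ).card) Finset.card_le_two
      simp only [Finset.mem_filter, Finset.mem_univ, true_and] at hr hl
      rw [Finset.mem_insert, Finset.mem_singleton]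
      rcases mul_self_eq_mul_self_iff.1 (hl.trans hr.symm) with h | h
      · exact Or.inl (Units.ext h)
      · exact Or.inr (Units.ext (by simpa using h))
    · rw [Finset.not_nonempty_iff_eq_empty.1 hne]
      simp
  · rw [← Set.ncard_coe_finset, ← Nat.card_coe_set_eq]
    refine Nat.card_congr (Equiv.setCongr ?_)
    ext b
    simp [sqSet]

lemma gam_eq_of_two_eq_zero (h2 : (2 : F) = 0) : gam F = Nat.card F - 1 := by
  rw [card_units, gam]
  refine (Nat.card_congr (Equiv.ofBijective (fun l : Fˣ => (⟨(l : F) * l, l, rfl⟩ : sqSet F))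
    ⟨fun l r h => ?_, fun b => ?_⟩)).symm
  · have h1 : (l : F) * l = r * r := congrArg Subtype.val h
    rcases mul_self_eq_mul_self_iff.1 h1 with h3 | h3
    · exact Units.ext h3
    · refine Units.ext ?_
      rw [h3, neg_eq_iff_add_eq_zero, ← two_mul, h2, zero_mul]
  · obtain ⟨l, hl⟩ := b.2
    exact ⟨l, Subtype.ext hl⟩

lemma exists_to_singular (hQ : Nondeg Q) (hd : 5 ≤ finrank F M) {v v' : M} (hv : Q v = 0)
    (hv0 : v ≠ 0) (hv' : Q v' = 0) (hv'0 : v' ≠ 0) (l : Fˣ) :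
    ∃ γ ∈ L.grp, γ.2 = l ∧ tw γ v = v' := by
  obtain ⟨g0, hg0⟩ := L.scalar l
  obtain ⟨g1, hg1, e⟩ := (Sec.top Q).transitive_singular hQ (by omega)
    (Sec.mem_top (tw (g0, l) v)) (Sec.mem_top v') ((Q_tw_eq_zero _ v).2 hv) hv'
    (fun h => hv0 ((LinearEquiv.map_eq_zero_iff _).1 h)) hv'0
  exact ⟨(g1, 1) * (g0, l), mul_mem (L.siegel_mem g1 hg1.1) hg0, by simp,
    by rw [tw_mul, tw_siegel, e]⟩

/-- A singular vector in `A`. -/
theorem singular_bound (hQ : Nondeg Q) (hd : 5 ≤ finrank F M) {A : AddSubgroup M} {v : M}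
    (hvA : v ∈ A) (hv : Q v = 0) (hv0 : v ≠ 0) :
    vc Q 0 - 1 ≤ L.cnum A * (Nat.card A - 1) := by
  have hbase : Nat.card {x : M // Q x = 0 ∧ x ≠ 0} + 1 = vc Q 0 :=
    card_punctured (fun x => Q x = 0) (QuadraticMap.map_zero Q)
  have hA : Nat.card {x : M // x ∈ A ∧ x ≠ 0} + 1 = Nat.card A :=
    card_punctured (fun x => x ∈ A) A.zero_mem
  have key := L.cover_orb A {x : M | Q x = 0 ∧ x ≠ 0} (fun B => {x | x ∈ B ∧ x ≠ 0})
    (fun γ => tw γ) (fun γ _ => ?_) (fun o ho => ?_)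
  · rw [show vc Q 0 - 1 = Nat.card {x : M // Q x = 0 ∧ x ≠ 0} by omega,
      show Nat.card A - 1 = Nat.card {x : M // x ∈ A ∧ x ≠ 0} by omega]
    exact key
  · ext x
    constructor
    · rintro ⟨hx, hx0⟩
      obtain ⟨y, hy, rfl⟩ : ∃ y ∈ A, tw γ y = x := hx
      exact ⟨y, ⟨hy, fun h => hx0 (by rw [h, map_zero])⟩, rfl⟩
    · rintro ⟨y, ⟨hy, hy0⟩, rfl⟩
      exact ⟨mem_twSub.2 hy, fun h => hy0 ((LinearEquiv.map_eq_zero_iff _).1 h)⟩
  · obtain ⟨γ, hγ, -, e⟩ := L.exists_to_singular hQ hd hv hv0 ho.1 ho.2 1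
    exact ⟨γ, hγ, v, ⟨hvA, hv0⟩, e⟩

/-- The vectors whose value is a square multiple of `a`. -/
def valSet (Q : QuadraticForm F M) (a : F) : Set M := {x | ∃ b ∈ sqSet F, Q x = b * a}

lemma valSet_lower (hQ : Nondeg Q) (hd : 5 ≤ finrank F M) {a : F} (ha : a ≠ 0) :
    gam F * Nat.card F ^ (finrank F M - 1)
      ≤ Nat.card (valSet Q a) + gam F * Nat.card F ^ (finrank F M - 3) := by
  classical
  have := Fintype.ofFinite F
  have e : valSet Q a ≃ Σ b : sqSet F, {x : M // Q x = (b : F) * a} :=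
    { toFun := fun x => ⟨⟨Q (x : M) / a, by
          obtain ⟨b, hb, hx⟩ := x.2; rwa [hx, mul_div_cancel_right₀ _ ha]⟩,
        (x : M), (div_mul_cancel₀ _ ha).symm⟩
      invFun := fun p => ⟨p.2.1, p.1.1, p.1.2, p.2.2⟩
      left_inv := fun x => rfl
      right_inv := fun ⟨⟨b, hb⟩, x, hx⟩ => by
        obtain rfl : b = Q x / a := by rw [hx, mul_div_cancel_right₀ _ ha]
        rfl }
  rw [Nat.card_congr e, Nat.card_sigma, gam, Nat.card_eq_fintype_card (α := sqSet F),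
    ← Finset.card_univ, ← smul_eq_mul, ← smul_eq_mul, ← Finset.sum_const, ← Finset.sum_const,
    ← Finset.sum_add_distrib]
  exact Finset.sum_le_sum fun b _ => vc_lower hQ hd _

lemma exists_to_value (hQ : Nondeg Q) (hd : 5 ≤ finrank F M) {w w' : M} (hw : Q w ≠ 0)
    (hw' : w' ∈ valSet Q (Q w)) : ∃ γ ∈ L.grp, tw γ w = w' := by
  obtain ⟨b, ⟨l, rfl⟩, hb⟩ := hw'
  obtain ⟨g0, hg0⟩ := L.scalar l
  obtain ⟨g1, hg1, e⟩ := (Sec.top Q).transitive_norm hQ (by omega)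
    (Sec.mem_top (tw (g0, l) w)) (Sec.mem_top w') (by rw [Q_tw, hb])
    (by rw [Q_tw]; exact mul_ne_zero (mul_ne_zero l.ne_zero l.ne_zero) hw)
  exact ⟨(g1, 1) * (g0, l), mul_mem (L.siegel_mem g1 hg1.1) hg0, by rw [tw_mul, tw_siegel, e]⟩

/-- A non-singular vector in `A`. -/
theorem value_bound (hQ : Nondeg Q) (hd : 5 ≤ finrank F M) {A : AddSubgroup M} {w : M}
    (hwA : w ∈ A) (hw : Q w ≠ 0) :
    gam F * Nat.card F ^ (finrank F M - 1)
      ≤ L.cnum A * (Nat.card A - 1) + gam F * Nat.card F ^ (finrank F M - 3) := by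
  refine (valSet_lower hQ hd hw).trans (Nat.add_le_add_right ?_ _)
  have hA : Nat.card {x : M // x ∈ A ∧ x ≠ 0} + 1 = Nat.card A :=
    card_punctured (fun x => x ∈ A) A.zero_mem
  rw [show Nat.card A - 1 = Nat.card {x : M // x ∈ A ∧ x ≠ 0} by omega]
  refine L.cover_orb A _ (fun B => {x | x ∈ B ∧ x ≠ 0}) (fun γ => tw γ) (fun γ _ => ?_)
    (fun o ho => ?_)
  · ext x
    constructor
    · rintro ⟨hx, hx0⟩
      obtain ⟨y, hy, rfl⟩ : ∃ y ∈ A, tw γ y = x := hx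
      exact ⟨y, ⟨hy, fun h => hx0 (by rw [h, map_zero])⟩, rfl⟩
    · rintro ⟨y, ⟨hy, hy0⟩, rfl⟩
      exact ⟨mem_twSub.2 hy, fun h => hy0 ((LinearEquiv.map_eq_zero_iff _).1 h)⟩
  · obtain ⟨γ, hγ, e⟩ := L.exists_to_value hQ hd hw ho
    exact ⟨γ, hγ, w, ⟨hwA, fun h => hw (by rw [h, QuadraticMap.map_zero])⟩, e⟩

/-- Pairs of vectors of a set. -/
lemma pairs_twSub (γ : orth Q × Fˣ) (A : AddSubgroup M) :
    {p : M × M | p.1 ∈ twSub γ A ∧ p.2 ∈ twSub γ A}
      = Prod.map (tw γ) (tw γ) '' {p : M × M | p.1 ∈ A ∧ p.2 ∈ A} := by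
  ext p
  constructor
  · rintro ⟨h1, h2⟩
    obtain ⟨x, hx, e1⟩ : ∃ x ∈ A, tw γ x = p.1 := h1
    obtain ⟨y, hy, e2⟩ : ∃ y ∈ A, tw γ y = p.2 := h2
    exact ⟨(x, y), ⟨hx, hy⟩, Prod.ext e1 e2⟩
  · rintro ⟨x, ⟨hx, hy⟩, rfl⟩
    exact ⟨mem_twSub.2 hx, mem_twSub.2 hy⟩

lemma card_pairs (A : AddSubgroup M) :
    Nat.card {p : M × M | p.1 ∈ A ∧ p.2 ∈ A} = Nat.card A * Nat.card A :=
  (Nat.card_congr (Equiv.Set.prod (A : Set M) (A : Set M))).trans (Nat.card_prod _ _)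

/-- A singular vector of `A` not orthogonal to another vector of `A`. -/
theorem nonperp_bound (hQ : Nondeg Q) (hd : 5 ≤ finrank F M) {A : AddSubgroup M} {v w : M}
    (hvA : v ∈ A) (hwA : w ∈ A) (hv : Q v = 0) (hvw : polar Q v w ≠ 0) :
    (vc Q 0 - 1) * gam F * Nat.card F ^ (finrank F M - 2)
      ≤ L.cnum A * (Nat.card A * Nat.card A) := by
  classical
  have := Fintype.ofFinite F
  have := Fintype.ofFinite M
  have hv0 : v ≠ 0 := fun h => hvw (by rw [h, polar_zero_left])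
  set β := polar Q v w with hβ
  let O : Set (M × M) := {p | Q p.1 = 0 ∧ p.1 ≠ 0 ∧
    ∃ b ∈ sqSet F, polar Q p.1 p.2 = b * β ∧ Q p.2 = b * Q w}
  let e : (Σ x : {x : M // Q x = 0 ∧ x ≠ 0}, Σ b : sqSet F,
      {y : M // polar Q (x : M) y = (b : F) * β ∧ Q y = (b : F) * Q w}) → O :=
    fun p => ⟨((p.1 : M), p.2.2.1), p.1.2.1, p.1.2.2, p.2.1.1, p.2.1.2, p.2.2.2⟩
  have he : Function.Injective e := by
    rintro ⟨x, b, y, hy⟩ ⟨x', b', y', hy'⟩ h
    have h1 := congrArg Subtype.val h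
    simp only [e, Prod.mk.injEq] at h1
    obtain ⟨h1, rfl⟩ := h1
    obtain rfl : x = x' := Subtype.ext h1
    obtain rfl : b = b' := Subtype.ext (mul_right_cancel₀ hvw (hy.1.symm.trans hy'.1))
    rfl
  have hbase : Nat.card {x : M // Q x = 0 ∧ x ≠ 0} + 1 = vc Q 0 :=
    card_punctured (fun x => Q x = 0) (QuadraticMap.map_zero Q)
  calc (vc Q 0 - 1) * gam F * Nat.card F ^ (finrank F M - 2)
      = ∑ _x : {x : M // Q x = 0 ∧ x ≠ 0}, ∑ _b : sqSet F, Nat.card F ^ (finrank F M - 2) := by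
        simp only [Finset.sum_const, Finset.card_univ, smul_eq_mul, gam, ← Nat.card_eq_fintype_card]
        rw [show vc Q 0 - 1 = Nat.card {x : M // Q x = 0 ∧ x ≠ 0} by omega, mul_assoc]
    _ ≤ Nat.card O := by
        refine le_trans (le_of_eq ?_) (Nat.card_le_card_of_injective e he)
        rw [Nat.card_sigma]
        refine Finset.sum_congr rfl fun x _ => ?_
        rw [Nat.card_sigma]
        exact Finset.sum_congr rfl fun b _ =>
          (card_translate hQ x.2.1 x.2.2 (mul_ne_zero (ne_zero_of_mem_sqSet b.2) hvw) _).symm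
    _ ≤ L.cnum A * Nat.card {p : M × M | p.1 ∈ A ∧ p.2 ∈ A} := by
        refine L.cover_orb A O (fun B => {p | p.1 ∈ B ∧ p.2 ∈ B})
          (fun γ => Prod.map (tw γ) (tw γ)) (fun γ _ => pairs_twSub γ A) ?_
        rintro ⟨x, y⟩ ⟨hx, hx0, b, ⟨l, rfl⟩, hxy, hy⟩
        simp only at hx hx0 hxy hy
        obtain ⟨γ, hγ, hl, e1⟩ := L.exists_to_singular hQ hd hv hv0 hx hx0 l
        have h2 : polar Q x (tw γ w) = (l : F) * l * β := by rw [← e1, polar_tw, hl]
        have h3 : (l : F) * l * β ≠ 0 := mul_ne_zero (mul_ne_zero l.ne_zero l.ne_zero) hvw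
        obtain ⟨g, hg, egx, egy⟩ := translate (v := x) (w := tw γ w) (w' := y) hx (by rw [h2]; exact h3)
          (by rw [h2]; exact hxy) (by rw [Q_tw, hl]; exact hy)
        exact ⟨(g, 1) * γ, mul_mem (L.siegel_mem g hg) hγ, (v, w), ⟨hvA, hwA⟩,
          Prod.ext (by simp [tw_mul, tw_siegel, e1, egx]) (by simp [tw_mul, tw_siegel, egy])⟩
    _ = _ := by rw [card_pairs]

/-- A singular vector of `A` and a non-singular vector of `A` orthogonal to it. -/
theorem perp_bound (hQ : Nondeg Q) (hd : 5 ≤ finrank F M) {A : AddSubgroup M} {v w : M}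
    (hvA : v ∈ A) (hwA : w ∈ A) (hv : Q v = 0) (hv0 : v ≠ 0) (hw : Q w ≠ 0)
    (hvw : polar Q v w = 0) :
    (vc Q 0 - 1) * gam F
        * (Nat.card F * ((Nat.card F - 1) / 2 * Nat.card F ^ (finrank F M - 4)))
      ≤ L.cnum A * (Nat.card {x : M // x ∈ A ∧ Q x = 0 ∧ x ≠ 0}
          * Nat.card {x : M // x ∈ A ∧ Q x ≠ 0}) := by
  classical
  have := Fintype.ofFinite F
  have := Fintype.ofFinite M
  have hch : ∀ (x : {x : M // Q x = 0 ∧ x ≠ 0}) (b : sqSet F),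
      ∃ γ ∈ L.grp, tw γ v = (x : M) ∧ (γ.2 : F) * γ.2 = (b : F) := by
    intro x b
    obtain ⟨l, hl⟩ := b.2
    obtain ⟨γ, hγ, h2, h3⟩ := L.exists_to_singular hQ hd hv hv0 x.2.1 x.2.2 l
    exact ⟨γ, hγ, h3, by rw [h2, hl]⟩
  choose γ hγ hγv hγb using hch
  have hind : ∀ c : F, w ≠ c • v := fun c h =>
    hw (by rw [h, QuadraticMap.map_smul, hv, smul_zero])
  let O : Set (M × M) := {p | ∃ δ ∈ L.grp, (tw δ v, tw δ w) = p}
  let e : (Σ _x : {x : M // Q x = 0 ∧ x ≠ 0}, Σ _b : sqSet F, stabOrbit Q v w) → O := fun p =>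
    ⟨((p.1 : M), tw (γ p.1 p.2.1) (p.2.2 : M)), by
      obtain ⟨g, hg, hgv, hgw⟩ := p.2.2.2
      exact ⟨γ p.1 p.2.1 * (g, 1), mul_mem (hγ _ _) (L.siegel_mem g hg),
        by rw [tw_mul, tw_mul, tw_siegel, tw_siegel, hgv, hgw, hγv]⟩⟩
  have hQy : ∀ y : stabOrbit Q v w, Q (y : M) = Q w := fun y => by
    obtain ⟨g, -, -, hgw⟩ := y.2
    rw [← hgw, orth_apply]
  have he : Function.Injective e := by
    rintro ⟨x, b, y⟩ ⟨x', b', y'⟩ h
    have h1 := congrArg Subtype.val h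
    simp only [e, Prod.mk.injEq] at h1
    obtain ⟨h1, h2⟩ := h1
    obtain rfl : x = x' := Subtype.ext h1
    have h3 := congrArg (fun t => Q t) h2
    simp only [Q_tw, hγb, hQy] at h3
    obtain rfl : b = b' := Subtype.ext (mul_right_cancel₀ hw h3)
    obtain rfl : y = y' := Subtype.ext ((tw _).injective h2)
    rfl
  have hbase : Nat.card {x : M // Q x = 0 ∧ x ≠ 0} + 1 = vc Q 0 :=
    card_punctured (fun x => Q x = 0) (QuadraticMap.map_zero Q)
  let f : AddSubgroup M → Set (M × M) := fun B =>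
    {p | (p.1 ∈ B ∧ Q p.1 = 0 ∧ p.1 ≠ 0) ∧ (p.2 ∈ B ∧ Q p.2 ≠ 0)}
  calc _ = ∑ _x : {x : M // Q x = 0 ∧ x ≠ 0}, ∑ _b : sqSet F,
        (Nat.card F * ((Nat.card F - 1) / 2 * Nat.card F ^ (finrank F M - 4))) := by
        simp only [Finset.sum_const, Finset.card_univ, smul_eq_mul, gam, ← Nat.card_eq_fintype_card]
        rw [show vc Q 0 - 1 = Nat.card {x : M // Q x = 0 ∧ x ≠ 0} by omega, mul_assoc]
    _ ≤ ∑ _x : {x : M // Q x = 0 ∧ x ≠ 0}, ∑ _b : sqSet F, Nat.card (stabOrbit Q v w) :=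
        Finset.sum_le_sum fun x _ => Finset.sum_le_sum fun b _ =>
          stabOrbit_lower hQ hd hv hv0 hvw hind
    _ ≤ Nat.card O := by
        refine le_trans (le_of_eq ?_) (Nat.card_le_card_of_injective e he)
        rw [Nat.card_sigma]
        exact Finset.sum_congr rfl fun x _ => Nat.card_sigma.symm
    _ ≤ L.cnum A * Nat.card (f A) := by
        refine L.cover_orb A O f (fun δ => Prod.map (tw δ) (tw δ)) (fun δ _ => ?_) ?_
        · ext p
          constructor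
          · rintro ⟨⟨h1, h1', h1''⟩, h2, h2'⟩
            obtain ⟨x, hx, e1⟩ : ∃ x ∈ A, tw δ x = p.1 := h1
            obtain ⟨y, hy, e2⟩ : ∃ y ∈ A, tw δ y = p.2 := h2
            refine ⟨(x, y), ⟨⟨hx, (Q_tw_eq_zero δ x).1 (e1 ▸ h1'), fun h => h1'' ?_⟩, hy,
              fun h => h2' (e2 ▸ (Q_tw_eq_zero δ y).2 h)⟩, Prod.ext e1 e2⟩
            rw [← e1, show x = 0 from h, map_zero]
          · rintro ⟨⟨x, y⟩, ⟨⟨hx, hx', hx''⟩, hy, hy'⟩, rfl⟩
            exact ⟨⟨mem_twSub.2 hx, (Q_tw_eq_zero δ x).2 hx',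
              fun h => hx'' ((LinearEquiv.map_eq_zero_iff _).1 h)⟩, mem_twSub.2 hy,
              fun h => hy' ((Q_tw_eq_zero δ y).1 h)⟩
        · rintro p ⟨δ, hδ, rfl⟩
          exact ⟨δ, hδ, (v, w), ⟨⟨hvA, hv, hv0⟩, hwA, hw⟩, rfl⟩
    _ = _ := by
        rw [← Nat.card_prod]
        congr 1
        exact Nat.card_congr (Equiv.Set.prod {x : M | x ∈ A ∧ Q x = 0 ∧ x ≠ 0}
          {x : M | x ∈ A ∧ Q x ≠ 0})

end Lev

end CfsgLib.MinIndexOrth
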