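import Cfsg.Agent.Lib.MinIndex.Orth.Levi

/-!
Annihilators, orbits of spans of singular vectors and the remaining covering counts.
-/

set_option autoImplicit false
set_option linter.unusedSectionVars false

namespace CfsgLib.MinIndexOrth

open QuadraticMap Module CfsgLib.ClassicalForms

variable {F : Type*} [Field F] [Finite F] {M : Type*} [AddCommGroup M] [Module F M]
  [FiniteDimensional F M] {Q : QuadraticForm F M}

/-- Vectors fixed: the orbit of an orthogonal vector under the stabiliser of a non-singular one. -/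
theorem orbit_lower_fix [Finite M] (hQ : Nondeg Q) (h2 : (2 : F) ≠ 0) (hd : 4 ≤ finrank F M)
    {w z : M} (hw : Q w ≠ 0) (hwz : polar Q w z = 0) (hz : z ≠ 0) :
    (Nat.card F - 1) / 2 * Nat.card F ^ (finrank F M - 3)
      ≤ Nat.card {x : M | ∃ g ∈ siegelGroup Q,
          (g : M ≃ₗ[F] M) w = w ∧ (g : M ≃ₗ[F] M) z = x} := by
  let X : Submodule F M := LinearMap.ker (polarBilin Q w)
  have hww : polar Q w w ≠ 0 := by rw [polar_self_mul]; exact mul_ne_zero h2 hw
  have hX : ∀ x : X, polar Q w (x : M) = 0 := fun x => x.2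
  have hnd : Nondeg (Q.comp X.subtype) := by
    intro x hx
    refine Subtype.ext (hQ _ fun y => ?_)
    have hy : y - (polar Q w y / polar Q w w) • w ∈ X := by
      simp [X, polar_sub_right, polar_smul_right, div_mul_cancel₀ _ (mul_ne_zero h2 hw)]
    have h1 := hx ⟨_, hy⟩
    have h3 : polar Q (x : M) (y - (polar Q w y / polar Q w w) • w) = 0 := by
      simpa [polar] using h1
    rwa [polar_sub_right, polar_smul_right, polar_comm Q (x : M) w, hX x, smul_zero,
      sub_zero] at h3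
  have hfin : finrank F M - 1 ≤ finrank F X := by
    have h3 := (polarBilin Q w).finrank_range_add_finrank_ker
    have h4 : finrank F (LinearMap.range (polarBilin Q w)) ≤ 1 :=
      (Submodule.finrank_le _).trans (finrank_self F).le
    change finrank F M - 1 ≤ finrank F (LinearMap.ker (polarBilin Q w))
    omega
  have hlift : ∀ g ∈ siegelGroup (Q.comp X.subtype), ∃ g' ∈ siegelGroup Q,
      (g' : M ≃ₗ[F] M) w = w ∧
        ∀ x : X, (g' : M ≃ₗ[F] M) (x : M) = (((g : X ≃ₗ[F] X) x : X) : M) := by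
    intro g hg
    refine Subgroup.closure_induction (p := fun (g : orth (Q.comp X.subtype)) _ => ∃ g' ∈ siegelGroup Q,
      (g' : M ≃ₗ[F] M) w = w ∧
        ∀ x : X, (g' : M ≃ₗ[F] M) (x : M) = (((g : X ≃ₗ[F] X) x : X) : M)) ?_ ?_ ?_ ?_ hg
    · rintro _ ⟨u, t, hu, ht, rfl⟩
      have hu' : Q (u : M) = 0 := hu
      have hp : ∀ a b : X, polar (Q.comp X.subtype) a b = polar Q (a : M) (b : M) := fun a b => by
        simp [polar]
      have ht' : polar Q (u : M) (t : M) = 0 := (hp u t).symm.trans ht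
      refine ⟨_, siegel_mem_siegelGroup hu' ht', ?_, fun x => ?_⟩
      · simp [siegel_apply, hX]
      · rw [siegel_apply, siegel_apply]
        simp only [hp, Submodule.coe_add, Submodule.coe_sub, Submodule.coe_smul,
          QuadraticMap.comp_apply, Submodule.coe_subtype]
    · exact ⟨1, one_mem _, rfl, fun x => rfl⟩
    · rintro g₁ g₂ _ _ ⟨a, ha, haw, hax⟩ ⟨b, hb, hbw, hbx⟩
      exact ⟨a * b, mul_mem ha hb, by rw [orth_mul_apply, hbw, haw],
        fun x => by rw [orth_mul_apply, hbx, hax, orth_mul_apply]⟩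
    · rintro g₁ _ ⟨a, ha, haw, hax⟩
      refine ⟨a⁻¹, inv_mem ha, ?_, fun x => ?_⟩
      · conv_lhs => rw [← haw]
        exact orth_inv_apply a w
      · conv_lhs => rw [← orth_apply_inv g₁ x, ← hax]
        exact orth_inv_apply a _
  have h1 := orbit_lower hnd (by omega) (z := (⟨z, hwz⟩ : X)) (fun h => hz (congrArg Subtype.val h))
  refine le_trans (Nat.mul_le_mul_left _ (Nat.pow_le_pow_right Nat.card_pos (by omega))) (h1.trans ?_)
  refine Nat.card_le_card_of_injective
    (fun x => (⟨((x : X) : M), ?_⟩ : {x : M | ∃ g ∈ siegelGroup Q,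
      (g : M ≃ₗ[F] M) w = w ∧ (g : M ≃ₗ[F] M) z = x})) fun x y h =>
        by apply Subtype.ext; apply Subtype.ext; simpa using h
  obtain ⟨g, hg, hgx⟩ := x.2
  obtain ⟨g', hg', h', hx'⟩ := hlift g hg
  exact ⟨g', hg', h', by rw [hx' ⟨z, hwz⟩, hgx]⟩

/-- The symmetric pairing of the polar form. -/
def pp (Q : QuadraticForm F M) : M →+ M →+ F :=
  AddMonoidHom.mk' (fun x => (polarBilin Q x).toAddMonoidHom) fun x y => by ext z; simp

@[simp] lemma pp_apply (x y : M) : pp Q x y = polar Q x y := rfl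

lemma pp_nondeg (hQ : Nondeg Q) (x : M) (h : ∀ a, chi F (pp Q x a) = 1) : x = 0 :=
  hQ x fun y => eq_zero_of_chi (t := polar Q x y) fun s => by
    have := h (s • y)
    rwa [pp_apply, polar_smul_right, smul_eq_mul, mul_comm] at this

/-- The annihilator of a subgroup. -/
noncomputable def ann (Q : QuadraticForm F M) (A : AddSubgroup M) : AddSubgroup M := perpG (pp Q) A

/-- The opposite twist of an element. -/
def flipEl (γ : orth Q × Fˣ) : orth Q × Fˣ := (γ.1, γ.2⁻¹)

lemma polar_flipEl (γ : orth Q × Fˣ) (x y : M) :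
    polar Q (tw (flipEl γ) x) (tw γ y) = polar Q x y := by
  rw [tw_apply, tw_apply, polar_smul_left, polar_smul_right]
  simp only [flipEl, polar_apply, smul_eq_mul]
  rw [← mul_assoc, ← Units.val_mul, inv_mul_cancel, Units.val_one, one_mul]

lemma ann_twSub (γ : orth Q × Fˣ) (A : AddSubgroup M) :
    ann Q (twSub γ A) = twSub (flipEl γ) (ann Q A) := by
  ext x
  obtain ⟨y, rfl⟩ := (tw (flipEl γ)).surjective x
  rw [mem_twSub]
  constructor
  · intro h a ha
    have := h (tw γ a) (mem_twSub.2 ha)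
    rwa [pp_apply, polar_flipEl] at this
  · rintro h b hb
    obtain ⟨a, ha, rfl⟩ : ∃ a ∈ A, tw γ a = b := hb
    rw [pp_apply, polar_flipEl]
    exact h a ha

variable [Finite M]

lemma card_ann (hQ : Nondeg Q) (A : AddSubgroup M) :
    Nat.card A * Nat.card (ann Q A) = Nat.card F ^ finrank F M := by
  rw [ann, card_mul_perpG (pp_nondeg hQ) A, card_eq_pow (F := F)]

lemma ann_ann (hQ : Nondeg Q) (A : AddSubgroup M) : ann Q (ann Q A) = A :=
  perpG_perpG (pp_nondeg hQ) (fun x y => polar_comm _ x y) A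

namespace Lev

variable (L : Lev Q)

lemma orb_ann (A : AddSubgroup M) : L.flip.orb (ann Q A) = ann Q '' L.orb A := by
  ext B
  constructor
  · rintro ⟨γ, hγ, rfl⟩
    exact ⟨_, ⟨flipEl γ, hγ, rfl⟩, by
      rw [ann_twSub, show flipEl (flipEl γ) = γ from Prod.ext rfl (inv_inv _)]⟩
  · rintro ⟨_, ⟨γ, hγ, rfl⟩, rfl⟩
    refine ⟨flipEl γ, ?_, (ann_twSub γ A).symm⟩
    show (γ.1, (γ.2⁻¹)⁻¹) ∈ L.grp
    rw [inv_inv]
    exact hγ

lemma cnum_ann (hQ : Nondeg Q) (A : AddSubgroup M) : L.flip.cnum (ann Q A) = L.cnum A := by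
  rw [cnum, orb_ann]
  exact Nat.card_image_of_injective
    (Function.LeftInverse.injective (g := ann Q) fun B => ann_ann hQ B) _

/-- The orbit of the span of the singular vectors. -/
def eorb (A : AddSubgroup M) : Set (Submodule F M) := spanSing Q '' L.orb A

noncomputable def enum (A : AddSubgroup M) : ℕ := Nat.card (L.eorb A)

lemma enum_le_cnum (A : AddSubgroup M) : L.enum A ≤ L.cnum A :=
  Nat.card_image_le (Set.toFinite _)

lemma finrank_of_mem_eorb {A : AddSubgroup M} {E : Submodule F M} (hE : E ∈ L.eorb A) :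
    finrank F E = finrank F (spanSing Q A) := by
  obtain ⟨_, ⟨γ, -, rfl⟩, rfl⟩ := hE
  rw [spanSing_twSub]
  exact LinearEquiv.finrank_map_eq _ _

lemma card_submodule (E : Submodule F M) : Nat.card E = Nat.card F ^ finrank F E := card_eq_pow

omit [FiniteDimensional F M] in
lemma card_span_singleton {x : M} (hx : x ≠ 0) :
    Nat.card (Submodule.span F ({x} : Set M)) = Nat.card F := by
  rw [card_eq_pow (F := F), finrank_span_singleton hx, pow_one]

/-- Independent pairs of a subspace. -/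
lemma card_indep_pairs (E : Submodule F M) :
    Nat.card {p : M × M | p.1 ∈ E ∧ p.2 ∈ E ∧ p.1 ≠ 0 ∧ ∀ c : F, p.2 ≠ c • p.1}
      ≤ (Nat.card F ^ finrank F E - 1) * (Nat.card F ^ finrank F E - Nat.card F) := by
  classical
  have := Fintype.ofFinite M
  let T := fun x : {x : M // x ∈ E ∧ x ≠ 0} =>
    {y : M | y ∈ E ∧ y ∉ Submodule.span F ({(x : M)} : Set M)}
  have hT : ∀ x, Nat.card (T x) = Nat.card F ^ finrank F E - Nat.card F := fun x => by
    have hsub : (Submodule.span F ({(x : M)} : Set M) : Set M) ⊆ E := by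
      rw [SetLike.coe_subset_coe, Submodule.span_singleton_le_iff_mem]; exact x.2.1
    have h := Set.ncard_sdiff hsub (Set.toFinite _)
    rw [← Nat.card_coe_set_eq, ← Nat.card_coe_set_eq, ← Nat.card_coe_set_eq] at h
    exact h.trans (congrArg₂ _ (card_submodule E) (card_span_singleton x.2.2))
  have hA : Nat.card {x : M // x ∈ E ∧ x ≠ 0} + 1 = Nat.card F ^ finrank F E :=
    (card_punctured (fun x => x ∈ E) E.zero_mem).trans (card_submodule E)
  let e : {p : M × M | p.1 ∈ E ∧ p.2 ∈ E ∧ p.1 ≠ 0 ∧ ∀ c : F, p.2 ≠ c • p.1} → Σ x, T x :=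
    fun p => ⟨⟨p.1.1, p.2.1, p.2.2.2.1⟩, p.1.2, p.2.2.1, fun h => by
      obtain ⟨c, hc⟩ := Submodule.mem_span_singleton.1 h
      exact p.2.2.2.2 c hc.symm⟩
  have he : Function.Injective e := by
    intro p p' h
    have h1 : (p : M × M).1 = (p' : M × M).1 := congrArg (fun z : Σ x, T x => (z.1 : M)) h
    have h2 : (p : M × M).2 = (p' : M × M).2 := congrArg (fun z : Σ x, T x => (z.2 : M)) h
    exact Subtype.ext (Prod.ext h1 h2)
  refine (Nat.card_le_card_of_injective e he).trans (le_of_eq ?_)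
  rw [Nat.card_sigma]
  simp only [hT, Finset.sum_const, Finset.card_univ, smul_eq_mul, ← Nat.card_eq_fintype_card]
  rw [show Nat.card F ^ finrank F E - 1 = Nat.card {x : M // x ∈ E ∧ x ≠ 0} by omega]

/-- Every orthogonal independent singular pair lies in an image of the span. -/
theorem enum_bound_pairs (hQ : Nondeg Q) (hd : 5 ≤ finrank F M) {A : AddSubgroup M}
    (hts : ∀ x ∈ spanSing Q A, Q x = 0) (hk : 2 ≤ finrank F (spanSing Q A)) :
    Nat.card (singularPairs Q) ≤ L.enum A * ((Nat.card F ^ finrank F (spanSing Q A) - 1)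
      * (Nat.card F ^ finrank F (spanSing Q A) - Nat.card F)) := by
  have hne : spanSing Q A ≠ ⊥ := fun h => by rw [h, finrank_bot] at hk; omega
  obtain ⟨v, hv, hv0⟩ := Submodule.exists_mem_ne_zero_of_ne_bot hne
  obtain ⟨w, hw, hwv⟩ : ∃ w ∈ spanSing Q A, w ∉ Submodule.span F ({v} : Set M) := by
    by_contra hcon
    simp only [not_exists, not_and, not_not] at hcon
    have h := Submodule.finrank_mono hcon
    rw [finrank_span_singleton hv0] at h
    omega
  have hind : ∀ c : F, w ≠ c • v := fun c h => hwv (Submodule.mem_span_singleton.2 ⟨c, h.symm⟩)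
  have hvw : polar Q v w = 0 := by
    have h1 := hts _ (add_mem hv hw)
    rwa [QuadraticMap.map_add ⇑Q, hts v hv, hts w hw, zero_add, zero_add] at h1
  refine cover (singularPairs Q) (fun E : L.eorb A =>
    {p : M × M | p.1 ∈ (E : Submodule F M) ∧ p.2 ∈ (E : Submodule F M) ∧ p.1 ≠ 0 ∧
      ∀ c : F, p.2 ≠ c • p.1}) _
    (fun E => by rw [← L.finrank_of_mem_eorb E.2]; exact card_indep_pairs _) ?_
  rintro ⟨x, y⟩ ⟨hx, hy, hxy, hx0, hind'⟩
  obtain ⟨g, hg, c, hc, e1, e2⟩ := singularPair_transitive hQ hd (hts v hv) (hts w hw) hvw hv0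
    hind hx hy hxy hx0 hind'
  refine ⟨⟨_, _, ⟨(g, 1), L.siegel_mem g hg, rfl⟩, rfl⟩, ?_, ?_, hx0, hind'⟩
  · show x ∈ spanSing Q (twSub (g, (1 : Fˣ)) A)
    rw [spanSing_twSub]
    exact ⟨v, hv, (tw_siegel g v).trans e1⟩
  · show y ∈ spanSing Q (twSub (g, (1 : Fˣ)) A)
    rw [spanSing_twSub]
    refine ⟨c⁻¹ • w, Submodule.smul_mem _ _ hw, ?_⟩
    change tw (g, (1 : Fˣ)) (c⁻¹ • w) = y
    rw [map_smul, tw_siegel, e2, smul_smul, inv_mul_cancel₀ hc, one_smul]

/-- Every singular point lies in an image of the span. -/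
theorem enum_bound_points (hQ : Nondeg Q) (hd : 5 ≤ finrank F M) {A : AddSubgroup M} {v : M}
    (hvA : v ∈ A) (hv : Q v = 0) (hv0 : v ≠ 0) :
    vc Q 0 - 1 ≤ L.enum A * (Nat.card F ^ finrank F (spanSing Q A) - 1) := by
  have hbase : Nat.card {x : M // Q x = 0 ∧ x ≠ 0} + 1 = vc Q 0 :=
    card_punctured (fun x => Q x = 0) (QuadraticMap.map_zero Q)
  rw [show vc Q 0 - 1 = Nat.card {x : M // Q x = 0 ∧ x ≠ 0} by omega]
  refine cover {x : M | Q x = 0 ∧ x ≠ 0} (fun E : L.eorb A =>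
    {x : M | x ∈ (E : Submodule F M) ∧ x ≠ 0}) _ (fun E => ?_) ?_
  · have h := (card_punctured (fun x => x ∈ (E : Submodule F M)) (Submodule.zero_mem _)).trans
      (card_submodule _)
    rw [L.finrank_of_mem_eorb E.2] at h
    have h' : Nat.card {x : M | x ∈ (E : Submodule F M) ∧ x ≠ 0} + 1
        = Nat.card F ^ finrank F (spanSing Q A) := h
    omega
  · rintro x ⟨hx, hx0⟩
    obtain ⟨γ, hγ, -, e⟩ := L.exists_to_singular hQ hd hv hv0 hx hx0 1
    refine ⟨⟨_, _, ⟨γ, hγ, rfl⟩, rfl⟩, ?_, hx0⟩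
    show x ∈ spanSing Q (twSub γ A)
    rw [spanSing_twSub]
    exact ⟨v, Submodule.subset_span ⟨hvA, hv⟩, e⟩

/-- The stabiliser of a totally singular subspace is transitive on its non-zero vectors. -/
theorem exists_within (hQ : Nondeg Q) {E : Submodule F M} (hts : ∀ x ∈ E, Q x = 0)
    (hk : 2 ≤ finrank F E) {v v' : M} (hv : v ∈ E) (hv' : v' ∈ E) (hv0 : v ≠ 0) (hv'0 : v' ≠ 0) :
    ∃ g ∈ siegelGroup Q, (∀ x ∈ E, (g : M ≃ₗ[F] M) x ∈ E) ∧ (g : M ≃ₗ[F] M) v = v' := by
  have hperp : ∀ x ∈ E, ∀ y ∈ E, polar Q x y = 0 := fun x hx y hy => by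
    rw [polar, hts _ (add_mem hx hy), hts x hx, hts y hy, sub_zero, sub_zero]
  have key : ∀ v ∈ E, ∀ v' ∈ E, v ≠ 0 → (∀ c : F, v' ≠ c • v) →
      ∃ g ∈ siegelGroup Q, (∀ x ∈ E, (g : M ≃ₗ[F] M) x ∈ E) ∧ (g : M ≃ₗ[F] M) v = v' := by
    intro v hv v' hv' hv0 hind
    set a := v' - v with ha
    have haE : a ∈ E := sub_mem hv' hv
    have ha0 : a ≠ 0 := fun h => hind 1 (by rw [one_smul]; exact sub_eq_zero.1 h)
    obtain ⟨x1, -, hax1⟩ := (Sec.top Q).exists_polar_eq_one hQ (Sec.mem_top a) ha0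
    have hv2 : v - polar Q v x1 • a ≠ 0 := fun h => by
      by_cases h0 : polar Q v x1 = 0
      · rw [h0, zero_smul, sub_zero] at h; exact hv0 h
      · refine hind ((polar Q v x1)⁻¹ + 1) ?_
        rw [sub_eq_zero] at h
        have h3 : v' = a + v := (sub_add_cancel v' v).symm
        have h4 : a = (polar Q v x1)⁻¹ • v := by
          calc a = (polar Q v x1)⁻¹ • (polar Q v x1 • a) := by
                rw [smul_smul, inv_mul_cancel₀ h0, one_smul]
            _ = _ := by rw [← h]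
        rw [add_smul, one_smul, ← h4, ← h3]
    obtain ⟨x2, -, hx2⟩ := (Sec.top Q).exists_polar_eq_one hQ (Sec.mem_top _) hv2
    rw [polar_sub_left, polar_smul_left, smul_eq_mul] at hx2
    set z := -(x2 - polar Q a x2 • x1) with hz
    have haz : polar Q a z = 0 := by
      simp [hz, polar_sub_right, polar_smul_right, hax1]
    have hvz : polar Q v z = -1 := by
      simp only [hz, polar_neg_right, polar_sub_right, polar_smul_right, smul_eq_mul]
      linear_combination (-1 : F) * hx2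
    have hga : ∀ x ∈ E, (siegel Q a z (hts a haE) haz : M ≃ₗ[F] M) x
        = x - polar Q x z • a := fun x hx => by
      simp [siegel_apply, hperp x hx a haE]
    refine ⟨_, siegel_mem_siegelGroup (hts a haE) haz, fun x hx => ?_, ?_⟩
    · rw [hga x hx]; exact sub_mem hx (E.smul_mem _ haE)
    · rw [hga v hv, hvz, neg_smul, one_smul, sub_neg_eq_add, ha]
      abel
  by_cases hind : ∀ c : F, v' ≠ c • v
  · exact key v hv v' hv' hv0 hind
  · simp only [not_forall, not_not] at hind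
    obtain ⟨c, rfl⟩ := hind
    obtain ⟨u, hu, huv⟩ : ∃ u ∈ E, u ∉ Submodule.span F ({v} : Set M) := by
      by_contra hcon
      simp only [not_exists, not_and, not_not] at hcon
      have h := Submodule.finrank_mono hcon
      rw [finrank_span_singleton hv0] at h
      omega
    have h1 : ∀ d : F, u ≠ d • v := fun d h => huv (Submodule.mem_span_singleton.2 ⟨d, h.symm⟩)
    have hu0 : u ≠ 0 := fun h => h1 0 (by rw [h, zero_smul])
    have h2 : ∀ d : F, c • v ≠ d • u := fun d h => by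
      by_cases hd : d = 0
      · rw [hd, zero_smul] at h; exact hv'0 h
      · exact h1 (d⁻¹ * c) (by rw [← smul_smul, h, smul_smul, inv_mul_cancel₀ hd, one_smul])
    obtain ⟨g, hg, hgE, e⟩ := key v hv u hu hv0 h1
    obtain ⟨g', hg', hgE', e'⟩ := key u hu (c • v) hv' hu0 h2
    exact ⟨g' * g, mul_mem hg' hg, fun x hx => by rw [orth_mul_apply]; exact hgE' _ (hgE x hx),
      by rw [orth_mul_apply, e, e']⟩

/-- Vectors of a subgroup inside its span. -/
theorem flag_bound (hQ : Nondeg Q) {A : AddSubgroup M} (hts : ∀ x ∈ spanSing Q A, Q x = 0)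
    (hk : 2 ≤ finrank F (spanSing Q A)) :
    L.enum A * (Nat.card F ^ finrank F (spanSing Q A) - 1)
      ≤ L.cnum A * Nat.card {x : M // x ∈ A ∧ Q x = 0 ∧ x ≠ 0} := by
  classical
  let O : Set (Submodule F M × M) := {p | p.1 ∈ L.eorb A ∧ p.2 ∈ p.1 ∧ p.2 ≠ 0}
  have hO : L.enum A * (Nat.card F ^ finrank F (spanSing Q A) - 1) ≤ Nat.card O := by
    have := Fintype.ofFinite (L.eorb A)
    refine le_trans (le_of_eq ?_) (Nat.card_le_card_of_injective
      (fun p : Σ E : L.eorb A, {x : M // x ∈ (E : Submodule F M) ∧ x ≠ 0} =>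
        (⟨((p.1 : Submodule F M), (p.2 : M)), p.1.2, p.2.2⟩ : O)) ?_)
    · rw [Nat.card_sigma, enum, Nat.card_eq_fintype_card (α := L.eorb A), ← Finset.card_univ,
        ← smul_eq_mul, ← Finset.sum_const]
      refine Finset.sum_congr rfl fun E _ => ?_
      have h := (card_punctured (fun x => x ∈ (E : Submodule F M)) (Submodule.zero_mem _)).trans
        (card_submodule _)
      rw [L.finrank_of_mem_eorb E.2] at h
      have h' : Nat.card {x : M // x ∈ (E : Submodule F M) ∧ x ≠ 0} + 1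
          = Nat.card F ^ finrank F (spanSing Q A) := h
      omega
    · rintro ⟨⟨E, hE⟩, x, hx⟩ ⟨⟨E', hE'⟩, x', hx'⟩ h
      have h1 := congrArg Subtype.val h
      simp only [Prod.mk.injEq] at h1
      obtain ⟨rfl, rfl⟩ := h1
      rfl
  have : Finite (Submodule F M) := Finite.of_injective _ SetLike.coe_injective
  refine hO.trans (le_trans (L.cover_orb A O
    (fun B => {p | p.1 = spanSing Q B ∧ p.2 ∈ B ∧ Q p.2 = 0 ∧ p.2 ≠ 0})
    (fun γ p => (p.1.map (tw γ).toLinearMap, tw γ p.2)) (fun γ _ => ?_) ?_) (le_of_eq ?_))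
  · ext p
    constructor
    · rintro ⟨h1, h2, h3, h4⟩
      obtain ⟨x, hx, e⟩ : ∃ x ∈ A, tw γ x = p.2 := h2
      exact ⟨(spanSing Q A, x), ⟨rfl, hx, (Q_tw_eq_zero γ x).1 (e ▸ h3),
        fun h => h4 (by rw [← e, show x = 0 from h, map_zero])⟩,
        Prod.ext (by rw [h1, spanSing_twSub]) e⟩
    · rintro ⟨⟨E, x⟩, ⟨rfl, hx, hQx, hx0⟩, rfl⟩
      exact ⟨(spanSing_twSub γ A).symm, mem_twSub.2 hx, (Q_tw_eq_zero γ x).2 hQx,
        fun h => hx0 ((LinearEquiv.map_eq_zero_iff _).1 h)⟩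
  · rintro ⟨E, x⟩ ⟨⟨B, ⟨γ, hγ, rfl⟩, rfl⟩, hx, hx0⟩
    obtain ⟨v, hv, hQv, hv0⟩ : ∃ v ∈ A, Q v = 0 ∧ v ≠ 0 := by
      by_contra hcon
      simp only [not_exists, not_and, not_not] at hcon
      have : spanSing Q A = ⊥ := Submodule.span_eq_bot.2 fun x hx => hcon x hx.1 hx.2
      rw [this, finrank_bot] at hk
      omega
    obtain ⟨x', hx', rfl⟩ : ∃ x' ∈ spanSing Q A, tw γ x' = x := by
      rw [spanSing_twSub] at hx; exact hx
    obtain ⟨g, hg, hgE, e⟩ := exists_within hQ hts hk (Submodule.subset_span ⟨hv, hQv⟩) hx' hv0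
      (fun h => hx0 (by simp [h]))
    refine ⟨γ * (g, 1), mul_mem hγ (L.siegel_mem g hg), (spanSing Q A, v), ⟨rfl, hv, hQv, hv0⟩,
      Prod.ext ?_ (by simp only [tw_mul, tw_siegel, e])⟩
    rw [spanSing_twSub]
    change (spanSing Q A).map (tw (γ * (g, 1))).toLinearMap = (spanSing Q A).map (tw γ).toLinearMap
    have hmap : (spanSing Q A).map (g : M ≃ₗ[F] M).toLinearMap = spanSing Q A :=
      Submodule.eq_of_le_of_finrank_eq (by rintro _ ⟨y, hy, rfl⟩; exact hgE y hy)
        (LinearEquiv.finrank_map_eq _ _)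
    conv_rhs => rw [← hmap, ← Submodule.map_comp]
    congr 1
    exact LinearMap.ext fun y => (tw_mul γ (g, 1) y).trans (congrArg (tw γ) (tw_siegel g y))
  · congr 1
    exact Nat.card_congr
      { toFun := fun p => ⟨p.1.2, p.2.2⟩
        invFun := fun x => ⟨(spanSing Q A, x.1), rfl, x.2⟩
        left_inv := fun p => Subtype.ext (Prod.ext p.2.1.symm rfl)
        right_inv := fun x => rfl }

/-- Two independent non-singular vectors of `A`. -/
theorem two_value_bound (hQ : Nondeg Q) (h2 : (2 : F) ≠ 0) (hd : 5 ≤ finrank F M)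
    {A : AddSubgroup M} {w w' : M} (hwA : w ∈ A) (hw'A : w' ∈ A) (hw : Q w ≠ 0)
    (hind : ∀ c : F, w' ≠ c • w) :
    Nat.card (valSet Q (Q w)) * ((Nat.card F - 1) / 2 * Nat.card F ^ (finrank F M - 3))
      ≤ L.cnum A * (Nat.card A * Nat.card A) := by
  classical
  have := Fintype.ofFinite M
  have hww : polar Q w w ≠ 0 := by rw [polar_self_mul]; exact mul_ne_zero h2 hw
  set a := polar Q w w' / polar Q w w with ha
  set z := w' - a • w with hz
  have hz0 : z ≠ 0 := fun h => hind a (sub_eq_zero.1 h)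
  have hwz : polar Q w z = 0 := by
    simp [hz, ha, polar_sub_right, polar_smul_right, div_mul_cancel₀ _ (mul_ne_zero h2 hw)]
  have hw' : w' = a • w + z := by rw [hz]; abel
  have h1 := orbit_lower_fix hQ h2 (by omega) hw hwz hz0
  have hch : ∀ y : valSet Q (Q w), ∃ γ ∈ L.grp, tw γ w = (y : M) := fun y =>
    L.exists_to_value hQ hd hw y.2
  choose γ hγ hγw using hch
  let S := {x : M | ∃ g ∈ siegelGroup Q, (g : M ≃ₗ[F] M) w = w ∧ (g : M ≃ₗ[F] M) z = x}
  let O : Set (M × M) := {p | ∃ δ ∈ L.grp, (tw δ w, tw δ w') = p}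
  let e : (Σ _y : valSet Q (Q w), S) → O := fun p => ⟨((p.1 : M), tw (γ p.1) (a • w + (p.2 : M))), by
    obtain ⟨g, hg, hgw, hgz⟩ := p.2.2
    exact ⟨γ p.1 * (g, 1), mul_mem (hγ _) (L.siegel_mem g hg), by
      rw [tw_mul, tw_mul, tw_siegel, tw_siegel, hgw, hγw, hw', map_add, map_smul, hgw, hgz]⟩⟩
  have he : Function.Injective e := by
    rintro ⟨y, x⟩ ⟨y', x'⟩ h
    have h1 := congrArg Subtype.val h
    simp only [e, Prod.mk.injEq] at h1
    obtain ⟨h1, h3⟩ := h1
    obtain rfl : y = y' := Subtype.ext h1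
    obtain rfl : x = x' := Subtype.ext (add_left_cancel ((tw _).injective h3))
    rfl
  calc _ = ∑ _y : valSet Q (Q w), (Nat.card F - 1) / 2 * Nat.card F ^ (finrank F M - 3) := by
        simp only [Finset.sum_const, Finset.card_univ, smul_eq_mul, ← Nat.card_eq_fintype_card]
    _ ≤ ∑ _y : valSet Q (Q w), Nat.card S := Finset.sum_le_sum fun _ _ => h1
    _ ≤ Nat.card O := by
        refine le_trans (le_of_eq ?_) (Nat.card_le_card_of_injective e he)
        exact Nat.card_sigma.symm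
    _ ≤ L.cnum A * Nat.card {p : M × M | p.1 ∈ A ∧ p.2 ∈ A} :=
        L.cover_orb A O (fun B => {p | p.1 ∈ B ∧ p.2 ∈ B}) (fun δ => Prod.map (tw δ) (tw δ))
          (fun δ _ => pairs_twSub δ A)
          (by rintro p ⟨δ, hδ, rfl⟩; exact ⟨δ, hδ, (w, w'), ⟨hwA, hw'A⟩, rfl⟩)
    _ = _ := by rw [card_pairs]

end Lev

end CfsgLib.MinIndexOrth
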