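import Cfsg.Agent.Lib.MinIndex.Orth.Endgame

/-!
The minimal index of a proper subgroup of the Siegel group is the number of singular points.
-/

set_option autoImplicit false
set_option linter.unusedSectionVars false

namespace CfsgLib.MinIndexOrth

open QuadraticMap Module CfsgLib.ClassicalForms

variable {F V : Type*} [Field F] [Finite F] [AddCommGroup V] [Module F V]
  [FiniteDimensional F V] {Q : QuadraticForm F V} {Ω : Type*} [MulAction (siegelGroup Q) Ω]

lemma mem_K_scalar {u u' : V} {z : Ω} (hM : MidV Q u u' z) {c : F} {w : V}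
    (hw : w ∈ perp2 Q u u') (hwK : w ∈ K Q u z) : c • w ∈ K Q u z := by
  obtain ⟨E, -, -, -, -, hA⟩ := hM
  refine (hA _ (Submodule.smul_mem _ c hw)).2 fun e he => ?_
  rw [polar_smul_left, (hA w hw).1 hwK e he, smul_zero]

/-- A root element fixing both vectors of a pair. -/
lemma ap_root_fix {u a w : V} (ha : Q a = 0) (haw : polar Q a w = 0) (hua : polar Q u a = 0)
    (huw : polar Q u w = 0) : ap (root Q a w) u = u := by
  rw [ap_root ha haw, hua, huw, mul_zero, add_zero, zero_smul, zero_smul, add_zero, sub_zero]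

/-- Transport of a totally singular subspace inside itself by its own root elements. -/
lemma ap_root_mem {E : Submodule F V} (hts : ∀ x ∈ E, Q x = 0) {a w : V} (ha : a ∈ E)
    (haw : polar Q a w = 0) {e : V} (he : e ∈ E) : ap (root Q a w) e ∈ E := by
  have h0 : polar Q e a = 0 := by
    rw [polar, hts _ (E.add_mem he ha), hts e he, hts a ha, sub_zero, sub_zero]
  rw [ap_root (hts a ha) haw, h0, zero_smul, add_zero, mul_zero, add_zero]
  exact E.sub_mem he (E.smul_mem _ ha)

lemma exists_perpS (hQ : Nondeg Q) {u u' : V} (h : IsHypPair Q (u, u'))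
    (E : Submodule F (perp2 Q u u')) : ∃ S : Submodule F (perp2 Q u u'),
      finrank F S + finrank F E = finrank F (perp2 Q u u') ∧
      ∀ x, x ∈ S ↔ ∀ e ∈ E, polar (q2 Q u u') x e = 0 := by
  refine ⟨LinearMap.BilinForm.orthogonal (polarBilin (q2 Q u u')) E, ?_, fun x => ?_⟩
  · have hnd : (polarBilin (q2 Q u u')).Nondegenerate :=
      nondeg_iff_polarBilin.2 (nondeg_q2 hQ h)
    have := LinearMap.BilinForm.finrank_orthogonal hnd E
    have h2 := E.finrank_le
    omega
  · rw [LinearMap.BilinForm.mem_orthogonal_iff]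
    refine ⟨fun h e he => ?_, fun h e he => ?_⟩
    · rw [polar_comm]; exact h e he
    · show polarBilin (q2 Q u u') e x = 0
      rw [polarBilin_apply_apply, polar_comm]; exact h e he

theorem no_mid (hQ : Nondeg Q) (hq : 4 ≤ Nat.card F) (hn : 7 ≤ finrank F V) {u u' : V}
    (h : IsHypPair Q (u, u')) (z : Ω)
    (hall : ∀ (v v' : V), IsHypPair Q (v, v') → ∀ z : Ω, MidV Q v v' z)
    (hone : ∀ z z' : Ω, asub Q u u' z = asub Q u u' z' → z' ∈ orbT Q u u' z) : False := by
  have : Finite V := Module.finite_of_finite F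
  obtain ⟨μ, hμ⟩ := exists_units_sq_ne hq
  obtain ⟨t, t1, -, t3⟩ := exists_torus hQ (by omega) h μ
  set d : F := ((μ : F) * μ)⁻¹ with hddef
  have hd0 : d ≠ 0 := inv_ne_zero (mul_ne_zero μ.ne_zero μ.ne_zero)
  have hd1 : (1 : F) - d ≠ 0 := fun h => hμ (by
    rwa [sub_eq_zero, hddef, eq_comm, inv_eq_one] at h)
  have comm : ∀ w : perp2 Q u u', ∀ z' : Ω,
      t • root Q u (w : V) • z' = root Q u ((d • w : perp2 Q u u') : V) • t • z' := fun w z' => by
    rw [← mul_smul, ← mul_smul, ← torus_root hd0 t1 t3 w, inv_mul_cancel_right]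
  -- scalars preserve the stabilisers
  have hscal : ∀ (z' : Ω) (w : perp2 Q u u') (c : F), w ∈ asub Q u u' z' → c • w ∈ asub Q u u' z' :=
    fun z' w c hw => mem_K_scalar (hall u u' h z') w.2 hw
  have htA : asub Q u u' (t • z) = asub Q u u' z := by
    ext w
    have e : root Q u (w : V) • t • z = t • root Q u ((d⁻¹ • w : perp2 Q u u') : V) • z := by
      rw [comm, smul_smul d d⁻¹ w, mul_inv_cancel₀ hd0, one_smul]
    rw [mem_asub, e, smul_left_cancel_iff, ← mem_asub]
    refine ⟨fun hw => ?_, hscal z w _⟩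
    have := hscal z _ d hw
    rwa [smul_smul, mul_inv_cancel₀ hd0, one_smul] at this
  obtain ⟨a, ha⟩ := hone z (t • z) htA.symm
  have ha' : root Q u (a : V) • z = t • z := ha
  set b : perp2 Q u u' := (1 - d)⁻¹ • a with hb
  set z0 := root Q u (b : V) • z with hz0
  have hfix : t • z0 = z0 := by
    rw [hz0, comm, ← ha', ← mul_smul,
      root_add h.1 (mem_perp2.1 (d • b : perp2 Q u u').2).1 (mem_perp2.1 a.2).1,
      ← Submodule.coe_add]
    congr 3
    have hab : a = (1 - d) • b := by rw [hb, smul_smul, mul_inv_cancel₀ hd1, one_smul]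
    rw [hab, sub_smul, one_smul, add_sub_cancel]
  have huniq : ∀ z' : Ω, asub Q u u' z' = asub Q u u' z0 → t • z' = z' → z' = z0 := by
    intro z' hA' hf'
    obtain ⟨c, hc⟩ := hone z0 z' hA'.symm
    have hc' : root Q u (c : V) • z0 = z' := hc
    rw [← hc', comm, hfix] at hf'
    have hm : d • c - c ∈ asub Q u u' z0 := by
      rw [mem_asub, ← smul_left_cancel_iff (root Q u (c : V)), ← mul_smul,
        root_add h.1 (mem_perp2.1 c.2).1 (mem_perp2.1 (d • c - c).2).1, ← Submodule.coe_add,
        add_sub_cancel]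
      exact hf'
    have hc0 := hscal z0 _ (d - 1)⁻¹ hm
    rw [show d • c - c = (d - 1) • c by rw [sub_smul, one_smul], smul_smul,
      inv_mul_cancel₀ (fun h => hd1 (by rw [← neg_sub, h, neg_zero])), one_smul] at hc0
    rw [← hc', mem_asub.1 hc0]
  obtain ⟨E, hEM, hts, hk, hdims, hA⟩ := hall u u' h z0
  have hEperp : ∀ a ∈ E, ∀ e ∈ E, polar Q a e = 0 := fun a ha e he => by
    rw [polar, hts _ (E.add_mem ha he), hts a ha, hts e he, sub_zero, sub_zero]
  -- the stabilised root elements inside the middle subspace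
  have hg : ∀ a ∈ E, ∀ w ∈ perp2 Q u u', polar Q a w = 0 → root Q a w • z0 = z0 := by
    intro a ha w hw haw
    obtain ⟨a1, a2⟩ := mem_perp2.1 (hEM ha)
    obtain ⟨w1, w2⟩ := mem_perp2.1 hw
    set g := root Q a w with hgdef
    have gu : ap g u = u := ap_root_fix (hts a ha) haw a1 w1
    have gu' : ap g u' = u' := ap_root_fix (hts a ha) haw a2 w2
    have hcomm : t * g = g * t := root_commutes (t3 _ (hEM ha)) (t3 _ hw)
    refine huniq _ ?_ (by rw [← mul_smul, hcomm, mul_smul, hfix])
    ext x
    obtain ⟨y, hy⟩ := (ap g).surjective (x : V)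
    have hyM : y ∈ perp2 Q u u' := by
      rw [← ap_mem_perp2 g, gu, gu', hy]; exact x.2
    rw [show (x ∈ asub Q u u' (g • z0)) = ((x : V) ∈ K Q u (g • z0)) from rfl,
      show (x ∈ asub Q u u' z0) = ((x : V) ∈ K Q u z0) from rfl, hA _ x.2]
    rw [show K Q u (g • z0) = K Q (ap g u) (g • z0) by rw [gu], ← hy, mem_K_ap, hA y hyM]
    constructor
    · intro hy' e he
      have hnaw : polar Q a (-w) = 0 := by rw [polar_neg_right, haw, neg_zero]
      have hinv : ap g (ap (root Q a (-w)) e) = e := by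
        rw [hgdef, ← ap_mul, root_add (hts a ha) haw hnaw, add_neg_cancel, root_zero, ap_one]
      rw [← hinv, polar_ap]
      exact hy' _ (ap_root_mem hts ha hnaw he)
    · intro hy' e he
      rw [← polar_ap g]
      exact hy' _ (ap_root_mem hts ha haw he)
  -- the same subspace at the opposite pair
  have hM21 : perp2 Q u' u = perp2 Q u u' := perp2_comm u' u
  obtain ⟨E', hE'M, -, -, hdims', hA'⟩ := hall u' u (hyp_comm h) z0
  rw [hM21] at hE'M hA'
  obtain ⟨S', hS'r, hS'⟩ := exists_perpS hQ h (E'.comap (perp2 Q u u').subtype)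
  obtain ⟨S, hSr, hS⟩ := exists_perpS hQ h (E.comap (perp2 Q u u').subtype)
  have hrE : finrank F (E.comap (perp2 Q u u').subtype) = finrank F E :=
    (Submodule.comapSubtypeEquivOfLe hEM).finrank_eq
  have hrE' : finrank F (E'.comap (perp2 Q u u').subtype) = finrank F E' :=
    (Submodule.comapSubtypeEquivOfLe hE'M).finrank_eq
  have hd := finrank_perp2 h
  have hSmem : ∀ x : perp2 Q u u', x ∈ S ↔ (x : V) ∈ K Q u z0 := fun x => by
    rw [hS, hA _ x.2]
    exact ⟨fun hx e he => by
        have := hx ⟨e, hEM he⟩ he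
        rwa [polar_q2] at this,
      fun hx e he => by rw [polar_q2]; exact hx _ he⟩
  have hS'mem : ∀ x : perp2 Q u u', x ∈ S' ↔ (x : V) ∈ K Q u' z0 := fun x => by
    rw [hS', hA' _ x.2]
    exact ⟨fun hx e he => by
        have := hx ⟨e, hE'M he⟩ he
        rwa [polar_q2] at this,
      fun hx e he => by rw [polar_q2]; exact hx _ he⟩
  have hsub : ∀ x ∈ S', ∀ a ∈ E, polar Q (x : V) a = 0 := by
    intro x hx a ha
    by_contra hne
    have ha0 : a ≠ 0 := fun h0 => hne (by rw [h0, polar_zero_right])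
    set aM : perp2 Q u u' := ⟨a, hEM ha⟩
    set P : Submodule F (perp2 Q u u') := LinearMap.ker (polarBilin (q2 Q u u') aM) with hP
    have hPr : finrank F (perp2 Q u u') ≤ finrank F P + 1 := by
      have h1 := LinearMap.finrank_range_add_finrank_ker (polarBilin (q2 Q u u') aM)
      have h2 := Submodule.finrank_le (LinearMap.range (polarBilin (q2 Q u u') aM))
      rw [finrank_self] at h2
      rw [← hP] at h1
      omega
    have hle : P ≤ S' ⊔ Submodule.span F {aM} := by
      intro w hw
      have haw : polar Q a (w : V) = 0 := by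
        have : polar (q2 Q u u') aM w = 0 := LinearMap.mem_ker.1 hw
        rwa [polar_q2] at this
      obtain ⟨a1, a2⟩ := mem_perp2.1 (hEM ha)
      obtain ⟨w1, w2⟩ := mem_perp2.1 w.2
      set g := root Q a (w : V)
      have gu' : ap g u' = u' := ap_root_fix (hts a ha) haw a2 w2
      have gu : ap g u = u := ap_root_fix (hts a ha) haw a1 w1
      have hgz := hg a ha (w : V) w.2 haw
      have hgx : ap g (x : V) ∈ K Q u' z0 := by
        have := (mem_K_ap g u' (x : V) z0).2 ((hS'mem x).1 hx)
        rwa [gu', hgz] at this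
      have hgxM : ap g (x : V) ∈ perp2 Q u u' := by
        have := (ap_mem_perp2 g (u := u) (u' := u')).2 x.2
        rwa [gu, gu'] at this
      set gx : perp2 Q u u' := ⟨ap g (x : V), hgxM⟩
      set c := polar Q (x : V) (w : V) + Q (w : V) * polar Q (x : V) a
      have e : gx = x + polar Q (x : V) a • w - c • aM := Subtype.ext (ap_root (hts a ha) haw _)
      have e' : w = (polar Q (x : V) a)⁻¹ • (gx - x) + ((polar Q (x : V) a)⁻¹ * c) • aM := by
        rw [e, ← smul_smul, ← smul_add, sub_right_comm, add_sub_cancel_left, sub_add_cancel,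
          smul_smul, inv_mul_cancel₀ hne, one_smul]
      rw [e']
      exact Submodule.add_mem_sup (S'.smul_mem _ (S'.sub_mem ((hS'mem gx).2 hgx) hx))
        (Submodule.mem_span_singleton.2 ⟨_, rfl⟩)
    have hup : finrank F (S' ⊔ Submodule.span F {aM} : Submodule F (perp2 Q u u')) ≤
        finrank F S' + 1 := by
      have h1 := Submodule.finrank_add_le_finrank_add_finrank S' (Submodule.span F {aM})
      have h2 : finrank F (Submodule.span F {aM}) = 1 :=
        finrank_span_singleton fun h0 => ha0 (congrArg Subtype.val h0)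
      omega
    have heq := Submodule.eq_of_le_of_finrank_le hle (by omega)
    have hxP : x ∈ P := heq ▸ Submodule.mem_sup_left hx
    refine hne ?_
    have : polar (q2 Q u u') aM x = 0 := LinearMap.mem_ker.1 hxP
    rw [polar_q2] at this
    rw [polar_comm]; exact this
  have hSS : S' = S := by
    refine Submodule.eq_of_le_of_finrank_le (fun x hx => (hS x).2 fun e he => ?_) (by omega)
    rw [polar_q2]; exact hsub x hx _ he
  -- a hyperbolic pair through the middle subspace
  obtain ⟨a, haE, ha0⟩ := E.exists_mem_ne_zero_of_ne_bot fun hE0 => by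
    rw [hE0, finrank_bot] at hk; omega
  have haQ := hts a haE
  have hu1 := (mem_perp2.1 (hEM haE))
  have haS : (⟨a, hEM haE⟩ : perp2 Q u u') ∈ S :=
    (hS _).2 fun e he => by rw [polar_q2]; exact hEperp a haE _ he
  obtain ⟨⟨a', ha'M⟩, -, hY1, hY2, hY3⟩ := (Sec.top (q2 Q u u')).exists_partner
    (nondeg_q2 hQ h) (Sec.mem_top (⟨a, hEM haE⟩ : perp2 Q u u')) haQ
    (fun h0 => ha0 (congrArg Subtype.val h0))
  have hpair : IsHypPair Q (a, a') := ⟨haQ, hY2, by rw [polar_q2] at hY3; exact hY3⟩
  have hswap : ∀ v : V, Q v = 0 → polar Q v a = 0 → -a ∈ K Q v z0 → v ∈ K Q a z0 := by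
    intro v hv hva hmem
    refine ⟨by rw [polar_comm]; exact hva, ?_⟩
    have h1 : root Q a v = root Q (-v) a := by
      conv_lhs => rw [← neg_neg v]
      exact root_swap (by rw [QuadraticMap.map_neg, hv]) haQ
    rw [h1, ← neg_one_smul F v, root_smul (neg_ne_zero.2 one_ne_zero), neg_one_smul]
    exact hmem.2
  have hKu : u ∈ K Q a z0 := hswap u h.1 hu1.1
    (by have := (hSmem _).1 (S.neg_mem haS); exact this)
  have hKu' : u' ∈ K Q a z0 := hswap u' h.2.1 hu1.2
    (by have := (hS'mem _).1 (hSS ▸ S.neg_mem haS); exact this)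
  obtain ⟨E'', hE''M, hts'', hk'', hdims'', hA''⟩ := hall a a' hpair z0
  obtain ⟨b1, b2⟩ := mem_perp2.1 ha'M
  have huM : u ∈ perp2 Q a a' := mem_perp2.2
    ⟨by rw [polar_comm]; exact hu1.1, by rw [polar_comm]; exact b1⟩
  have hu'M : u' ∈ perp2 Q a a' := mem_perp2.2
    ⟨by rw [polar_comm]; exact hu1.2, by rw [polar_comm]; exact b2⟩
  have huperp : ∀ e ∈ E'', polar Q u e = 0 := (hA'' u huM).1 hKu
  have hu'perp : ∀ e ∈ E'', polar Q u' e = 0 := (hA'' u' hu'M).1 hKu'
  by_cases huE : u ∈ E''
  · have := hu'perp u huE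
    rw [polar_comm, h.2.2] at this
    exact one_ne_zero this
  · set T : Submodule F V := E'' ⊔ Submodule.span F {u} with hT
    have hu0 : u ≠ 0 := h.fst_ne_zero
    have hTM : T ≤ perp2 Q a a' := sup_le hE''M ((Submodule.span_singleton_le_iff_mem _ _).2 huM)
    have hinf : E'' ⊓ Submodule.span F {u} = ⊥ := by
      refine (Submodule.eq_bot_iff _).2 fun x hx => ?_
      obtain ⟨c, rfl⟩ := Submodule.mem_span_singleton.1 hx.2
      by_cases hc : c = 0
      · rw [hc, zero_smul]
      exact absurd (by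
        have := E''.smul_mem c⁻¹ hx.1
        rwa [smul_smul, inv_mul_cancel₀ hc, one_smul] at this) huE
    have hTr : finrank F T = finrank F E'' + 1 := by
      have := Submodule.finrank_sup_add_finrank_inf_eq E'' (Submodule.span F {u})
      rw [hinf, finrank_bot, finrank_span_singleton hu0, ← hT] at this
      omega
    have hTs : ∀ x ∈ T, Q x = 0 := by
      intro x hx
      obtain ⟨e, he, s, hs, rfl⟩ := Submodule.mem_sup.1 hx
      obtain ⟨c, rfl⟩ := Submodule.mem_span_singleton.1 hs
      rw [QuadraticMap.map_add ⇑Q, hts'' e he, QuadraticMap.map_smul, h.1, polar_smul_right,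
        polar_comm Q e u, huperp e he, smul_zero, smul_zero, add_zero, add_zero]
    have h2 := two_mul_le_of_hasTS (finrank F T) (q2 Q a a') (nondeg_q2 hQ hpair)
      ⟨T.comap (perp2 Q a a').subtype,
        (Submodule.comapSubtypeEquivOfLe hTM).finrank_eq, fun x hx => hTs _ hx⟩
    have := finrank_perp2 hpair
    omega

variable [Finite Ω] [MulAction.IsPretransitive (siegelGroup Q) Ω] [Nontrivial Ω]

theorem card_points_le (hQ : Nondeg Q) (hn : 7 ≤ finrank F V) (hq : 4 ≤ Nat.card F) :
    vc Q 0 - 1 ≤ (Nat.card F - 1) * Nat.card Ω := by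
  by_contra hcon
  have hν : (Nat.card F - 1) * Nat.card Ω < vc Q 0 - 1 := not_le.1 hcon
  have : Finite V := Module.finite_of_finite F
  obtain ⟨p, hc⟩ := CharP.exists F
  have : Fact p.Prime := ⟨CharP.char_is_prime F p⟩
  by_cases hmid : ∃ (u u' : V) (h : IsHypPair Q (u, u')) (z : Ω),
      IsMid (levi hQ (by omega) h) (asub Q u u' z)
  · obtain ⟨u, u', h, z, hz⟩ := hmid
    obtain ⟨h1, h2⟩ := midV_all (p := p) hQ hn hq hν h hz
    exact no_mid hQ hq hn h z h1 h2
  obtain ⟨z⟩ : Nonempty Ω := inferInstance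
  refine not_all_fix (Q := Q) z (fix_all p hQ hn fun u u' h => ?_)
  set d := finrank F (perp2 Q u u') with hd
  have hdn := finrank_perp2 h
  have hq0 : 0 < Nat.card F := Nat.card_pos
  have hp2 : 2 ≤ p := (Fact.out : p.Prime).two_le
  rcases asub_trichotomy (p := p) hQ hn hq hν h z with h1 | h1 | h1 | h1
  · exact absurd h1 (not_reg (p := p) hQ hn hq hν h.1 h.fst_ne_zero z)
  · rw [(asub_eq_top_iff h).2 h1, AddSubgroup.card_top, card_eq_pow (F := F) (V := perp2 Q u u'), ← hd]
    calc Nat.card F ^ (d + 2) ≤ (Nat.card F ^ d) ^ 2 := by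
          rw [← pow_mul]; exact Nat.pow_le_pow_right hq0 (by omega)
      _ < (Nat.card F ^ d * p) ^ 2 := Nat.pow_lt_pow_left
          (lt_mul_of_one_lt_right (pow_pos hq0 _) (by omega)) (by omega)
  · obtain ⟨h1, -⟩ := h1
    have hc' := card_ann (nondeg_q2 hQ h) (asub Q u u' z)
    rw [← hd] at hc'
    rw [Small, ← hd] at h1
    set a := Nat.card (asub Q u u' z)
    set s := Nat.card (ann (q2 Q u u') (asub Q u u' z))
    have hs0 : 0 < s := Nat.card_pos
    refine Nat.lt_of_mul_lt_mul_right (a := s * s) ?_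
    calc Nat.card F ^ (d + 2) * (s * s) < Nat.card F ^ (d + 2) * (Nat.card F ^ (d - 2) * p * p) :=
          Nat.mul_lt_mul_of_pos_left h1 (pow_pos hq0 _)
      _ = Nat.card F ^ d * Nat.card F ^ d * (p * p) := by
          rw [← mul_assoc, ← mul_assoc, ← pow_add, ← pow_add, mul_assoc]; congr 2; omega
      _ = (a * p) ^ 2 * (s * s) := by rw [← hc']; ring
  · exact absurd ⟨u, u', h, z, h1⟩ hmid

end CfsgLib.MinIndexOrth

namespace CfsgLib.MinIndexOrth

open QuadraticMap Module CfsgLib.ClassicalForms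

variable {F V : Type*} [Field F] [Finite F] [AddCommGroup V] [Module F V]
  [FiniteDimensional F V] {Q : QuadraticForm F V}

/-- The index bound for the Siegel group. -/
theorem le_index (hQ : Nondeg Q) (hn : 7 ≤ finrank F V) (hq : 4 ≤ Nat.card F)
    (H : Subgroup (siegelGroup Q)) (hH : H ≠ ⊤) :
    vc Q 0 - 1 ≤ (Nat.card F - 1) * H.index := by
  have : Finite V := Module.finite_of_finite F
  have : Finite (V ≃ₗ[F] V) := Finite.of_injective _ DFunLike.coe_injective
  have : Nontrivial (siegelGroup Q ⧸ H) := QuotientGroup.nontrivial_iff.2 hH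
  exact card_points_le (Ω := siegelGroup Q ⧸ H) hQ hn hq

end CfsgLib.MinIndexOrth
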