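import Cfsg.Agent.Lib.MinIndex.Orth.SmallClassify

/-!
Classification of the subgroups with a short orbit in odd dimension over three elements, where the
bound is the number of vectors of the rarer non-zero value.
-/

set_option autoImplicit false
set_option linter.unusedSectionVars false

namespace CfsgLib.MinIndexOrth

open QuadraticMap Module CfsgLib.ClassicalForms

variable {F : Type*} [Field F] [Finite F] {M : Type*} [AddCommGroup M] [Module F M]
  [FiniteDimensional F M] [Finite M] {Q : QuadraticForm F M}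

/-- The data of an odd-dimensional space over three elements; `μ` is the rarer value count. -/
structure OddQ (Q : QuadraticForm F M) (w μ : ℕ) : Prop where
  dim : finrank F M = 2 * w + 1
  two_le : 2 ≤ w
  card_three : Nat.card F = 3
  rare : μ + 3 ^ w = 3 ^ (2 * w)
  val : ∀ a : F, a ≠ 0 → μ ≤ vc Q a

/-- An anisotropic plane has at most sixteen pairs of non-zero orthogonal vectors. -/
lemma card_orth_pairs_le (h3 : Nat.card F = 3) {W : Submodule F M} (hW : finrank F W = 2)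
    (h : ∀ x ∈ W, x ≠ 0 → polar Q x x ≠ 0) :
    Nat.card {p : M × M | (p.1 ∈ W.toAddSubgroup ∧ p.1 ≠ 0) ∧ p.2 ∈ W.toAddSubgroup ∧ p.2 ≠ 0 ∧
      polar Q p.1 p.2 = 0} ≤ 16 := by
  classical
  have := Fintype.ofFinite M
  have hW0 : Nat.card {x : M // x ∈ W ∧ x ≠ 0} + 1 = 9 := by
    have h1 := card_punctured (fun x => x ∈ W) W.zero_mem
    rw [show Nat.card {x // x ∈ W} = Nat.card W from rfl, card_eq_pow (F := F) (V := W), hW, h3]
      at h1
    exact h1
  have hker : ∀ x : {x : M // x ∈ W ∧ x ≠ 0},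
      Nat.card {y : M // y ∈ W ∧ y ≠ 0 ∧ polar Q (x : M) y = 0} ≤ 2 := by
    intro x
    set K : Submodule F M := W ⊓ LinearMap.ker (polarBilin Q (x : M)) with hK
    have hlt : K < W := lt_of_le_of_ne inf_le_left fun e => h x x.2.1 x.2.2 (by
      have : (x : M) ∈ K := e.symm ▸ x.2.1
      exact LinearMap.mem_ker.1 (Submodule.mem_inf.1 this).2)
    have hr := Submodule.finrank_lt_finrank_of_lt hlt
    have h1 := card_punctured (fun y => y ∈ K) K.zero_mem
    rw [show Nat.card {y // y ∈ K} = Nat.card K from rfl, card_eq_pow (F := F) (V := K), h3] at h1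
    have h2 : 3 ^ finrank F K ≤ 3 ^ 1 := Nat.pow_le_pow_right (by omega) (by omega)
    have h4 : Nat.card {y : M // y ∈ W ∧ y ≠ 0 ∧ polar Q (x : M) y = 0}
        ≤ Nat.card {y : M // y ∈ K ∧ y ≠ 0} :=
      Nat.card_le_card_of_injective (fun y => ⟨(y : M),
        Submodule.mem_inf.2 ⟨y.2.1, LinearMap.mem_ker.2 y.2.2.2⟩, y.2.2.1⟩)
        fun a b hab => Subtype.ext (congrArg (fun t : {y : M // y ∈ K ∧ y ≠ 0} => (t : M)) hab)
    omega
  calc Nat.card {p : M × M | (p.1 ∈ W.toAddSubgroup ∧ p.1 ≠ 0) ∧ p.2 ∈ W.toAddSubgroup ∧ p.2 ≠ 0 ∧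
        polar Q p.1 p.2 = 0}
      = Nat.card (Σ x : {x : M // x ∈ W ∧ x ≠ 0},
          {y : M // y ∈ W ∧ y ≠ 0 ∧ polar Q (x : M) y = 0}) :=
        Nat.card_congr
          { toFun := fun p => ⟨⟨p.1.1, p.2.1⟩, p.1.2, p.2.2⟩
            invFun := fun s => ⟨((s.1 : M), (s.2 : M)), s.1.2, s.2.2⟩
            left_inv := fun _ => rfl
            right_inv := fun _ => rfl }
    _ = ∑ x : {x : M // x ∈ W ∧ x ≠ 0}, Nat.card {y : M // y ∈ W ∧ y ≠ 0 ∧ polar Q (x : M) y = 0} :=
        Nat.card_sigma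
    _ ≤ ∑ _x : {x : M // x ∈ W ∧ x ≠ 0}, 2 := Finset.sum_le_sum fun x _ => hker x
    _ = 16 := by
        rw [Finset.sum_const, Finset.card_univ, ← Nat.card_eq_fintype_card, smul_eq_mul]
        omega

/-- The classification over three elements, odd dimension. -/
theorem classify_odd [CharP F 3] (L : Lev Q) (hQ : Nondeg Q) {w μ : ℕ} (hM : OddQ Q w μ)
    {A : AddSubgroup M} (hA0 : A ≠ ⊥) (hA1 : A ≠ ⊤)
    (hlt : 2 * (L.cnum A * Nat.card (ann Q A)) < 2 * 3 ^ finrank F M + 3 * μ) :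
    Nat.card (ann Q A) = 3 ∧ 3 * μ ≤ 2 * (L.cnum A * Nat.card (ann Q A)) := by
  obtain ⟨hd, hw, hp, hμ, hval⟩ := hM
  have : Fact (Nat.Prime 3) := ⟨Nat.prime_three⟩
  have hd5 : 5 ≤ finrank F M := by omega
  have h20 : (2 : F) ≠ 0 := fun h => one_ne_zero (show (1 : F) = 0 by
    have h3 : (3 : F) = 0 := by exact_mod_cast CharP.cast_eq_zero F 3
    linear_combination h3 - h)
  have hZ : vc Q 0 = 3 ^ (2 * w) := by rw [vc_zero_odd w Q hQ hd, hp]
  rw [hd] at hlt
  -- numbers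
  obtain ⟨a, ha⟩ : ∃ a, 3 ^ w = a + 9 := ⟨3 ^ w - 9, by
    have : 3 ^ 2 ≤ 3 ^ w := Nat.pow_le_pow_right (by omega) hw
    omega⟩
  have ea : 3 ^ (2 * w) = (a + 9) * (a + 9) := by rw [two_mul, pow_add, ha]
  have e2 : 3 ^ (2 * w + 2) = 9 * ((a + 9) * (a + 9)) := by rw [pow_add, ea, mul_comm]; rfl
  have e1 : 3 ^ (2 * w + 1) = 3 * ((a + 9) * (a + 9)) := by rw [pow_succ, ea, mul_comm]
  have hμ0 : μ ≤ vc Q 0 - 1 := by omega
  have hμ72 : 72 ≤ μ := by
    rw [ea, ha] at hμ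
    nlinarith [Nat.zero_le (a * a)]
  have hbig : 2 * 3 ^ (2 * w + 1) + 3 * μ ≤ 3 ^ (2 * w + 2) := by omega
  set Ws := toSub hp (ann Q A) with hWs
  set As := toSub hp A with hAs
  have hWc : Nat.card (ann Q A) = 3 ^ finrank F Ws := by
    have := Lev.card_submodule Ws
    rwa [hp] at this
  have hAc : Nat.card A = 3 ^ finrank F As := by
    have := Lev.card_submodule As
    rwa [hp] at this
  set k := finrank F Ws with hkdef
  set k' := finrank F As
  have hkk : k' + k = 2 * w + 1 := by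
    have h := card_ann hQ A
    rw [hWc, hAc, ← pow_add, hd, hp] at h
    exact Nat.pow_right_injective (by omega : 2 ≤ 3) h
  have hk'0 : 1 ≤ k' := by
    by_contra h
    refine hA0 ((AddSubgroup.eq_bot_iff_card _).2 ?_)
    rw [hAc, show k' = 0 by omega, pow_zero]
  have hk0 : 1 ≤ k := by
    by_contra h
    refine hA1 (AddSubgroup.eq_top_of_card_eq A ?_)
    rw [hAc, show k' = 2 * w + 1 by omega, card_eq_pow (F := F) (V := M), hp, hd]
  have hcW : L.flip.cnum (ann Q A) = L.cnum A := L.cnum_ann hQ A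
  have hWne : ann Q A ≠ ⊥ := fun h => by
    rw [h, AddSubgroup.card_bot] at hWc
    have := Nat.one_lt_pow (by omega : k ≠ 0) (by omega : 1 < 3)
    omega
  set c := L.cnum A with hc
  rcases Nat.lt_or_ge k 2 with hk | hk
  · have hk1 : k = 1 := by omega
    rw [hWc, hk1, pow_one]
    refine ⟨rfl, ?_⟩
    have h := L.flip.vec_bound hQ hd5 hμ0 hval hWne
    rw [hcW, hWc, hk1, pow_one, show (3 : ℕ) - 1 = 2 from rfl] at h
    omega
  exfalso
  rw [hWc] at hlt
  have hs2 : 3 ^ 2 ≤ 3 ^ k := Nat.pow_le_pow_right (by omega) hk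
  by_cases hk'1 : k' = 1
  · have h := L.vec_bound hQ hd5 hμ0 hval hA0
    rw [hAc, hk'1, pow_one, show (3 : ℕ) - 1 = 2 from rfl] at h
    have h2 : 3 ^ (2 * w + 2) ≤ 2 * (c * 3 ^ k) := by
      calc 3 ^ (2 * w + 2) = 9 * 3 ^ (2 * w) := by ring
        _ ≤ c * 2 * 3 ^ k := by
            rw [show k = 2 * w by omega]
            exact Nat.mul_le_mul_right _ (by omega)
        _ = _ := by ring
    omega
  by_cases hk22 : (k' = 2 ∨ k = 2) ∧ (3 ≤ w ∨ 3 ≤ k)
  · obtain ⟨hk22, hbigk⟩ := hk22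
    have h : μ * 3 ^ (2 * w - 2) ≤ c * 48 := by
      rcases hk22 with hk22 | hk22
      · have := L.plane_bound hQ hd5 hμ0 hval As hk22
        rwa [hd, hp, show 2 * w + 1 - 3 = 2 * w - 2 by omega] at this
      · have := L.flip.plane_bound hQ hd5 hμ0 hval Ws hk22
        rwa [hd, hp, show Ws.toAddSubgroup = ann Q A from rfl, hcW,
          show 2 * w + 1 - 3 = 2 * w - 2 by omega] at this
    have e : 3 ^ (2 * w + 2) = 3 ^ (2 * w - 2) * 81 := by
      rw [show (81 : ℕ) = 3 ^ 4 from rfl, ← pow_add]; congr 1; omega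
    have hμk : 81 * 48 ≤ 2 * μ * 3 ^ k := by
      rcases hbigk with hw3 | hk3
      · have h27 : 3 ^ 3 ≤ 3 ^ w := Nat.pow_le_pow_right (by omega) hw3
        rw [ea, ha] at hμ
        rw [ha] at h27
        have : 216 ≤ μ := by nlinarith
        nlinarith
      · have : 3 ^ 3 ≤ 3 ^ k := Nat.pow_le_pow_right (by omega) hk3
        nlinarith
    have h2 : 3 ^ (2 * w + 2) * 48 ≤ 2 * (c * 3 ^ k) * 48 := by
      calc 3 ^ (2 * w + 2) * 48 = 3 ^ (2 * w - 2) * (81 * 48) := by rw [e]; ring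
        _ ≤ 3 ^ (2 * w - 2) * (2 * μ * 3 ^ k) := Nat.mul_le_mul_left _ hμk
        _ = 2 * (μ * 3 ^ (2 * w - 2)) * 3 ^ k := by ring
        _ ≤ 2 * (c * 48) * 3 ^ k := Nat.mul_le_mul_right _ (Nat.mul_le_mul_left _ h)
        _ = _ := by ring
    omega
  have hkw : k ≤ 2 * w - 2 := by
    by_contra h
    exact hk22 ⟨Or.inl (by omega), Or.inr (by omega)⟩
  by_cases hS : ∀ v ∈ ann Q A, Q v = 0 → v = 0
  · have hk2 : k = 2 := by
      have := card_le_of_anisotropic Q (ann Q A) hS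
      rw [hWc, hp] at this
      have := (Nat.pow_le_pow_iff_right (by omega : 1 < 3)).1 this
      omega
    have hw2 : w = 2 := by
      by_contra h
      exact hk22 ⟨Or.inr hk2, Or.inl (by omega)⟩
    have hani : ∀ x ∈ Ws, x ≠ 0 → polar Q x x ≠ 0 := fun x hx hx0 h => by
      rw [polar_self_mul] at h
      exact hx0 (hS x hx ((mul_eq_zero.1 h).resolve_left h20))
    obtain ⟨v, hv, hv0⟩ := Submodule.exists_mem_ne_zero_of_ne_bot
      (show Ws ≠ ⊥ from fun h => by rw [hkdef, h, finrank_bot] at hk2; omega)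
    obtain ⟨u, hu, hu0⟩ := Submodule.exists_mem_ne_zero_of_ne_bot
      (show Ws ⊓ LinearMap.ker (polarBilin Q v) ≠ ⊥ from fun h => by
        have h1 := Submodule.finrank_sup_add_finrank_inf_eq Ws (LinearMap.ker (polarBilin Q v))
        have h2 := Submodule.finrank_le (Ws ⊔ LinearMap.ker (polarBilin Q v))
        have h3 := (polarBilin Q v).finrank_range_add_finrank_ker
        have h4 : finrank F (LinearMap.range (polarBilin Q v)) ≤ 1 :=
          (Submodule.finrank_le _).trans (finrank_self F).le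
        rw [h, finrank_bot] at h1
        omega)
    have hvu : polar Q v u = 0 := LinearMap.mem_ker.1 (Submodule.mem_inf.1 hu).2
    have hQv : Q v ≠ 0 := fun h => hv0 (hS v hv h)
    have h := L.flip.orth_pair_bound hQ hd5 hval (A := Ws.toAddSubgroup) hv
      (Submodule.mem_inf.1 hu).1 hQv hvu fun t e => by
        rw [e, polar_smul_right, smul_eq_mul] at hvu
        rcases mul_eq_zero.1 hvu with ht | ht
        · exact hu0 (by rw [e, ht, zero_smul])
        · exact hani v hv hv0 ht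
    have h16 := h.trans (Nat.mul_le_mul_left _ (card_orth_pairs_le hp hk2 hani))
    rw [hd, hp, show Ws.toAddSubgroup = ann Q A from rfl, hcW] at h16
    subst hw2
    norm_num at h16 hμ hlt
    rw [hk2] at hlt
    omega
  simp only [not_forall] at hS
  obtain ⟨v0, hv0, hQv0, hv00⟩ := hS
  by_cases hN : ∃ v ∈ ann Q A, Q v = 0 ∧ ∃ x ∈ ann Q A, polar Q v x ≠ 0
  · obtain ⟨v, hv, hQv, x, hx, hvx⟩ := hN
    have h := L.flip.nonperp_full hQ hd5 (fun c y hy => smul_mem_of_prime hp _ c hy) hv hx hQv hvx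
    rw [hcW, hWc, hd, hp, hZ] at h
    have h2 : 3 ^ (2 * w + 2) * (3 ^ k - 1) ≤ 2 * (c * 3 ^ k) * (3 ^ k - 1) := by
      calc 3 ^ (2 * w + 2) * (3 ^ k - 1) ≤ 3 ^ (2 * w + 2) * 3 ^ (2 * w - 2) :=
            Nat.mul_le_mul_left _ ((Nat.sub_le _ _).trans (Nat.pow_le_pow_right (by omega) hkw))
        _ = 3 ^ (2 * w - 1) * 3 ^ (2 * w + 1) := by
            rw [← pow_add, ← pow_add]; congr 1; omega
        _ ≤ 2 * (3 ^ (2 * w) - 1) * 3 ^ (2 * w + 1) := Nat.mul_le_mul_right _ (by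
            have : 3 ^ (2 * w) = 3 ^ (2 * w - 1) * 3 := by rw [← pow_succ]; congr 1; omega
            omega)
        _ = 2 * ((3 ^ (2 * w) - 1) * 3 ^ (2 * w + 1)) := by ring
        _ ≤ 2 * (c * (3 ^ k * (3 ^ k - 1))) := Nat.mul_le_mul_left _ h
        _ = _ := by ring
    have h3 : 1 < 3 ^ k := Nat.one_lt_pow (by omega) (by omega)
    have := Nat.le_of_mul_le_mul_right h2 (by omega)
    omega
  simp only [not_exists, not_and, not_not] at hN
  obtain ⟨hE1, hts⟩ := spanSing_perp hN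
  set E := Lev.spanSing Q (ann Q A) with hE
  set e := finrank F E with he
  have hEW : E ≤ Ws := Submodule.span_le.2 fun y hy => hy.1
  have hek : e ≤ k := Submodule.finrank_mono hEW
  have he0 : 1 ≤ e := by
    have : v0 ∈ E := Submodule.subset_span ⟨hv0, hQv0⟩
    exact Submodule.one_le_finrank_iff.2 fun h => hv00 (by rwa [h, Submodule.mem_bot] at this)
  have hew : e ≤ w := by
    have := two_mul_le_of_hasTS e Q hQ ⟨E, rfl, hts⟩
    omega
  have henum := (L.flip.enum_le_cnum (ann Q A)).trans hcW.le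
  rcases Nat.lt_or_ge e 2 with he1 | he2
  · have he' : e = 1 := by omega
    have h := L.flip.enum_bound_points hQ hd5 hv0 hQv0 hv00
    rw [← hE, ← he, he', pow_one, hp, hZ, show (3 : ℕ) - 1 = 2 from rfl] at h
    have h' : 3 ^ (2 * w) - 1 ≤ c * 2 := h.trans (Nat.mul_le_mul_right _ henum)
    have h9 : 9 ≤ 3 ^ (w + 1) := le_trans (le_of_eq (by norm_num : 9 = 3 ^ 2))
      (Nat.pow_le_pow_right (by omega) (by omega))
    have h2 : (3 ^ (2 * w) - 1) * 9 ≤ 2 * (c * 3 ^ k) := by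
      calc (3 ^ (2 * w) - 1) * 9 ≤ c * 2 * 3 ^ k := Nat.mul_le_mul h' hs2
        _ = _ := by ring
    rw [pow_succ, ha] at h9
    rw [ea, ha] at hμ
    rw [e1] at hlt
    rw [ea] at h2
    omega
  have hpartner : ∀ v v' : M, IsHypPair Q (v, v') →
      3 * vc (q2 Q v v') 0 + 2 * 3 ^ (2 * w - 1) = 3 ^ (2 * w) := by
    intro v v' hvv
    have hs := vc_step' hvv (0 : F)
    rw [hd, hp, show 2 * w + 1 - 2 = 2 * w - 1 by omega, hZ] at hs
    omega
  obtain ⟨u1, u2, hu⟩ := exists_hypPair hQ (by omega : 3 ≤ finrank F M)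
  set Z' := vc (q2 Q u1 u2) 0 with hZ'def
  have hZ'1 : 1 ≤ Z' := one_le_vc_zero _
  have hm : ∀ v v' : M, IsHypPair Q (v, v') → Z' - 1 + 1 ≤ vc (q2 Q v v') 0 := fun v v' h => by
    have h1 := hpartner v v' h
    have h2 := hpartner u1 u2 hu
    rw [← hZ'def] at h2
    omega
  have h1 := (singularPairs_lower (Q := Q) hQ (Z' - 1) hm).trans
    (L.flip.enum_bound_pairs hQ hd5 hts (by rw [← he]; exact he2))
  rw [← hE, ← he, hp, hZ] at h1
  obtain ⟨b, hb⟩ : ∃ b, a + 9 = 3 * (b + 3) := by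
    refine ⟨3 ^ (w - 1) - 3, ?_⟩
    have : 3 ^ 1 ≤ 3 ^ (w - 1) := Nat.pow_le_pow_right (by omega) (by omega)
    rw [← ha, show 3 ^ w = 3 * 3 ^ (w - 1) by rw [← pow_succ']; congr 1; omega]
    omega
  have h3 : 3 * (Z' - 1) = 3 * ((b + 2) * (b + 4)) := by
    have := hpartner u1 u2 hu
    rw [← hZ'def, ea, hb] at this
    have e' : 3 ^ (2 * w - 1) * 3 = (a + 9) * (a + 9) := by
      rw [← pow_succ, ← ea]; congr 1; omega
    rw [hb] at e'
    ring_nf at this e' ⊢
    omega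
  have hX : 3 ^ (2 * w) - 1 = (3 * b + 8) * (3 * b + 10) := by
    rw [ea, hb]
    apply Nat.sub_eq_of_eq_add
    ring
  rw [hX, h3] at h1
  have hea : 3 ^ e ≤ 3 * (b + 3) := by
    rw [← hb, ← ha]; exact Nat.pow_le_pow_right (by omega) hew
  rw [e1, hb] at hlt
  rw [ea, ha, hb] at hμ
  rcases Nat.lt_or_ge e w with hew' | hew'
  · have hea' : 3 ^ e ≤ b + 3 := by
      have h5 : 3 ^ e * 3 ≤ 3 * (b + 3) := by
        rw [← hb, ← ha, ← pow_succ]; exact Nat.pow_le_pow_right (by omega) hew'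
      omega
    have h2 : (3 * b + 8) * (3 * b + 10) * (3 * ((b + 2) * (b + 4))) ≤ c * ((b + 2) * b) :=
      h1.trans (Nat.mul_le_mul henum (Nat.mul_le_mul (by omega) (by omega)))
    have h4 : 9 * ((b + 3) * (b + 3)) ≤ c := by
      by_contra hc'
      have : c * ((b + 2) * b) ≤ 9 * ((b + 3) * (b + 3)) * ((b + 2) * b) :=
        Nat.mul_le_mul_right _ (by omega)
      nlinarith
    have h5 : 9 * ((b + 3) * (b + 3)) * 9 ≤ c * 3 ^ k := Nat.mul_le_mul h4 hs2
    nlinarith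
  · have he' : 3 ^ e = 3 * (b + 3) := by rw [show e = w by omega, ha, hb]
    rw [he', show 3 * (b + 3) - 1 = 3 * b + 8 by omega, show 3 * (b + 3) - 3 = 3 * (b + 2) by omega]
      at h1
    have h2 : (3 * b + 8) * (3 * (b + 2)) * ((3 * b + 10) * (b + 4))
        ≤ (3 * b + 8) * (3 * (b + 2)) * c := by
      calc _ = (3 * b + 8) * (3 * b + 10) * (3 * ((b + 2) * (b + 4))) := by ring
        _ ≤ _ := h1
        _ ≤ c * ((3 * b + 8) * (3 * (b + 2))) := Nat.mul_le_mul_right _ henum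
        _ = _ := by ring
    have h4 := Nat.le_of_mul_le_mul_left h2 (Nat.mul_pos (by omega) (by omega))
    have h5 : 3 * (b + 3) ≤ 3 ^ k := he' ▸ Nat.pow_le_pow_right (by omega) hek
    have h6 := Nat.mul_le_mul h4 h5
    nlinarith

end CfsgLib.MinIndexOrth
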