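import Cfsg.Agent.Lib.MinIndex.Orth.OddRegular
import Cfsg.Agent.Lib.MinIndex.Orth.OddClassify
import Cfsg.Agent.Lib.MinIndex.Orth.Attain

/-!
The index bound for Siegel groups in odd dimension over three elements: half the number of vectors of
the rarer non-zero value.
-/

set_option autoImplicit false
set_option linter.unusedSectionVars false

namespace CfsgLib.MinIndexOrth

open QuadraticMap Module CfsgLib.ClassicalForms

variable {F V : Type*} [Field F] [Finite F] [AddCommGroup V] [Module F V]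
  [FiniteDimensional F V] {Q : QuadraticForm F V}

lemma oddQ_perp [Finite V] {w N : ℕ} (h3 : Nat.card F = 3) (hn : finrank F V = 2 * w + 3)
    (hw : 2 ≤ w) (hN : N + 3 ^ (w + 1) = 3 ^ (2 * w + 2))
    (hval : ∀ a : F, a ≠ 0 → N ≤ vc Q a) {u u' : V} (h : IsHypPair Q (u, u')) :
    ∃ μ, OddQ (q2 Q u u') w μ ∧ N = 2 * 3 ^ (2 * w + 1) + 3 * μ := by
  have hd := finrank_perp2 h
  obtain ⟨μ, hμ⟩ : ∃ μ, μ + 3 ^ w = 3 ^ (2 * w) :=
    ⟨3 ^ (2 * w) - 3 ^ w, Nat.sub_add_cancel (Nat.pow_le_pow_right (by omega) (by omega))⟩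
  have e : N = 2 * 3 ^ (2 * w + 1) + 3 * μ := by
    ring_nf at hN hμ ⊢
    omega
  refine ⟨μ, ⟨by omega, hw, h3, hμ, fun a ha => ?_⟩, e⟩
  have h1 := hval a ha
  rw [vc_step' h, h3, hn, show 2 * w + 3 - 2 = 2 * w + 1 by omega, show (3 : ℕ) - 1 = 2 from rfl]
    at h1
  omega

variable {Ω : Type*} [MulAction (siegelGroup Q) Ω] [Finite Ω]
  [MulAction.IsPretransitive (siegelGroup Q) Ω] [Nontrivial Ω]

theorem card_points_le_odd [CharP F 3] (hQ : Nondeg Q) {w N : ℕ} (h3 : Nat.card F = 3)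
    (hn : finrank F V = 2 * w + 3) (hw : 2 ≤ w) (hN : N + 3 ^ (w + 1) = 3 ^ (2 * w + 2))
    (hval : ∀ a : F, a ≠ 0 → N ≤ vc Q a) : N ≤ 2 * Nat.card Ω := by
  by_contra hcon
  have hν : 2 * Nat.card Ω < N := not_le.1 hcon
  have : Finite V := Module.finite_of_finite F
  have : Fact (Nat.Prime 3) := ⟨Nat.prime_three⟩
  have hn7 : 7 ≤ finrank F V := by omega
  have hdim : ∀ {u u' : V}, IsHypPair Q (u, u') → finrank F (perp2 Q u u') = 2 * w + 1 :=
    fun {u u'} h => by
      have := finrank_perp2 h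
      omega
  obtain ⟨μ, hμ⟩ : ∃ μ, μ + 3 ^ w = 3 ^ (2 * w) :=
    ⟨3 ^ (2 * w) - 3 ^ w, Nat.sub_add_cancel (Nat.pow_le_pow_right (by omega) (by omega))⟩
  have hM : ∀ {u u' : V}, IsHypPair Q (u, u') →
      OddQ (q2 Q u u') w μ ∧ N = 2 * 3 ^ (2 * w + 1) + 3 * μ := fun {u u'} h => by
    obtain ⟨μ', h1, h2⟩ := oddQ_perp h3 hn hw hN hval h
    obtain rfl : μ' = μ := Nat.add_right_cancel (h1.rare.trans hμ.symm)
    exact ⟨h1, h2⟩
  have htri : ∀ (u u' : V) (h : IsHypPair Q (u, u')) (z : Ω), IsReg Q u z ∨ IsFix Q u z ∨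
      (Nat.card (ann (q2 Q u u') (asub Q u u' z)) = 3 ∧
        3 * μ ≤ 2 * Nat.card (cls hQ (by omega) h z)) := by
    intro u u' h z
    by_cases h0 : asub Q u u' z = ⊥
    · exact Or.inl ((asub_eq_bot_iff h).1 h0)
    by_cases h1 : asub Q u u' z = ⊤
    · exact Or.inr (Or.inl ((asub_eq_top_iff h).1 h1))
    obtain ⟨hq, hNe⟩ := hM h
    have hle := Nat.mul_le_mul_left 2 (cnum_mul_le hQ (by omega) h z)
    have hlt : 2 * ((levi hQ (by omega) h).cnum (asub Q u u' z)
        * Nat.card (ann (q2 Q u u') (asub Q u u' z)))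
        < 2 * 3 ^ finrank F (perp2 Q u u') + 3 * μ := by
      rw [hq.dim, ← hNe]
      exact lt_of_le_of_lt (hle.trans (Nat.mul_le_mul_left 2
        (Nat.card_le_card_of_injective _ Subtype.val_injective))) hν
    have h4 := classify_odd (levi hQ (by omega) h) (nondeg_q2 hQ h) hq h0 h1 hlt
    exact Or.inr (Or.inr ⟨h4.1, h4.2.trans hle⟩)
  obtain ⟨z⟩ : Nonempty Ω := inferInstance
  by_cases hreg : ∃ (x : V) (z' : Ω), Q x = 0 ∧ x ≠ 0 ∧ IsReg Q x z'
  · obtain ⟨x, z', hx, hx0, h1⟩ := hreg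
    have hall := all_reg_of (Ω := Ω) hQ hn7 (fun y hy hy0 z'' => by
      obtain ⟨g, hg, e⟩ := (Sec.top Q).transitive_singular hQ (by omega) (Sec.mem_top x)
        (Sec.mem_top y) hx hy hx0 hy0
      have hy1 : IsReg Q y ((⟨g, hg.1⟩ : siegelGroup Q) • z') := by
        rw [show y = ap (⟨g, hg.1⟩ : siegelGroup Q) x from e.symm, isReg_ap]
        exact h1
      obtain ⟨y', -, hp⟩ := (Sec.top Q).exists_partner hQ (Sec.mem_top y) hy hy0
      rcases htri y y' hp z'' with h4 | h4 | h4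
      · exact Or.inl h4
      · exact Or.inr h4
      exfalso
      set z₁ := (⟨g, hg.1⟩ : siegelGroup Q) • z'
      have hb := (asub_eq_bot_iff hp).2 hy1
      have hd := hdim hp
      have hdis : Disjoint (orbT Q y y' z₁) (cls hQ (by omega) hp z'') := by
        rw [Set.disjoint_left]
        intro a ha ha'
        have e1 := card_asub_of_mem_cls hQ (by omega) hp ha'
        rw [asub_of_mem_orbT hp ha, hb] at e1
        have e2 := card_ann (nondeg_q2 hQ hp) (asub Q y y' z'')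
        rw [h4.1, ← e1, AddSubgroup.card_bot, h3, hd, one_mul] at e2
        have : 3 ^ 1 < 3 ^ (2 * w + 1) := Nat.pow_lt_pow_right (by omega) (by omega)
        omega
      have e := Set.ncard_union_eq hdis (Set.toFinite _) (Set.toFinite _)
      rw [← Nat.card_coe_set_eq, ← Nat.card_coe_set_eq, ← Nat.card_coe_set_eq, card_orbT hQ hp, hb,
        card_ann_bot (nondeg_q2 hQ hp), h3, hd] at e
      have hle : 3 ^ (2 * w + 1) + Nat.card (cls hQ (by omega) hp z'') ≤ Nat.card Ω :=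
        e ▸ Nat.card_le_card_of_injective _ Subtype.val_injective
      have := h4.2
      have := (hM hp).2
      omega)
    obtain ⟨x', -, hp⟩ := (Sec.top Q).exists_partner hQ (Sec.mem_top x) hx hx0
    have hone := one_orbit_of_reg hQ hp z (hall x hx hx0) (by
      have h5 := (hM hp).2
      have h6 : 3 ^ (2 * w + 1) = 3 * 3 ^ (2 * w) := by ring
      have h7 : μ ≤ 3 ^ (2 * w) := hμ ▸ Nat.le_add_right _ _
      rw [h3, hdim hp]
      omega)
    have h30 : (3 : F) = 0 := by exact_mod_cast CharP.cast_eq_zero F 3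
    rcases Nat.lt_or_ge w 3 with hw3 | hw3
    · obtain rfl : w = 2 := by omega
      exact no_regular_odd7 hQ h30 hp (hdim hp) z hall hone
    · exact no_regular_small hQ (by omega) (Or.inr h30) hp (fun h => by omega) z hall hone
  · refine not_all_fix (Q := Q) z (fix_all 3 hQ hn7 fun u u' h => ?_)
    have hd := hdim h
    rcases htri u u' h z with h1 | h1 | ⟨h1, -⟩
    · exact absurd ⟨u, z, h.1, h.fst_ne_zero, h1⟩ hreg
    · rw [(asub_eq_top_iff h).2 h1, AddSubgroup.card_top,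
        card_eq_pow (F := F) (V := perp2 Q u u'), h3, hd, ← pow_succ, ← pow_mul]
      exact Nat.pow_lt_pow_right (by omega) (by omega)
    · have hc := card_ann (nondeg_q2 hQ h) (asub Q u u' z)
      rw [h1, h3, hd] at hc
      rw [h3, hd, hc, ← pow_mul]
      exact Nat.pow_lt_pow_right (by omega) (by omega)

end CfsgLib.MinIndexOrth
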