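import Cfsg.Agent.Lib.MinIndex.Orth.SmallRegular

/-!
The seven-dimensional space over three elements: an involution acting as `-1` on two planes fixes
three points only, too few for a semiregular group of nine root elements commuting with it.
-/

set_option autoImplicit false
set_option linter.unusedSectionVars false

namespace CfsgLib.MinIndexOrth

open QuadraticMap Module CfsgLib.ClassicalForms

variable {F V : Type*} [Field F] [Finite F] [AddCommGroup V] [Module F V]
  [FiniteDimensional F V] {Q : QuadraticForm F V}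

/-- No single regular orbit for a five-dimensional complement over three elements. -/
theorem no_regular_odd7 {Ω : Type*} [MulAction (siegelGroup Q) Ω] (hQ : Nondeg Q)
    (h3 : (3 : F) = 0) {x x' : V} (hx : IsHypPair Q (x, x'))
    (hd : finrank F (perp2 Q x x') = 5) (z : Ω)
    (hall : ∀ y : V, Q y = 0 → y ≠ 0 → ∀ z' : Ω, IsReg Q y z')
    (hone : ∀ z' : Ω, z' ∈ orbT Q x x' z) : False := by
  have : Finite V := Module.finite_of_finite F
  obtain ⟨Vv, Vv', hpV⟩ := exists_hypPair (nondeg_q2 hQ hx) (by omega)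
  have hd2 := finrank_perp2 hpV
  obtain ⟨Yy, Yy', hpY⟩ := exists_hypPair (nondeg_q2 (nondeg_q2 hQ hx) hpV) (by omega)
  have hd3 := finrank_perp2 hpY
  set v := (Vv : V)
  set v' := (Vv' : V)
  set y := ((Yy : perp2 Q x x') : V)
  set y' := ((Yy' : perp2 Q x x') : V)
  obtain ⟨g1, g3⟩ := mem_perp2.1 Yy.2
  obtain ⟨g2, g4⟩ := mem_perp2.1 Yy'.2
  rw [polar_q2] at g1 g2 g3 g4
  have hpv : IsHypPair Q (v, v') :=
    ⟨hpV.1, hpV.2.1, by have := hpV.2.2; rwa [polar_q2] at this⟩
  have hpy : IsHypPair Q (y, y') :=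
    ⟨hpY.1, hpY.2.1, by have := hpY.2.2; rwa [polar_q2, polar_q2] at this⟩
  obtain ⟨rv, ry, rv', ry', rR⟩ := rot_apply hpv hpy g1 g2 g3 g4
  set ρ := root Q y v' * root Q v y' with hρ
  set t := ρ * ρ with ht
  have h20 : (2 : F) ≠ 0 := fun h => one_ne_zero (show (1 : F) = 0 by linear_combination h3 - h)
  have tv : ap t v = -v := by
    rw [ht, ap_mul, rv, map_sub, rv, ry]
    match_scalars <;> first
      | linear_combination (0 : F) * h3
      | linear_combination h3
      | linear_combination -h3
  have ty : ap t y = -y := by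
    rw [ht, ap_mul, ry, map_sub, map_smul, rv, ry]
    match_scalars <;> first
      | linear_combination (0 : F) * h3
      | linear_combination h3
      | linear_combination -h3
      | linear_combination (2 : F) * h3
      | linear_combination (-2 : F) * h3
  have tv' : ap t v' = -v' := by
    rw [ht, ap_mul, rv', map_add, map_smul, rv', ry']
    match_scalars <;> first
      | linear_combination (0 : F) * h3
      | linear_combination h3
      | linear_combination -h3
      | linear_combination (2 : F) * h3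
      | linear_combination (-2 : F) * h3
  have ty' : ap t y' = -y' := by
    rw [ht, ap_mul, ry', map_add, rv', ry']
    match_scalars <;> first
      | linear_combination (0 : F) * h3
      | linear_combination h3
      | linear_combination -h3
      | linear_combination (2 : F) * h3
      | linear_combination (-2 : F) * h3
  have tR : ∀ r, polar Q v r = 0 → polar Q v' r = 0 → polar Q y r = 0 → polar Q y' r = 0 →
      ap t r = r := fun r r1 r2 r3 r4 => by
    rw [ht, ap_mul, rR r r1 r2 r3 r4, rR r r1 r2 r3 r4]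
  have t2 : t * t = 1 := eq_one_of_fix_four hpv hpy g1 g2 g3 g4
    (by rw [ap_mul, tv, map_neg, tv, neg_neg]) (by rw [ap_mul, tv', map_neg, tv', neg_neg])
    (by rw [ap_mul, ty, map_neg, ty, neg_neg]) (by rw [ap_mul, ty', map_neg, ty', neg_neg])
    fun r r1 r2 r3 r4 => by rw [ap_mul, tR r r1 r2 r3 r4, tR r r1 r2 r3 r4]
  obtain ⟨xv, x'v⟩ := mem_perp2.1 Vv.2
  obtain ⟨xv', x'v'⟩ := mem_perp2.1 Vv'.2
  obtain ⟨xy, x'y⟩ := mem_perp2.1 (Yy : perp2 Q x x').2
  obtain ⟨xy', x'y'⟩ := mem_perp2.1 (Yy' : perp2 Q x x').2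
  have tx : ap t x = x := tR x (by rw [polar_comm]; exact xv) (by rw [polar_comm]; exact xv')
    (by rw [polar_comm]; exact xy) (by rw [polar_comm]; exact xy')
  have tx' : ap t x' = x' := tR x' (by rw [polar_comm]; exact x'v) (by rw [polar_comm]; exact x'v')
    (by rw [polar_comm]; exact x'y) (by rw [polar_comm]; exact x'y')
  have hbot : ∀ z' : Ω, ∀ m : perp2 Q x x', root Q x (m : V) • z' = z' → m = 0 := fun z' m h =>
    eq_zero_of_root hx (hall x hx.1 hx.fst_ne_zero z' _ ⟨(mem_perp2.1 m.2).1, h⟩)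
  have addT : ∀ (m m' : perp2 Q x x') (z' : Ω),
      root Q x (m : V) • root Q x (m' : V) • z' = root Q x ((m + m' : perp2 Q x x') : V) • z' :=
    fun m m' z' => by
      rw [← mul_smul, root_add hx.1 (mem_perp2.1 m.2).1 (mem_perp2.1 m'.2).1, Submodule.coe_add]
  have injT : ∀ (z' : Ω) (m m' : perp2 Q x x'),
      root Q x (m : V) • z' = root Q x (m' : V) • z' → m = m' := fun z' m m' h => by
    refine sub_eq_zero.1 (hbot z' _ ?_)
    rw [← smul_left_cancel_iff (root Q x (m' : V)), addT, add_sub_cancel]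
    exact h
  have mapM : ∀ m ∈ perp2 Q x x', ap t m ∈ perp2 Q x x' := fun m hm => by
    have := (ap_mem_perp2 t).2 hm
    rwa [tx, tx'] at this
  have commT : ∀ (m : V) (z' : Ω), t • root Q x m • z' = root Q x (ap t m) • t • z' :=
    fun m z' => by
      conv_rhs => rw [← tx]
      rw [root_smul_ap]
  -- a fixed point
  obtain ⟨s, hs⟩ := hone (t • z)
  have hs' : root Q x (s : V) • z = t • z := hs
  have hts : ap t (s : V) = -(s : V) := by
    have h : root Q x ((⟨ap t (s : V), mapM _ s.2⟩ + s : perp2 Q x x') : V) • z = z := by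
      rw [← addT, hs', ← commT, hs', ← mul_smul, t2, one_smul]
    exact eq_neg_of_add_eq_zero_left (congrArg Subtype.val (hbot z _ h))
  set z0 := root Q x ((-s : perp2 Q x x') : V) • z with hz0
  have hfix : t • z0 = z0 := by
    rw [hz0, commT, ← hs', Submodule.coe_neg, map_neg, hts, neg_neg, addT]
    congr 2
    rw [Submodule.coe_add, ← two_smul F (s : V), ← neg_one_smul F (s : V)]
    congr 1
    linear_combination h3
  obtain ⟨c0, hc0⟩ := hone z0
  have toZ0 : ∀ z' : Ω, ∃ r : perp2 Q x x', root Q x (r : V) • z0 = z' := fun z' => by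
    obtain ⟨c, hc⟩ := hone z'
    refine ⟨c - c0, ?_⟩
    have hc0' : root Q x (c0 : V) • z = z0 := hc0
    rw [← hc0', addT, sub_add_cancel]
    exact hc
  -- nine commuting root elements
  have hym : ∀ c : F × F, c.1 • y + c.2 • y' ∈ perp2 Q v v' := fun c =>
    Submodule.add_mem _ (Submodule.smul_mem _ _ (mem_perp2.2 ⟨g1, g3⟩))
      (Submodule.smul_mem _ _ (mem_perp2.2 ⟨g2, g4⟩))
  have hcomm : ∀ c : F × F, ap t (c.1 • y + c.2 • y') = -(c.1 • y + c.2 • y') := fun c => by
    simp [ty, ty', add_comm]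
  have hmove : ∀ c : F × F, ∃ r : perp2 Q x x', (ap t (r : V) = r) ∧
      root Q x (r : V) • z0 = root Q v (c.1 • y + c.2 • y') • z0 := by
    intro c
    obtain ⟨r, hr⟩ := toZ0 (root Q v (c.1 • y + c.2 • y') • z0)
    refine ⟨r, congrArg Subtype.val (injT z0 ⟨_, mapM _ r.2⟩ r ?_), hr⟩
    have h1 : t • root Q v (c.1 • y + c.2 • y') • z0 = root Q v (c.1 • y + c.2 • y') • z0 := by
      rw [← root_smul_ap, hfix, tv, hcomm, ← neg_one_smul F v,
        root_smul (neg_ne_zero.2 one_ne_zero), neg_one_smul, neg_neg]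
    rw [← hr, commT, hfix] at h1
    exact h1
  choose f hf1 hf2 using hmove
  have hfinj : Function.Injective f := by
    intro c d hcd
    have h1 : root Q v (c.1 • y + c.2 • y') • z0 = root Q v (d.1 • y + d.2 • y') • z0 := by
      rw [← hf2, ← hf2, hcd]
    have hc := (mem_perp2.1 (hym c)).1
    have hd' := (mem_perp2.1 (hym d)).1
    have hsub : polar Q v ((c.1 • y + c.2 • y') - (d.1 • y + d.2 • y')) = 0 := by
      rw [polar_sub_right, hc, hd', sub_zero]
    have h2 : root Q v ((c.1 • y + c.2 • y') - (d.1 • y + d.2 • y')) • z0 = z0 := by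
      rw [← smul_left_cancel_iff (root Q v (d.1 • y + d.2 • y')), ← mul_smul,
        root_add hpv.1 hd' hsub, add_sub_cancel]
      exact h1
    have h4 := congrArg Subtype.val (eq_zero_of_root hpv
      (w := ⟨_, Submodule.sub_mem _ (hym c) (hym d)⟩)
      (hall v hpv.1 hpv.fst_ne_zero z0 _ ⟨hsub, h2⟩))
    have e1 := congrArg (polar Q y') h4
    have e2 := congrArg (polar Q y) h4
    have hy'y : polar Q y' y = 1 := by rw [polar_comm]; exact hpy.2.2
    simp [polar_sub_right, polar_add_right, polar_smul_right, polar_self_mul, hpy.1, hpy.2.1,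
      hy'y, hpy.2.2, sub_eq_zero] at e1 e2
    exact Prod.ext e1 e2
  -- they fit in the fixed line
  have hline : ∀ c, polar Q v (f c : V) = 0 ∧ polar Q v' (f c : V) = 0 ∧
      polar Q y (f c : V) = 0 ∧ polar Q y' (f c : V) = 0 := by
    intro c
    have key : ∀ u, ap t u = -u → polar Q u (f c : V) = 0 := fun u hu => by
      have h := polar_ap t u (f c : V)
      rw [hu, hf1, polar_neg_left] at h
      have : (2 : F) * polar Q u (f c : V) = 0 := by linear_combination -h
      exact (mul_eq_zero.1 this).resolve_left h20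
    exact ⟨key v tv, key v' tv', key y ty, key y' ty'⟩
  let g : F × F → perp2 (q2 (q2 Q x x') Vv Vv') Yy Yy' := fun c =>
    ⟨⟨f c, mem_perp2.2 ⟨by rw [polar_q2]; exact (hline c).1, by rw [polar_q2]; exact (hline c).2.1⟩⟩,
      mem_perp2.2 ⟨by rw [polar_q2, polar_q2]; exact (hline c).2.2.1,
        by rw [polar_q2, polar_q2]; exact (hline c).2.2.2⟩⟩
  have hg : Function.Injective g := fun c d h => hfinj (congrArg (fun p : perp2 (q2 (q2 Q x x') Vv Vv')
    Yy Yy' => ((p : perp2 (q2 Q x x') Vv Vv') : perp2 Q x x')) h)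
  have hle := Nat.card_le_card_of_injective g hg
  rw [Nat.card_prod, card_eq_pow (F := F) (V := perp2 (q2 (q2 Q x x') Vv Vv') Yy Yy'),
    show finrank F (perp2 (q2 (q2 Q x x') Vv Vv') Yy Yy') = 1 by omega, pow_one] at hle
  have : 2 ≤ Nat.card F := Finite.one_lt_card
  nlinarith

end CfsgLib.MinIndexOrth
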