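import Cfsg.Agent.Lib.MinIndex.Orth.SmallClassify

/-!
Classification of the subgroups with a short orbit for hyperbolic spaces over the field with two
elements, where the bound is the number of vectors of value one.
-/

set_option autoImplicit false
set_option linter.unusedSectionVars false

namespace CfsgLib.MinIndexOrth

open QuadraticMap Module CfsgLib.ClassicalForms

variable {F : Type*} [Field F] [Finite F] {M : Type*} [AddCommGroup M] [Module F M]
  [FiniteDimensional F M] [Finite M] {Q : QuadraticForm F M}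

lemma eq_zero_or_one (h2 : Nat.card F = 2) (c : F) : c = 0 ∨ c = 1 := by
  classical
  have := Fintype.ofFinite F
  by_contra h
  simp only [not_or] at h
  have h1 : Finset.card ({0, 1, c} : Finset F) ≤ Fintype.card F := Finset.card_le_univ _
  rw [Finset.card_eq_three.2 ⟨0, 1, c, zero_ne_one, Ne.symm h.1, Ne.symm h.2, rfl⟩,
    ← Nat.card_eq_fintype_card, h2] at h1
  omega

/-- Over two elements the vectors of value zero and one exhaust the space. -/
lemma vc_zero_add_vc_one (h2 : Nat.card F = 2) : vc Q 0 + vc Q 1 = 2 ^ finrank F M := by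
  rw [← h2, ← card_eq_pow (F := F) (V := M), vc, vc, ← Nat.card_sum]
  classical
  refine Nat.card_congr ((Equiv.sumCongr (Equiv.refl _) (Equiv.subtypeEquivRight fun x => ?_)).trans
    (Equiv.sumCompl (fun x => Q x = 0)))
  exact ⟨fun h => by rw [h]; exact one_ne_zero,
    fun h => (eq_zero_or_one h2 (Q x)).resolve_left h⟩

/-- The data of a hyperbolic space of dimension `2w+2` over two elements. -/
structure PlusQ (Q : QuadraticForm F M) (w : ℕ) : Prop where
  dim : finrank F M = 2 * w + 2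
  two_le : 2 ≤ w
  card_two : Nat.card F = 2
  zeros : vc Q 0 = 2 ^ (2 * w + 1) + 2 ^ w

lemma PlusQ.ones {w : ℕ} (hM : PlusQ Q w) : vc Q 1 + 2 ^ w = 2 ^ (2 * w + 1) := by
  have h := vc_zero_add_vc_one (Q := Q) hM.card_two
  rw [hM.zeros, hM.dim, show 2 ^ (2 * w + 2) = 2 ^ (2 * w + 1) + 2 ^ (2 * w + 1) by ring] at h
  omega

/-- The classification over two elements, hyperbolic case. -/
theorem classify_plus [CharP F 2] (L : Lev Q) (hQ : Nondeg Q) {w : ℕ} (hM : PlusQ Q w)
    {A : AddSubgroup M} (hA0 : A ≠ ⊥) (hA1 : A ≠ ⊤)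
    (hlt : L.cnum A * Nat.card (ann Q A) < 2 ^ finrank F M + 2 * vc Q 1) :
    Nat.card (ann Q A) = 2 ∧ 2 * vc Q 1 ≤ L.cnum A * Nat.card (ann Q A) := by
  have hN1 := hM.ones
  obtain ⟨hd, hw, hp, hZ⟩ := hM
  have : Fact (Nat.Prime 2) := ⟨Nat.prime_two⟩
  have hd5 : 5 ≤ finrank F M := by omega
  rw [hd] at hlt
  -- numbers
  obtain ⟨a, ha⟩ : ∃ a, 2 ^ w = a + 4 := ⟨2 ^ w - 4, by
    have : 2 ^ 2 ≤ 2 ^ w := Nat.pow_le_pow_right (by omega) hw
    omega⟩
  have ea : 2 ^ (2 * w) = (a + 4) * (a + 4) := by rw [two_mul, pow_add, ha]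
  have e1 : 2 ^ (2 * w + 1) = 2 * ((a + 4) * (a + 4)) := by rw [pow_succ, ea, mul_comm]
  have hμ0 : vc Q 1 ≤ vc Q 0 - 1 := by omega
  have hval : ∀ c : F, c ≠ 0 → vc Q 1 ≤ vc Q c := fun c hc => by
    rw [(eq_zero_or_one hp c).resolve_left hc]
  have hN28 : 28 ≤ vc Q 1 := by
    have : 4 * 4 ≤ (a + 4) * (a + 4) := Nat.mul_le_mul (by omega) (by omega)
    nlinarith
  have hZlo : 2 ^ (2 * w) ≤ vc Q 0 - 1 := by omega
  have hlt' : L.cnum A * Nat.card (ann Q A) < 2 ^ (2 * w + 3) := by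
    have : 2 ^ (2 * w + 3) = 2 ^ (2 * w + 2) + 2 * 2 ^ (2 * w + 1) := by ring
    omega
  set Ws := toSub hp (ann Q A) with hWs
  set As := toSub hp A with hAs
  have hWc : Nat.card (ann Q A) = 2 ^ finrank F Ws := by
    have := Lev.card_submodule Ws
    rwa [hp] at this
  have hAc : Nat.card A = 2 ^ finrank F As := by
    have := Lev.card_submodule As
    rwa [hp] at this
  set k := finrank F Ws
  set k' := finrank F As
  have hkk : k' + k = 2 * w + 2 := by
    have h := card_ann hQ A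
    rw [hWc, hAc, ← pow_add, hd, hp] at h
    exact Nat.pow_right_injective le_rfl h
  have hk'0 : 1 ≤ k' := by
    by_contra h
    refine hA0 ((AddSubgroup.eq_bot_iff_card _).2 ?_)
    rw [hAc, show k' = 0 by omega, pow_zero]
  have hk0 : 1 ≤ k := by
    by_contra h
    refine hA1 (AddSubgroup.eq_top_of_card_eq A ?_)
    rw [hAc, show k' = 2 * w + 2 by omega, card_eq_pow (F := F) (V := M), hp, hd]
  have hcW : L.flip.cnum (ann Q A) = L.cnum A := L.cnum_ann hQ A
  have hWne : ann Q A ≠ ⊥ := fun h => by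
    rw [h, AddSubgroup.card_bot] at hWc
    have := Nat.one_lt_pow (by omega : k ≠ 0) (by omega : 1 < 2)
    omega
  rcases Nat.lt_or_ge k 2 with hk | hk
  · have hk1 : k = 1 := by omega
    rw [hWc, hk1, pow_one]
    refine ⟨rfl, ?_⟩
    have h := L.flip.vec_bound hQ hd5 hμ0 hval hWne
    rw [hcW, hWc, hk1, pow_one, show (2 : ℕ) - 1 = 1 from rfl, mul_one] at h
    omega
  exfalso
  rw [hWc] at hlt hlt'
  have hs2 : 2 ^ 2 ≤ 2 ^ k := Nat.pow_le_pow_right (by omega) hk
  by_cases hk'1 : k' = 1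
  · have h := L.vec_bound hQ hd5 hμ0 hval hA0
    rw [hAc, hk'1, pow_one, show (2 : ℕ) - 1 = 1 from rfl, mul_one] at h
    have h2 : 2 ^ (2 * w + 3) ≤ L.cnum A * 2 ^ k := by
      calc 2 ^ (2 * w + 3) = 4 * 2 ^ (2 * w + 1) := by ring
        _ ≤ L.cnum A * 2 ^ k := by
            rw [show k = 2 * w + 1 by omega]
            exact Nat.mul_le_mul_right _ (by omega)
    omega
  by_cases hk22 : k' = 2 ∨ k = 2
  · have h : vc Q 1 * 2 ^ (2 * w + 2 - 3) ≤ L.cnum A * 6 := by
      rcases hk22 with hk22 | hk22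
      · have := L.plane_bound hQ hd5 hμ0 hval As hk22
        rwa [hd, hp] at this
      · have := L.flip.plane_bound hQ hd5 hμ0 hval Ws hk22
        rwa [hd, hp, show Ws.toAddSubgroup = ann Q A from rfl, hcW] at this
    have h2 : 2 ^ (2 * w + 3) * 6 ≤ L.cnum A * 2 ^ k * 6 := by
      calc 2 ^ (2 * w + 3) * 6 = 24 * 2 ^ (2 * w + 2 - 3) * 2 ^ 2 := by
            rw [show 2 ^ (2 * w + 3) = 2 ^ (2 * w + 2 - 3) * 2 ^ 4 by
              rw [← pow_add]; congr 1; omega]
            ring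
        _ ≤ vc Q 1 * 2 ^ (2 * w + 2 - 3) * 2 ^ k :=
            Nat.mul_le_mul (Nat.mul_le_mul_right _ (by omega)) hs2
        _ ≤ L.cnum A * 6 * 2 ^ k := Nat.mul_le_mul_right _ h
        _ = _ := by ring
    omega
  simp only [not_or] at hk22
  have hk3 : 3 ≤ k := by omega
  have hkd : k + 3 ≤ 2 * w + 2 := by omega
  obtain ⟨v0, hv0, hQv0, hv00⟩ : ∃ v ∈ ann Q A, Q v = 0 ∧ v ≠ 0 := by
    by_contra hcon
    simp only [not_exists, not_and, not_not] at hcon
    have := card_le_of_anisotropic Q (ann Q A) fun x hx h => hcon x hx h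
    rw [hWc, hp] at this
    have := (Nat.pow_le_pow_iff_right (by omega : 1 < 2)).1 this
    omega
  by_cases hN : ∃ v ∈ ann Q A, Q v = 0 ∧ ∃ x ∈ ann Q A, polar Q v x ≠ 0
  · obtain ⟨v, hv, hQv, x, hx, hvx⟩ := hN
    have h := L.flip.nonperp_full hQ hd5 (fun c y hy => smul_mem_of_prime hp _ c hy) hv hx hQv hvx
    rw [hcW, hWc, hd, hp] at h
    have h2 : 2 ^ (2 * w + 3) * (2 ^ k - 1) ≤ L.cnum A * 2 ^ k * (2 ^ k - 1) := by
      calc 2 ^ (2 * w + 3) * (2 ^ k - 1) ≤ 2 ^ (2 * w + 3) * 2 ^ (2 * w - 1) :=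
            Nat.mul_le_mul_left _ ((Nat.sub_le _ _).trans (Nat.pow_le_pow_right (by omega) (by omega)))
        _ = 2 ^ (2 * w) * 2 ^ (2 * w + 2) := by
            rw [← pow_add, ← pow_add]; congr 1; omega
        _ ≤ (vc Q 0 - 1) * 2 ^ (2 * w + 2) := Nat.mul_le_mul_right _ hZlo
        _ ≤ L.cnum A * (2 ^ k * (2 ^ k - 1)) := h
        _ = _ := by ring
    have h3 : 1 < 2 ^ k := Nat.one_lt_pow (by omega) (by omega)
    have := Nat.le_of_mul_le_mul_right h2 (by omega)
    omega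
  simp only [not_exists, not_and, not_not] at hN
  obtain ⟨hE1, hts⟩ := spanSing_perp hN
  set E := Lev.spanSing Q (ann Q A) with hE
  set e := finrank F E with he
  have hEW : E ≤ Ws := Submodule.span_le.2 fun y hy => hy.1
  have hek : e ≤ k := Submodule.finrank_mono hEW
  have he0 : 1 ≤ e := by
    have : v0 ∈ E := Submodule.subset_span ⟨hv0, hQv0⟩
    exact Submodule.one_le_finrank_iff.2 fun h => hv00 (by rwa [h, Submodule.mem_bot] at this)
  have hew : e ≤ w + 1 := by
    have := two_mul_le_of_hasTS e Q hQ ⟨E, rfl, hts⟩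
    omega
  rcases Nat.lt_or_ge e 2 with he1 | he2
  · have he' : e = 1 := by omega
    obtain ⟨C, hC⟩ := Submodule.exists_isCompl E
    have hsum : E ⊔ (C ⊓ Ws) = Ws := by
      rw [← sup_inf_assoc_of_le C hEW, hC.sup_eq_top, top_inf_eq]
    have hC2 : finrank F (C ⊓ Ws : Submodule F M) ≤ 2 := by
      have h := card_le_of_anisotropic Q (C ⊓ Ws : Submodule F M).toAddSubgroup fun y hy hQy => by
        have hy' : y ∈ E ⊓ C := ⟨Submodule.subset_span ⟨hy.2, hQy⟩, hy.1⟩
        rwa [hC.inf_eq_bot, Submodule.mem_bot] at hy'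
      exact (Nat.pow_le_pow_iff_right (by omega : 1 < Nat.card F)).1
        ((Lev.card_submodule (C ⊓ Ws : Submodule F M)).symm.trans_le h)
    have hk3' : k = 3 := by
      have h := Submodule.finrank_add_le_finrank_add_finrank E (C ⊓ Ws)
      rw [hsum] at h
      omega
    have h := L.flip.enum_bound_points hQ hd5 hv0 hQv0 hv00
    rw [← hE, ← he, he', pow_one, hp] at h
    have h' : vc Q 0 - 1 ≤ L.cnum A * 1 :=
      h.trans (Nat.mul_le_mul_right _ ((L.flip.enum_le_cnum _).trans hcW.le))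
    have h2 : 2 ^ (2 * w + 3) ≤ L.cnum A * 2 ^ k := by
      calc 2 ^ (2 * w + 3) = 2 ^ (2 * w) * 2 ^ 3 := by ring
        _ ≤ L.cnum A * 2 ^ k := by
            rw [hk3']; exact Nat.mul_le_mul_right _ (by omega)
    omega
  have hpartner : ∀ v v' : M, IsHypPair Q (v, v') →
      2 * vc (q2 Q v v') 0 = (a + 4) * (a + 4) + (a + 4) := by
    intro v v' hvv
    have hs := vc_step' hvv (0 : F)
    rw [hd, hp, show 2 * w + 2 - 2 = 2 * w by omega, hZ, ea, e1, ha] at hs
    omega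
  obtain ⟨u1, u2, hu⟩ := exists_hypPair hQ (by omega : 3 ≤ finrank F M)
  set Z' := vc (q2 Q u1 u2) 0 with hZ'def
  have hZ'1 : 1 ≤ Z' := one_le_vc_zero _
  have hm : ∀ v v' : M, IsHypPair Q (v, v') → Z' - 1 + 1 ≤ vc (q2 Q v v') 0 := fun v v' h => by
    have h1 := hpartner v v' h
    have h2 := hpartner u1 u2 hu
    rw [← hZ'def] at h2
    omega
  have h1 := (singularPairs_lower (Q := Q) hQ (Z' - 1) hm).trans
    (L.flip.enum_bound_pairs hQ hd5 hts (by rw [← he]; exact he2))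
  rw [← hE, ← he, hp] at h1
  have h3 : 2 * (Z' - 1) = (a + 6) * (a + 3) := by
    have := hpartner u1 u2 hu
    rw [← hZ'def] at this
    ring_nf at this ⊢
    omega
  have hZ1 : vc Q 0 - 1 = (2 * a + 7) * (a + 5) := by
    rw [hZ, e1, ha]
    apply Nat.sub_eq_of_eq_add
    ring
  rw [hZ1, h3] at h1
  have henum := (L.flip.enum_le_cnum (ann Q A)).trans hcW.le
  rcases Nat.lt_or_ge e (w + 1) with hew' | hew'
  · have h2 : (2 * a + 7) * (a + 5) * ((a + 6) * (a + 3)) ≤ L.cnum A * ((a + 3) * (a + 2)) := by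
      refine h1.trans (Nat.mul_le_mul henum ?_)
      have : 2 ^ e ≤ a + 4 := ha ▸ Nat.pow_le_pow_right (by omega) (by omega)
      exact Nat.mul_le_mul (by omega) (by omega)
    have h4 : (a + 4) * (a + 4) ≤ L.cnum A := by
      by_contra hc
      have : L.cnum A * ((a + 3) * (a + 2)) < (a + 4) * (a + 4) * ((a + 3) * (a + 2)) :=
        Nat.mul_lt_mul_of_pos_right (by omega) (Nat.mul_pos (by omega) (by omega))
      nlinarith
    have h5 : 2 ^ (2 * w + 3) ≤ L.cnum A * 2 ^ k := by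
      calc 2 ^ (2 * w + 3) = 2 ^ (2 * w) * 2 ^ 3 := by ring
        _ ≤ L.cnum A * 2 ^ k :=
            Nat.mul_le_mul (ea ▸ h4) (Nat.pow_le_pow_right (by omega) hk3)
    omega
  · have he' : 2 ^ e = 2 * (a + 4) := by rw [show e = w + 1 by omega, pow_succ, ha, mul_comm]
    rw [he', show 2 * (a + 4) - 1 = 2 * a + 7 by omega, show 2 * (a + 4) - 2 = 2 * (a + 3) by omega]
      at h1
    have h2 : (2 * a + 7) * (a + 3) * ((a + 5) * (a + 6))
        ≤ (2 * a + 7) * (a + 3) * (2 * L.cnum A) := by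
      calc _ = (2 * a + 7) * (a + 5) * ((a + 6) * (a + 3)) := by ring
        _ ≤ _ := h1
        _ ≤ L.cnum A * ((2 * a + 7) * (2 * (a + 3))) := Nat.mul_le_mul_right _ henum
        _ = _ := by ring
    have h4 := Nat.le_of_mul_le_mul_left h2 (Nat.mul_pos (by omega) (by omega))
    have h5 : 2 * (a + 4) ≤ 2 ^ k := he' ▸ Nat.pow_le_pow_right (by omega) hek
    have h6 : (a + 5) * (a + 6) * (a + 4) ≤ L.cnum A * 2 ^ k := by
      calc _ ≤ 2 * L.cnum A * (a + 4) := Nat.mul_le_mul_right _ h4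
        _ = L.cnum A * (2 * (a + 4)) := by ring
        _ ≤ _ := Nat.mul_le_mul_left _ h5
    have h7 : 2 ^ (2 * w + 2) = 4 * ((a + 4) * (a + 4)) := by
      rw [show 2 ^ (2 * w + 2) = 4 * 2 ^ (2 * w) by ring, ea]
    rw [h7] at hlt
    rw [e1, ha] at hN1
    nlinarith [Nat.zero_le (a * a), Nat.zero_le (a * (a * a))]

end CfsgLib.MinIndexOrth
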