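import Cfsg.Agent.Lib.MinIndex.Orth.SmallBounds
import Cfsg.Agent.Lib.MinIndex.Orth.Classify

/-!
Classification of the subgroups with a short orbit for elliptic spaces over the fields with two and
three elements: the annihilator is a line.
-/

set_option autoImplicit false
set_option linter.unusedSectionVars false

namespace CfsgLib.MinIndexOrth

open QuadraticMap Module CfsgLib.ClassicalForms

variable {F : Type*} [Field F] [Finite F] {M : Type*} [AddCommGroup M] [Module F M]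
  [FiniteDimensional F M] [Finite M] {Q : QuadraticForm F M}

/-- The data of an elliptic space of dimension `2w+2`. -/
structure MinusQ (Q : QuadraticForm F M) (w : ℕ) : Prop where
  dim : finrank F M = 2 * w + 2
  two_le : 2 ≤ w
  zeros : vc Q 0 + Nat.card F ^ (w + 1) = Nat.card F ^ (2 * w + 1) + Nat.card F ^ w
  val : ∀ a : F, a ≠ 0 → vc Q 0 ≤ vc Q a

/-- Additive subgroups are subspaces over a prime field. -/
lemma smul_mem_of_prime {p : ℕ} [Fact p.Prime] [CharP F p] (hp : Nat.card F = p)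
    (A : AddSubgroup M) (c : F) {x : M} (hx : x ∈ A) : c • x ∈ A := by
  have := Fintype.ofFinite F
  have hb : Function.Bijective (ZMod.castHom (dvd_refl p) F) := by
    rw [Fintype.bijective_iff_injective_and_card]
    exact ⟨ZMod.castHom_injective F, by rw [ZMod.card, ← hp, Nat.card_eq_fintype_card]⟩
  obtain ⟨n, rfl⟩ := hb.2 c
  rw [show (ZMod.castHom (dvd_refl p) F) n = ((n.val : ℕ) : F) by
    rw [← map_natCast (ZMod.castHom (dvd_refl p) F), ZMod.natCast_zmod_val], Nat.cast_smul_eq_nsmul]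
  exact nsmul_mem hx _

/-- An additive subgroup as a subspace. -/
def toSub {p : ℕ} [Fact p.Prime] [CharP F p] (hp : Nat.card F = p) (A : AddSubgroup M) :
    Submodule F M where
  carrier := A
  add_mem' := A.add_mem
  zero_mem' := A.zero_mem
  smul_mem' c _ hx := smul_mem_of_prime hp A c hx

lemma minus_numbers {q w Z : ℕ} (hq : q = 2 ∨ q = 3) (hw : 2 ≤ w)
    (hZ : Z + q ^ (w + 1) = q ^ (2 * w + 1) + q ^ w) :
    Z - 1 = (q ^ (w + 1) + 1) * (q ^ w - 1) ∧ q ^ (2 * w) ≤ Z - 1 ∧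
      q ^ 2 * ((q ^ 2 - 1) * (q ^ 2 - q)) ≤ (q - 1) * (Z - 1) := by
  obtain ⟨b, hb⟩ : ∃ b, q ^ w = b + 4 := ⟨q ^ w - 4, by
    have : 2 ^ 2 ≤ q ^ w := le_trans (Nat.pow_le_pow_left (by omega) 2)
      (Nat.pow_le_pow_right (by omega) hw)
    omega⟩
  have e1 : q ^ (2 * w) = (b + 4) * (b + 4) := by rw [two_mul, pow_add, hb]
  have e2 : q ^ (w + 1) = (b + 4) * q := by rw [pow_succ, hb]
  have e3 : q ^ (2 * w + 1) = (b + 4) * (b + 4) * q := by rw [pow_succ, e1]
  have hb9 : q = 3 → 5 ≤ b := fun h => by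
    have : 3 ^ 2 ≤ q ^ w := by rw [h]; exact Nat.pow_le_pow_right (by omega) hw
    omega
  rw [e2, e3, hb] at hZ
  rw [e1, e2, hb, show b + 4 - 1 = b + 3 by omega]
  rcases hq with rfl | rfl
  · simp only [show (2 : ℕ) - 1 = 1 from rfl, one_mul,
      show ((2 : ℕ) ^ 2 * ((2 ^ 2 - 1) * (2 ^ 2 - 2))) = 24 from rfl]
    have hZ' : Z = 2 * (b * b) + 15 * b + 28 := by ring_nf at hZ ⊢; omega
    subst hZ'
    refine ⟨by ring_nf; omega, ?_, by omega⟩
    ring_nf; omega
  · have := hb9 rfl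
    obtain ⟨c, rfl⟩ : ∃ c, b = c + 5 := ⟨b - 5, by omega⟩
    simp only [show (3 : ℕ) - 1 = 2 from rfl,
      show ((3 : ℕ) ^ 2 * ((3 ^ 2 - 1) * (3 ^ 2 - 3))) = 432 from rfl]
    have hZ' : Z = 3 * (c * c) + 52 * c + 225 := by ring_nf at hZ ⊢; omega
    subst hZ'
    refine ⟨by ring_nf; omega, ?_, by omega⟩
    ring_nf; omega

/-- The classification over a small field. -/
theorem classify_small {p : ℕ} [Fact p.Prime] [CharP F p] (L : Lev Q) (hQ : Nondeg Q) {w : ℕ}
    (hM : MinusQ Q w) (hp : Nat.card F = p) (hp3 : p ≤ 3) {A : AddSubgroup M} (hA0 : A ≠ ⊥)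
    (hA1 : A ≠ ⊤)
    (hlt : (Nat.card F - 1) * (L.cnum A * Nat.card (ann Q A))
      < (Nat.card F - 1) * (1 + Nat.card F ^ finrank F M) + Nat.card F * (vc Q 0 - 1)) :
    Small F M p (Nat.card (ann Q A)) ∧
      Nat.card F * (vc Q 0 - 1) ≤ (Nat.card F - 1) * (L.cnum A * Nat.card (ann Q A)) := by
  obtain ⟨hd, hw, hZ, hval⟩ := hM
  have hd5 : 5 ≤ finrank F M := by omega
  have hq : Nat.card F = 2 ∨ Nat.card F = 3 := by
    have := (Fact.out : p.Prime).two_le
    omega
  obtain ⟨hZ1, hZlo, hZpl⟩ := minus_numbers hq hw hZ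
  have hval1 : ∀ a : F, a ≠ 0 → vc Q 0 - 1 ≤ vc Q a := fun a ha =>
    (Nat.sub_le _ _).trans (hval a ha)
  set q := Nat.card F with hqdef
  have hq2 : 2 ≤ q := by omega
  have hlt' : (q - 1) * (L.cnum A * Nat.card (ann Q A)) < q ^ (2 * w + 3) := by
    refine lt_of_lt_of_le hlt ?_
    rw [hd, show q ^ (2 * w + 3) = q * q ^ (2 * w + 2) by ring]
    have h1 : q * (vc Q 0 - 1) + q ^ (w + 2) ≤ q ^ (2 * w + 2) + q ^ (w + 1) := by
      have : q * (vc Q 0 + q ^ (w + 1)) = q * (q ^ (2 * w + 1) + q ^ w) := congrArg (q * ·) hZ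
      have h2 : q * (vc Q 0 - 1) ≤ q * vc Q 0 := Nat.mul_le_mul_left _ (Nat.sub_le _ _)
      ring_nf at this h2 ⊢
      omega
    have h3 : q ^ (w + 1) + q ≤ q ^ (w + 2) := by
      have : q ≤ q ^ (w + 1) := Nat.le_self_pow (by omega) _
      rw [pow_succ q (w + 1)]
      calc q ^ (w + 1) + q ≤ q ^ (w + 1) + q ^ (w + 1) := by omega
        _ = q ^ (w + 1) * 2 := by ring
        _ ≤ _ := Nat.mul_le_mul_left _ hq2
    rw [mul_add (q - 1) 1, mul_one]
    have h4 : q * q ^ (2 * w + 2) = (q - 1) * q ^ (2 * w + 2) + q ^ (2 * w + 2) := by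
      rw [← Nat.add_one_mul, Nat.sub_add_cancel (by omega : 1 ≤ q)]
    omega
  set Ws := toSub hp (ann Q A) with hWs
  set As := toSub hp A with hAs
  have hWc : Nat.card (ann Q A) = q ^ finrank F Ws := Lev.card_submodule Ws
  have hAc : Nat.card A = q ^ finrank F As := Lev.card_submodule As
  set k := finrank F Ws
  set k' := finrank F As
  have hkk : k' + k = 2 * w + 2 := by
    have h := card_ann hQ A
    rw [hWc, hAc, ← pow_add, hd] at h
    exact Nat.pow_right_injective hq2 h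
  have hk'0 : 1 ≤ k' := by
    by_contra h
    refine hA0 ((AddSubgroup.eq_bot_iff_card _).2 ?_)
    rw [hAc, show k' = 0 by omega, pow_zero]
  have hk0 : 1 ≤ k := by
    by_contra h
    refine hA1 (AddSubgroup.eq_top_of_card_eq A ?_)
    rw [hAc, show k' = 2 * w + 2 by omega, ← hd]
    exact card_eq_pow.symm
  have hcW : L.flip.cnum (ann Q A) = L.cnum A := L.cnum_ann hQ A
  have hWne : ann Q A ≠ ⊥ := fun h => by
    rw [h, AddSubgroup.card_bot] at hWc
    have := Nat.one_lt_pow (by omega : k ≠ 0) (by omega : 1 < q)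
    omega
  rcases Nat.lt_or_ge k 2 with hk | hk
  · have hk1 : k = 1 := by omega
    rw [hWc, hk1, pow_one]
    refine ⟨?_, ?_⟩
    · show q * q < q ^ (finrank F M - 2) * p * p
      rw [hd, show 2 * w + 2 - 2 = 2 * w by omega, ← hp]
      calc q * q = 1 * (q * q) := (one_mul _).symm
        _ < q ^ (2 * w) * (q * q) :=
            Nat.mul_lt_mul_of_pos_right (Nat.one_lt_pow (by omega) (by omega))
              (Nat.mul_pos (by omega) (by omega))
        _ = _ := by ring
    · have h := L.flip.vec_bound hQ hd5 le_rfl hval1 hWne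
      rw [hcW, hWc, hk1, pow_one] at h
      calc q * (vc Q 0 - 1) ≤ q * (L.cnum A * (q - 1)) := Nat.mul_le_mul_left _ h
        _ = _ := by ring
  exfalso
  rw [hWc] at hlt'
  have hs2 : q ^ 2 ≤ q ^ k := Nat.pow_le_pow_right (by omega) hk
  by_cases hk'1 : k' = 1
  · have h := L.vec_bound hQ hd5 le_rfl hval1 hA0
    rw [hAc, hk'1, pow_one] at h
    have h2 : q ^ (2 * w + 3) ≤ (q - 1) * (L.cnum A * q ^ k) := by
      calc q ^ (2 * w + 3) = q ^ 2 * q ^ (2 * w + 1) := by ring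
        _ ≤ (vc Q 0 - 1) * q ^ k := by
            rw [show k = 2 * w + 1 by omega]
            exact Nat.mul_le_mul_right _ (le_trans (Nat.pow_le_pow_right (by omega) (by omega)) hZlo)
        _ ≤ L.cnum A * (q - 1) * q ^ k := Nat.mul_le_mul_right _ h
        _ = _ := by ring
    omega
  by_cases hk22 : k' = 2 ∨ k = 2
  · have h : (vc Q 0 - 1) * q ^ (2 * w + 2 - 3)
        ≤ L.cnum A * ((q ^ 2 - 1) * (q ^ 2 - q)) := by
      rcases hk22 with hk22 | hk22
      · have := L.plane_bound hQ hd5 le_rfl hval1 As hk22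
        rwa [hd] at this
      · have := L.flip.plane_bound hQ hd5 le_rfl hval1 Ws hk22
        rwa [hd, show Ws.toAddSubgroup = ann Q A from rfl, hcW] at this
    set K := (q ^ 2 - 1) * (q ^ 2 - q) with hK
    have hK0 : 0 < K := by
      rw [hK]
      rcases hq with hq' | hq' <;> rw [hq'] <;> norm_num
    have h2 : q ^ (2 * w + 3) * K ≤ (q - 1) * (L.cnum A * q ^ k) * K := by
      calc q ^ (2 * w + 3) * K = q ^ (2 * w - 1) * q ^ 2 * (q ^ 2 * K) := by
            rw [show q ^ (2 * w + 3) = q ^ (2 * w - 1) * q ^ 2 * q ^ 2 by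
              rw [← pow_add, ← pow_add]; congr 1; omega]
            ring
        _ ≤ q ^ (2 * w - 1) * q ^ k * ((q - 1) * (vc Q 0 - 1)) :=
            Nat.mul_le_mul (Nat.mul_le_mul_left _ hs2) hZpl
        _ = (q - 1) * ((vc Q 0 - 1) * q ^ (2 * w + 2 - 3)) * q ^ k := by
            rw [show 2 * w + 2 - 3 = 2 * w - 1 by omega]; ring
        _ ≤ (q - 1) * (L.cnum A * K) * q ^ k :=
            Nat.mul_le_mul_right _ (Nat.mul_le_mul_left _ h)
        _ = _ := by ring
    have := Nat.le_of_mul_le_mul_right h2 hK0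
    omega
  simp only [not_or] at hk22
  have hk3 : 3 ≤ k := by omega
  have hkd : k + 3 ≤ 2 * w + 2 := by omega
  obtain ⟨v0, hv0, hQv0, hv00⟩ : ∃ v ∈ ann Q A, Q v = 0 ∧ v ≠ 0 := by
    by_contra hcon
    simp only [not_exists, not_and, not_not] at hcon
    have := card_le_of_anisotropic Q (ann Q A) fun x hx h => hcon x hx h
    rw [hWc] at this
    have := (Nat.pow_le_pow_iff_right (by omega : 1 < q)).1 this
    omega
  by_cases hN : ∃ v ∈ ann Q A, Q v = 0 ∧ ∃ x ∈ ann Q A, polar Q v x ≠ 0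
  · obtain ⟨v, hv, hQv, x, hx, hvx⟩ := hN
    have h := L.flip.nonperp_full hQ hd5 (fun c y hy => smul_mem_of_prime hp _ c hy) hv hx hQv hvx
    rw [hcW, hWc, hd] at h
    have h2 : q ^ (2 * w + 3) * (q ^ k - 1) ≤ (q - 1) * (L.cnum A * q ^ k) * (q ^ k - 1) := by
      calc q ^ (2 * w + 3) * (q ^ k - 1) ≤ q ^ (2 * w + 3) * q ^ (2 * w - 1) :=
            Nat.mul_le_mul_left _ ((Nat.sub_le _ _).trans (Nat.pow_le_pow_right (by omega) (by omega)))
        _ = 1 * q ^ (2 * w) * q ^ (2 * w + 2) := by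
            rw [one_mul, ← pow_add, ← pow_add]; congr 1; omega
        _ ≤ (q - 1) * (vc Q 0 - 1) * q ^ (2 * w + 2) :=
            Nat.mul_le_mul_right _ (Nat.mul_le_mul (by omega) hZlo)
        _ = (q - 1) * ((vc Q 0 - 1) * q ^ (2 * w + 2)) := by ring
        _ ≤ (q - 1) * (L.cnum A * (q ^ k * (q ^ k - 1))) := Nat.mul_le_mul_left _ h
        _ = _ := by ring
    have h3 : 1 < q ^ k := Nat.one_lt_pow (by omega) (by omega)
    have := Nat.le_of_mul_le_mul_right h2 (by omega)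
    omega
  simp only [not_exists, not_and, not_not] at hN
  obtain ⟨hE1, hts⟩ := spanSing_perp hN
  set E := Lev.spanSing Q (ann Q A) with hE
  set e := finrank F E with he
  have hEW : E ≤ Ws := Submodule.span_le.2 fun y hy => hy.1
  have he0 : 1 ≤ e := by
    have : v0 ∈ E := Submodule.subset_span ⟨hv0, hQv0⟩
    exact Submodule.one_le_finrank_iff.2 fun h => hv00 (by rwa [h, Submodule.mem_bot] at this)
  have hew : e ≤ w := by
    have := two_mul_le_of_hasTS e Q hQ ⟨E, rfl, hts⟩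
    rcases Nat.lt_or_ge e (w + 1) with h | h
    · omega
    exfalso
    have h2 := vc_zero_hyperbolic w Q hQ (by omega) ⟨E, by omega, hts⟩
    have h1 : q ^ w < q ^ (w + 1) := Nat.pow_lt_pow_right (by omega) (by omega)
    rw [← hqdef] at h2
    omega
  rcases Nat.lt_or_ge e 2 with he1 | he2
  · have he' : e = 1 := by omega
    obtain ⟨C, hC⟩ := Submodule.exists_isCompl E
    have hsum : E ⊔ (C ⊓ Ws) = Ws := by
      rw [← sup_inf_assoc_of_le C hEW, hC.sup_eq_top, top_inf_eq]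
    have hC2 : finrank F (C ⊓ Ws : Submodule F M) ≤ 2 := by
      have h := card_le_of_anisotropic Q (C ⊓ Ws : Submodule F M).toAddSubgroup fun y hy hQy => by
        have hy' : y ∈ E ⊓ C := ⟨Submodule.subset_span ⟨hy.2, hQy⟩, hy.1⟩
        rwa [hC.inf_eq_bot, Submodule.mem_bot] at hy'
      exact (Nat.pow_le_pow_iff_right (by omega : 1 < q)).1
        ((Lev.card_submodule (C ⊓ Ws : Submodule F M)).symm.trans_le h)
    have hk3' : k = 3 := by
      have h := Submodule.finrank_add_le_finrank_add_finrank E (C ⊓ Ws)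
      rw [hsum] at h
      omega
    have h := L.flip.enum_bound_points hQ hd5 hv0 hQv0 hv00
    rw [← hE, ← he, he', pow_one] at h
    have h' : vc Q 0 - 1 ≤ L.cnum A * (q - 1) :=
      h.trans (Nat.mul_le_mul_right _ ((L.flip.enum_le_cnum _).trans hcW.le))
    have h2 : q ^ (2 * w + 3) ≤ (q - 1) * (L.cnum A * q ^ k) := by
      calc q ^ (2 * w + 3) = q ^ (2 * w) * q ^ 3 := by ring
        _ ≤ L.cnum A * (q - 1) * q ^ k := by
            rw [hk3']; exact Nat.mul_le_mul_right _ (hZlo.trans h')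
        _ = _ := by ring
    omega
  obtain ⟨bw, hbw⟩ : ∃ bw, q ^ w = bw + q + 1 := ⟨q ^ w - q - 1, by
    have : q * 2 ≤ q ^ w := le_trans (by rw [pow_two]; exact Nat.mul_le_mul_left _ hq2)
      (Nat.pow_le_pow_right (by omega) hw)
    omega⟩
  have hpartner : ∀ v v' : M, IsHypPair Q (v, v') →
      q * vc (q2 Q v v') 0 + q ^ (w + 1) = q ^ (2 * w) + q ^ w := by
    intro v v' hvv
    have hs := vc_step' hvv (0 : F)
    rw [hd, ← hqdef, show 2 * w + 2 - 2 = 2 * w by omega] at hs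
    obtain ⟨r, hr⟩ : ∃ r, q = r + 1 := ⟨q - 1, by omega⟩
    rw [hr, Nat.add_sub_cancel] at hs
    rw [hr] at hZ ⊢
    rw [hs, show (r + 1) ^ (2 * w + 1) = r * (r + 1) ^ (2 * w) + (r + 1) ^ (2 * w) by ring] at hZ
    omega
  obtain ⟨v1, -, hv10⟩ := Submodule.exists_mem_ne_zero_of_ne_bot
    (show E ≠ ⊥ from fun h => by rw [h, finrank_bot] at he; omega)
  obtain ⟨u1, u2, hu⟩ := exists_hypPair hQ (by omega : 3 ≤ finrank F M)
  set Z' := vc (q2 Q u1 u2) 0 with hZ'def
  have hZ'1 : 1 ≤ Z' := one_le_vc_zero _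
  have hm : ∀ v v' : M, IsHypPair Q (v, v') → Z' - 1 + 1 ≤ vc (q2 Q v v') 0 := fun v v' h => by
    have h1 := hpartner v v' h
    have h2 := hpartner u1 u2 hu
    rw [← hZ'def] at h2
    have h3 : q * Z' = q * vc (q2 Q v v') 0 := by omega
    have := Nat.eq_of_mul_eq_mul_left (by omega) h3
    omega
  have h1 := (singularPairs_lower (Q := Q) hQ (Z' - 1) hm).trans
    (L.flip.enum_bound_pairs hQ hd5 hts (by rw [← he]; exact he2))
  rw [← hE, ← he, ← hqdef] at h1
  have h2 : (vc Q 0 - 1) * (q * (Z' - 1)) ≤ L.cnum A * ((q ^ w - 1) * (q ^ w - q)) :=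
    h1.trans (Nat.mul_le_mul ((L.flip.enum_le_cnum _).trans hcW.le) (Nat.mul_le_mul
      (Nat.sub_le_sub_right (Nat.pow_le_pow_right (by omega) hew) 1)
      (Nat.sub_le_sub_right (Nat.pow_le_pow_right (by omega) hew) q)))
  have h3 : q * (Z' - 1) = (q ^ w + 1) * (q ^ w - q) := by
    have := hpartner u1 u2 hu
    rw [← hZ'def, show q ^ (2 * w) = q ^ w * q ^ w by rw [two_mul, pow_add],
      show q ^ (w + 1) = q ^ w * q from pow_succ q w, hbw] at this
    rw [hbw, Nat.mul_sub, mul_one, show bw + q + 1 - q = bw + 1 by omega]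
    apply Nat.sub_eq_of_eq_add
    ring_nf at this ⊢
    omega
  rw [hZ1, h3] at h2
  have hpos : 0 < (q ^ w - 1) * (q ^ w - q) := Nat.mul_pos (by omega) (by omega)
  have h4 : (q ^ (w + 1) + 1) * (q ^ w + 1) ≤ L.cnum A :=
    Nat.le_of_mul_le_mul_right (le_trans (le_of_eq (by ring)) h2) hpos
  have h5 : q ^ (2 * w + 3) ≤ (q - 1) * (L.cnum A * q ^ k) := by
    calc q ^ (2 * w + 3) = 1 * (q ^ (w + 1) * q ^ w * q ^ 2) := by ring
      _ ≤ (q - 1) * (L.cnum A * q ^ k) := Nat.mul_le_mul (by omega) (Nat.mul_le_mul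
          (le_trans (Nat.mul_le_mul (Nat.le_succ _) (Nat.le_succ _)) h4) hs2)
  omega

end CfsgLib.MinIndexOrth
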