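import Cfsg.Agent.Lib.MinIndex.Orth.Main
import Cfsg.Agent.Lib.MinIndex.Orth.SmallClassify

/-!
Over the fields with two and three elements a regular root group is impossible: an element of order
prime to the characteristic, acting without fixed vectors on two hyperbolic planes, commutes with a
root element inside those planes, which then fixes a point.
-/

set_option autoImplicit false
set_option linter.unusedSectionVars false

namespace CfsgLib.MinIndexOrth

open QuadraticMap Module CfsgLib.ClassicalForms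

variable {F V : Type*} [Field F] [Finite F] [AddCommGroup V] [Module F V]
  [FiniteDimensional F V] {Q : QuadraticForm F V}

/-- An element that is the identity on the orthogonal complement of two mutually orthogonal pairs and
fixes the four vectors is trivial. -/
lemma eq_one_of_fix_four {v v' y y' : V} (hv : IsHypPair Q (v, v')) (hy : IsHypPair Q (y, y'))
    (h1 : polar Q v y = 0) (h2 : polar Q v y' = 0) (h3 : polar Q v' y = 0)
    (h4 : polar Q v' y' = 0) {g : siegelGroup Q} (gv : ap g v = v) (gv' : ap g v' = v')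
    (gy : ap g y = y) (gy' : ap g y' = y')
    (gR : ∀ r, polar Q v r = 0 → polar Q v' r = 0 → polar Q y r = 0 → polar Q y' r = 0 →
      ap g r = r) : g = 1 := by
  refine Subtype.ext (orth_ext fun z => ?_)
  show ap g z = ap 1 z
  rw [ap_one]
  set z1 := (proj2 hv z : V) with hz1
  obtain ⟨a1, a2⟩ := mem_perp2.1 (proj2 hv z).2
  obtain ⟨b1, b2⟩ := mem_perp2.1 (proj2 hy z1).2
  have c1 : polar Q v (proj2 hy z1 : V) = 0 := by
    rw [coe_proj2, polar_sub_right, polar_sub_right, polar_smul_right, polar_smul_right, hz1, a1,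
      h1, h2]
    simp
  have c2 : polar Q v' (proj2 hy z1 : V) = 0 := by
    rw [coe_proj2, polar_sub_right, polar_sub_right, polar_smul_right, polar_smul_right, hz1, a2,
      h3, h4]
    simp
  conv_lhs => rw [decomp2 hv z, ← hz1, decomp2 hy z1]
  simp only [map_add, map_smul, gv, gv', gy, gy', gR _ c1 c2 b1 b2]
  rw [← decomp2 hy z1, hz1, ← decomp2 hv z]

/-- The two root elements whose product rotates both planes. -/
lemma rot_apply {v v' y y' : V} (hv : IsHypPair Q (v, v')) (hy : IsHypPair Q (y, y'))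
    (h1 : polar Q v y = 0) (h2 : polar Q v y' = 0) (h3 : polar Q v' y = 0)
    (h4 : polar Q v' y' = 0) :
    ap (root Q y v' * root Q v y') v = v - y ∧ ap (root Q y v' * root Q v y') y = (2 : F) • y - v ∧
      ap (root Q y v' * root Q v y') v' = (2 : F) • v' + y' ∧
      ap (root Q y v' * root Q v y') y' = y' + v' ∧
      ∀ r, polar Q v r = 0 → polar Q v' r = 0 → polar Q y r = 0 → polar Q y' r = 0 →
        ap (root Q y v' * root Q v y') r = r := by
  have h1' : polar Q y v = 0 := by rw [polar_comm]; exact h1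
  have h2' : polar Q y' v = 0 := by rw [polar_comm]; exact h2
  have h3' : polar Q y v' = 0 := by rw [polar_comm]; exact h3
  have h4' : polar Q y' v' = 0 := by rw [polar_comm]; exact h4
  have hv'v : polar Q v' v = 1 := by rw [polar_comm]; exact hv.2.2
  have hy'y : polar Q y' y = 1 := by rw [polar_comm]; exact hy.2.2
  refine ⟨?_, ?_, ?_, ?_, fun r r1 r2 r3 r4 => ?_⟩
  all_goals rw [ap_mul, ap_root hv.1 h2, ap_root hy.1 h3']
  all_goals simp [polar_add_left, polar_sub_left, polar_smul_left, polar_add_right, polar_sub_right,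
    polar_smul_right, polar_self_mul, hv.1, hv.2.1, hv.2.2, hy.1, hy.2.1, hy.2.2, h1, h2, h3, h4,
    h1', h2', h3', h4', hv'v, hy'y, two_smul]
  · abel
  · abel
  · rw [polar_comm Q r v, polar_comm Q r y', polar_comm Q r y, polar_comm Q r v', r1, r2, r3, r4]
    simp

lemma rot_comm {v v' y y' : V} (hv : IsHypPair Q (v, v')) (hy : IsHypPair Q (y, y'))
    (h1 : polar Q v y = 0) (h2 : polar Q v y' = 0) (h3 : polar Q v' y = 0) :
    root Q y v' * root Q v y' * root Q v y = root Q v y * (root Q y v' * root Q v y') := by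
  have h1' : polar Q y v = 0 := by rw [polar_comm]; exact h1
  have h2' : polar Q y' v = 0 := by rw [polar_comm]; exact h2
  have h3' : polar Q y v' = 0 := by rw [polar_comm]; exact h3
  have hvv : polar Q v v = 0 := by rw [polar_self_mul, hv.1, mul_zero]
  have hyy : polar Q y y = 0 := by rw [polar_self_mul, hy.1, mul_zero]
  have a1 : ap (root Q y v') v = v + (-1 : F) • y := by
    rw [ap_root hy.1 h3', h1]
    simp [hv.2.2]
    abel
  have a2 : ap (root Q y v') y = y := by
    rw [ap_root hy.1 h3', hyy, h3']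
    simp
  have b1 : ap (root Q v y') v = v := by
    rw [ap_root hv.1 h2, hvv, h2]
    simp
  have b2 : ap (root Q v y') y = y + (-1 : F) • v := by
    rw [ap_root hv.1 h2, h1', hy.2.2]
    simp
    abel
  have hQa : Q (v + (-1 : F) • y) = 0 := by
    simp [QuadraticMap.map_add ⇑Q, QuadraticMap.map_smul, polar_smul_right, hv.1, hy.1, h1]
  have ca : root Q y v' * root Q v y = root Q v y * root Q y v' := by
    have h := root_conj (root Q y v') v y
    rw [a1, a2, ← root_swap hQa hy.1, neg_add, ← neg_smul, neg_neg, one_smul,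
      show -v + y = -v + (1 : F) • y by rw [one_smul],
      root_add_smul hy.1 (by rw [polar_neg_right, h1', neg_zero]), root_swap hv.1 hy.1,
      mul_inv_eq_iff_eq_mul] at h
    exact h
  have cb : root Q v y' * root Q v y = root Q v y * root Q v y' := by
    have h := root_conj (root Q v y') v y
    rw [b1, b2, root_add_smul hv.1 h1, mul_inv_eq_iff_eq_mul] at h
    exact h
  rw [mul_assoc, cb, ← mul_assoc, ca, mul_assoc]

lemma rot_pow {v v' y y' : V} (hv : IsHypPair Q (v, v')) (hy : IsHypPair Q (y, y'))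
    (h1 : polar Q v y = 0) (h2 : polar Q v y' = 0) (h3 : polar Q v' y = 0)
    (h4 : polar Q v' y' = 0) :
    ((2 : F) = 0 → (root Q y v' * root Q v y') ^ 3 = 1) ∧
      ((3 : F) = 0 → (root Q y v' * root Q v y') ^ 4 = 1) := by
  obtain ⟨tv, ty, tv', ty', tR⟩ := rot_apply hv hy h1 h2 h3 h4
  set t := root Q y v' * root Q v y'
  refine ⟨fun hc => ?_, fun hc => ?_⟩
  all_goals refine eq_one_of_fix_four hv hy h1 h2 h3 h4 ?_ ?_ ?_ ?_ fun r r1 r2 r3 r4 => ?_
  all_goals simp only [pow_succ, pow_zero, one_mul, ap_mul, tv, ty, tv', ty', map_add, map_sub,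
    map_smul]
  all_goals first
    | rw [tR r r1 r2 r3 r4, tR r r1 r2 r3 r4, tR r r1 r2 r3 r4, tR r r1 r2 r3 r4]
    | rw [tR r r1 r2 r3 r4, tR r r1 r2 r3 r4, tR r r1 r2 r3 r4]
    | skip
  all_goals match_scalars
  all_goals first
    | linear_combination (0 : F) * hc
    | linear_combination (-4 : F) * hc
    | linear_combination (2 : F) * hc
    | linear_combination (4 : F) * hc
    | linear_combination (-2 : F) * hc
    | linear_combination (3 : F) * hc
    | linear_combination (-3 : F) * hc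
    | linear_combination (6 : F) * hc
    | linear_combination (-6 : F) * hc
    | linear_combination (7 : F) * hc
    | linear_combination (-7 : F) * hc
    | linear_combination (11 : F) * hc
    | linear_combination (-11 : F) * hc

/-- The abstract form: an orthogonal piece on which the stabiliser of the six vectors fixes `r0`. -/
theorem eq_zero_of_invariant_aux {R : Type*} [AddCommGroup R] [Module F R] [FiniteDimensional F R]
    (hQ : Nondeg Q) (hn : 8 ≤ finrank F V) {Q2 : QuadraticForm F R} (hQ2 : Nondeg Q2)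
    {x x' v v' y y' : V} (hd4' : finrank F R + 6 = finrank F V)
    (hpv : IsHypPair Q (v, v')) (hpy : IsHypPair Q (y, y'))
    (h1 : polar Q v y = 0) (h2 : polar Q v y' = 0) (h3 : polar Q v' y = 0)
    (hxv : v ∈ perp2 Q x x') (hxy : y ∈ perp2 Q x x')
    (hnoTS : ¬ (finrank F V = 8 ∧ ∃ E : Submodule F V, E ≤ perp2 Q x x' ∧ finrank F E = 3 ∧
      ∀ z ∈ E, Q z = 0))
    (ι : R →ₗ[F] V) (hιinj : Function.Injective ι)
    (hιmem : ∀ a : R, polar Q x (ι a) = 0 ∧ polar Q x' (ι a) = 0 ∧ polar Q v (ι a) = 0 ∧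
      polar Q v' (ι a) = 0 ∧ polar Q y (ι a) = 0 ∧ polar Q y' (ι a) = 0)
    (hQι : ∀ a : R, Q (ι a) = Q2 a) (hpι : ∀ a b : R, polar Q (ι a) (ι b) = polar Q2 a b)
    {r : V} (r0 : R) (hr0r : ι r0 = r)
    (hinv : ∀ g : siegelGroup Q, ap g x = x → ap g x' = x' → ap g v = v → ap g v' = v' →
      ap g y = y → ap g y' = y' → ap g r = r) : r0 = 0 := by
  have : Finite V := Module.finite_of_finite F
  by_cases hsing : ∃ e : R, Q2 e = 0 ∧ e ≠ 0
  · by_cases hd4 : 3 ≤ finrank F R
    · have hperp : ∀ e : R, Q2 e = 0 → e ≠ 0 → polar Q2 r0 e = 0 := by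
        intro e he he0
        by_contra hne
        obtain ⟨e', -, hp⟩ := (Sec.top Q2).exists_partner hQ2 (Sec.mem_top e) he he0
        have hr5 := finrank_perp2 hp
        obtain ⟨m, hm⟩ : ∃ m : perp2 Q2 e e', m ≠ 0 := by
          have : Nontrivial (perp2 Q2 e e') :=
            Module.nontrivial_of_finrank_pos (R := F) (by omega)
          exact exists_ne 0
        obtain ⟨m1, m2⟩ := mem_perp2.1 m.2
        have hem : polar Q (ι e) (ι m) = 0 := by rw [hpι]; exact m1
        have hQe : Q (ι e) = 0 := by rw [hQι]; exact he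
        have hfix : ∀ a, polar Q a (ι e) = 0 → polar Q a (ι m) = 0 →
            ap (root Q (ι e) (ι m)) a = a := fun a a1 a2 => ap_root_fix hQe hem a1 a2
        obtain ⟨e1, e2, e3, e4, e5, e6⟩ := hιmem e
        obtain ⟨n1, n2, n3, n4, n5, n6⟩ := hιmem m
        have h := hinv (root Q (ι e) (ι m)) (hfix x e1 n1) (hfix x' e2 n2) (hfix v e3 n3)
          (hfix v' e4 n4) (hfix y e5 n5) (hfix y' e6 n6)
        rw [ap_root hQe hem, ← hr0r, hpι, hpι, hQι, add_sub_assoc, add_eq_left, ← map_smul,
          ← map_smul, ← map_sub, map_eq_zero_iff ι hιinj] at h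
        have h' := congrArg (polar Q2 e') h
        rw [polar_zero_right, polar_sub_right, polar_smul_right, polar_smul_right, m2,
          smul_zero, zero_sub, neg_eq_zero, polar_comm Q2 e' e, hp.2.2, smul_eq_mul, mul_one] at h'
        rw [h', zero_smul] at h
        exact hm (Subtype.ext ((smul_eq_zero.1 ((sub_zero _).symm.trans h)).resolve_left hne))
      refine hQ2 _ fun z => ?_
      by_cases hz : z = 0
      · rw [hz, polar_zero_right]
      obtain ⟨e, -, he, hez⟩ := (Sec.top Q2).exists_singular_polar_one hQ2 (by omega)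
        (Sec.mem_top z) hz
      have hs : Q2 (z - Q2 z • e) = 0 := by
        rw [map_sub_eq, QuadraticMap.map_smul, he, smul_zero, polar_smul_right, polar_comm _ z e,
          hez, smul_eq_mul, mul_one, add_zero, sub_self]
      have key : ∀ a : R, Q2 a = 0 → polar Q2 r0 a = 0 := fun a ha => by
        by_cases ha0 : a = 0
        · rw [ha0, polar_zero_right]
        · exact hperp a ha ha0
      have := key _ hs
      rw [polar_sub_right, polar_smul_right, key e he, smul_zero, sub_zero] at this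
      exact this
    · exfalso
      obtain ⟨e, he, he0⟩ := hsing
      refine hnoTS ⟨by omega, Submodule.span F {v, y, ι e}, ?_, ?_, ?_⟩
      · rw [Submodule.span_le]
        rintro a (rfl | rfl | rfl)
        · exact hxv
        · exact hxy
        · exact mem_perp2.2 ⟨(hιmem e).1, (hιmem e).2.1⟩
      · have hli : LinearIndependent F ![v, y, ι e] := by
          rw [Fintype.linearIndependent_iff]
          intro c hc
          simp only [Fin.sum_univ_three, Matrix.cons_val_zero, Matrix.cons_val_one,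
            Matrix.cons_val] at hc
          obtain ⟨e1, e2, e3, e4, e5, e6⟩ := hιmem e
          have hv'v : polar Q v' v = 1 := by rw [polar_comm]; exact hpv.2.2
          have hy'y : polar Q y' y = 1 := by rw [polar_comm]; exact hpy.2.2
          have a0 := congrArg (polar Q v') hc
          simp only [polar_add_right, polar_smul_right, polar_zero_right, hv'v, h3, e4,
            smul_eq_mul, mul_one, mul_zero, add_zero] at a0
          have a1 := congrArg (polar Q y') hc
          simp only [polar_add_right, polar_smul_right, polar_zero_right, hy'y, e6,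
            polar_comm Q y' v, h2, smul_eq_mul, mul_one, mul_zero, add_zero, zero_add] at a1
          rw [a0, a1, zero_smul, zero_smul, zero_add, zero_add, ← map_smul,
            map_eq_zero_iff ι hιinj, smul_eq_zero] at hc
          intro i
          fin_cases i
          exacts [a0, a1, hc.resolve_right he0]
        have := finrank_span_eq_card hli
        rw [Fintype.card_fin] at this
        have he' : Set.range ![v, y, ι e] = {v, y, ι e} := by
          ext u
          simp [Matrix.range_cons]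
          tauto
        rwa [he'] at this
      · intro a ha
        obtain ⟨e1, e2, e3, e4, e5, e6⟩ := hιmem e
        rw [Submodule.mem_span_insert] at ha
        obtain ⟨c, a', ha', rfl⟩ := ha
        rw [Submodule.mem_span_pair] at ha'
        obtain ⟨c', c'', rfl⟩ := ha'
        simp [QuadraticMap.map_add ⇑Q, QuadraticMap.map_smul, polar_add_right, polar_smul_left,
          polar_smul_right, hpv.1, hpy.1, hQι, he, h1, e3, e5]
  simp only [not_exists, not_and, not_not] at hsing
  by_contra hr00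
  have hQr : Q2 r0 ≠ 0 := fun h => hr00 (hsing r0 h)
  obtain ⟨a0, ha0⟩ := hQ2.exists_polar_ne hr00
  obtain ⟨a, ha, hind⟩ : ∃ a, polar Q2 r0 a ≠ 0 ∧ ∀ c : F, a ≠ c • r0 := by
    by_cases hind : ∀ c : F, a0 ≠ c • r0
    · exact ⟨a0, ha0, hind⟩
    simp only [not_forall, not_not] at hind
    obtain ⟨c, rfl⟩ := hind
    rw [polar_smul_right, smul_eq_mul, mul_ne_zero_iff] at ha0
    obtain ⟨n, hn0, hn⟩ := exists_ne_zero_ker (F := F) (V := R) ![polarBilin Q2 r0]
      (by omega)
    have hn' : polar Q2 r0 n = 0 := by simpa using hn 0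
    refine ⟨r0 + n, by rw [polar_add_right, hn', add_zero]; exact ha0.2, fun d hd => ?_⟩
    have hn2 : n = (d - 1) • r0 := by rw [sub_smul, one_smul, ← hd]; abel
    rw [hn2, polar_smul_right, smul_eq_mul] at hn'
    exact hn0 (by rw [hn2, (mul_eq_zero.1 hn').resolve_right ha0.2, zero_smul])
  have hQa : Q2 a ≠ 0 := fun h => hind 0 (by rw [zero_smul]; exact hsing a h)
  set k := (Q2 r0)⁻¹ * polar Q2 a r0 with hk
  have hk0 : k ≠ 0 := mul_ne_zero (inv_ne_zero hQr) (by rwa [polar_comm])
  set b := (refl Q2 r0 hQr : R ≃ₗ[F] R) a with hb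
  have hbv : b = a - k • r0 := by rw [hb, refl_apply]
  have hQb : Q2 b = Q2 a := by rw [hb, orth_apply]
  have hQa' : Q (ι a) ≠ 0 := by rw [hQι]; exact hQa
  have hQb' : Q (ι b) ≠ 0 := by rw [hQι, hQb]; exact hQa
  have hmem := refl_div_mem_siegelGroup hQ (by omega) hQa' hQb'
    ⟨1, by rw [hQι, hQι, hQb, mul_inv_cancel₀ hQa, mul_one]⟩
  rw [refl_inv] at hmem
  have hfix : ∀ z, polar Q z (ι a) = 0 → polar Q z (ι b) = 0 →
      ap ⟨_, hmem⟩ z = z := fun z z1 z2 => by
    show ((refl Q _ hQa' * refl Q _ hQb' : orth Q) : V ≃ₗ[F] V) z = z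
    rw [orth_mul_apply, refl_fix hQb' z2, refl_fix hQa' z1]
  obtain ⟨e1, e2, e3, e4, e5, e6⟩ := hιmem a
  obtain ⟨n1, n2, n3, n4, n5, n6⟩ := hιmem b
  have h := hinv ⟨_, hmem⟩ (hfix x e1 n1) (hfix x' e2 n2) (hfix v e3 n3)
    (hfix v' e4 n4) (hfix y e5 n5) (hfix y' e6 n6)
  have h' : (refl Q _ hQb' : V ≃ₗ[F] V) r = (refl Q _ hQa' : V ≃ₗ[F] V) r := by
    have h2 : ((refl Q _ hQa' * refl Q _ hQb' : orth Q) : V ≃ₗ[F] V) r = r := h
    rw [orth_mul_apply] at h2
    have h3 := congrArg (refl Q _ hQa' : V ≃ₗ[F] V) h2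
    rwa [← orth_mul_apply, refl_mul_self, orth_one_apply] at h3
  rw [refl_apply, refl_apply, sub_right_inj, ← hr0r, hpι, hpι, hQι, hQι, hQb] at h'
  have h' : ((Q2 a)⁻¹ * polar Q2 r0 b) • b = ((Q2 a)⁻¹ * polar Q2 r0 a) • a :=
    hιinj (by rw [map_smul, map_smul]; exact h')
  rw [hbv, smul_sub, smul_smul, sub_eq_iff_eq_add] at h'
  set ca := (Q2 a)⁻¹ * polar Q2 r0 a
  set cb := (Q2 a)⁻¹ * polar Q2 r0 (a - k • r0)
  have hca : ca ≠ 0 := mul_ne_zero (inv_ne_zero hQa) ha
  by_cases hcc : cb = ca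
  · rw [hcc, eq_comm, add_eq_left, smul_eq_zero, mul_eq_zero] at h'
    exact (h'.resolve_right hr00).elim hca hk0
  · refine hind ((cb - ca)⁻¹ * (cb * k)) ?_
    rw [← smul_smul, eq_comm, inv_smul_eq_iff₀ (sub_ne_zero.2 hcc), sub_smul, eq_sub_iff_add_eq,
      h', add_comm]

/-- An invariant vector of the stabiliser of the four vectors and the pair is zero. -/
theorem eq_zero_of_invariant (hQ : Nondeg Q) (hn : 8 ≤ finrank F V) {x x' v v' y y' : V}
    (hx : IsHypPair Q (x, x')) {Y Y' : perp2 Q x x'} (hY : (Y : V) = y) (hY' : (Y' : V) = y')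
    {Vv Vv' : perp2 Q x x'} (hVv : (Vv : V) = v) (hVv' : (Vv' : V) = v')
    (hpv : IsHypPair Q (v, v')) (hpy : IsHypPair Q (y, y'))
    (h1 : polar Q v y = 0) (h2 : polar Q v y' = 0) (h3 : polar Q v' y = 0)
    (h4 : polar Q v' y' = 0)
    (hnoTS : ¬ (finrank F V = 8 ∧ ∃ E : Submodule F V, E ≤ perp2 Q x x' ∧ finrank F E = 3 ∧
      ∀ z ∈ E, Q z = 0))
    {r : V} (rx : polar Q x r = 0) (rx' : polar Q x' r = 0)
    (r1 : polar Q v r = 0) (r2 : polar Q v' r = 0) (r3 : polar Q y r = 0) (r4 : polar Q y' r = 0)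
    (hinv : ∀ g : siegelGroup Q, ap g x = x → ap g x' = x' → ap g v = v → ap g v' = v' →
      ap g y = y → ap g y' = y' → ap g r = r) : r = 0 := by
  have : Finite V := Module.finite_of_finite F
  have hpV : IsHypPair (q2 Q x x') (Vv, Vv') :=
    ⟨by rw [q2_apply, hVv]; exact hpv.1, by rw [q2_apply, hVv']; exact hpv.2.1,
      by rw [polar_q2, hVv, hVv']; exact hpv.2.2⟩
  set Q1 := q2 (q2 Q x x') Vv Vv'
  set y1 : perp2 (q2 Q x x') Vv Vv' := ⟨Y, mem_perp2.2
    ⟨by rw [polar_q2, hVv, hY]; exact h1, by rw [polar_q2, hVv', hY]; exact h3⟩⟩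
  set y1' : perp2 (q2 Q x x') Vv Vv' := ⟨Y', mem_perp2.2
    ⟨by rw [polar_q2, hVv, hY']; exact h2, by rw [polar_q2, hVv', hY']; exact h4⟩⟩
  have hpY : IsHypPair Q1 (y1, y1') :=
    ⟨show Q (Y : V) = 0 by rw [hY]; exact hpy.1, show Q (Y' : V) = 0 by rw [hY']; exact hpy.2.1,
      show polar Q1 y1 y1' = 1 by rw [polar_q2, polar_q2, hY, hY']; exact hpy.2.2⟩
  set R := perp2 Q1 y1 y1'
  set Q2 := q2 Q1 y1 y1'
  have hd1 := finrank_perp2 hx
  have hd2 := finrank_perp2 hpV
  have hd3 := finrank_perp2 hpY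
  have hQ2 := nondeg_q2 (nondeg_q2 (nondeg_q2 hQ hx) hpV) hpY
  set ι : R →ₗ[F] V := (perp2 Q x x').subtype.comp
    ((perp2 (q2 Q x x') Vv Vv').subtype.comp R.subtype) with hι
  have hιinj : Function.Injective ι := fun a b h =>
    Subtype.ext (Subtype.ext (Subtype.ext h))
  have hιmem : ∀ a : R, polar Q x (ι a) = 0 ∧ polar Q x' (ι a) = 0 ∧ polar Q v (ι a) = 0 ∧
      polar Q v' (ι a) = 0 ∧ polar Q y (ι a) = 0 ∧ polar Q y' (ι a) = 0 := by
    intro a
    obtain ⟨g1, g2⟩ := mem_perp2.1 ((a : perp2 (q2 Q x x') Vv Vv') : perp2 Q x x').2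
    obtain ⟨g3, g4⟩ := mem_perp2.1 (a : perp2 (q2 Q x x') Vv Vv').2
    obtain ⟨g5, g6⟩ := mem_perp2.1 a.2
    rw [polar_q2, hVv] at g3
    rw [polar_q2, hVv'] at g4
    rw [polar_q2, polar_q2, hY] at g5
    rw [polar_q2, polar_q2, hY'] at g6
    exact ⟨g1, g2, g3, g4, g5, g6⟩
  set r0 : R := ⟨⟨⟨r, mem_perp2.2 ⟨rx, rx'⟩⟩, mem_perp2.2
      ⟨by rw [polar_q2, hVv]; exact r1, by rw [polar_q2, hVv']; exact r2⟩⟩, mem_perp2.2
      ⟨show polar Q1 y1 _ = 0 by rw [polar_q2, polar_q2, hY]; exact r3,
        show polar Q1 y1' _ = 0 by rw [polar_q2, polar_q2, hY']; exact r4⟩⟩ with hr0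
  have hr0r : ι r0 = r := rfl
  have hQι : ∀ a : R, Q (ι a) = Q2 a := fun a => rfl
  have hpι : ∀ a b : R, polar Q (ι a) (ι b) = polar Q2 a b := fun a b => by
    rw [polar_q2, polar_q2, polar_q2]; rfl
  rw [← hr0r, eq_zero_of_invariant_aux (R := R) (Q2 := Q2) hQ hn hQ2
    (by have e : finrank F R + 2 = finrank F (perp2 (q2 Q x x') Vv Vv') := hd3
        omega) hpv hpy h1 h2 h3
    (hVv ▸ Vv.2) (hY ▸ Y.2) hnoTS ι hιinj hιmem hQι hpι r0 hr0r hinv, map_zero]

/-- No action with a single regular orbit of a root group over the two small fields. -/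
theorem no_regular_small {Ω : Type*} [MulAction (siegelGroup Q) Ω] (hQ : Nondeg Q)
    (hn : 8 ≤ finrank F V) (hchar : (2 : F) = 0 ∨ (3 : F) = 0) {x x' : V}
    (hx : IsHypPair Q (x, x'))
    (hnoTS : ¬ (finrank F V = 8 ∧ ∃ E : Submodule F V, E ≤ perp2 Q x x' ∧ finrank F E = 3 ∧
      ∀ z ∈ E, Q z = 0))
    (z : Ω) (hall : ∀ y : V, Q y = 0 → y ≠ 0 → ∀ z' : Ω, IsReg Q y z')
    (hone : ∀ z' : Ω, z' ∈ orbT Q x x' z) : False := by
  have : Finite V := Module.finite_of_finite F
  have hd1 := finrank_perp2 hx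
  -- two planes
  obtain ⟨Vv, Vv', hpV⟩ := exists_hypPair (nondeg_q2 hQ hx) (by omega)
  have hd2 := finrank_perp2 hpV
  obtain ⟨⟨Y, hY1⟩, ⟨Y', hY1'⟩, hpY⟩ :=
    exists_hypPair (nondeg_q2 (nondeg_q2 hQ hx) hpV) (by omega)
  set v := (Vv : V)
  set v' := (Vv' : V)
  set y := (Y : V)
  set y' := (Y' : V)
  obtain ⟨g1, g3⟩ := mem_perp2.1 hY1
  obtain ⟨g2, g4⟩ := mem_perp2.1 hY1'
  rw [polar_q2] at g1 g2 g3 g4
  have hpv : IsHypPair Q (v, v') :=
    ⟨hpV.1, hpV.2.1, by have := hpV.2.2; rwa [polar_q2] at this⟩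
  have hpy : IsHypPair Q (y, y') :=
    ⟨hpY.1, hpY.2.1, by have := hpY.2.2; rwa [polar_q2, polar_q2] at this⟩
  obtain ⟨tv, ty, tv', ty', tR⟩ := rot_apply hpv hpy g1 g2 g3 g4
  have hgt := rot_comm hpv hpy g1 g2 g3
  obtain ⟨hp2, hp3⟩ := rot_pow hpv hpy g1 g2 g3 g4
  set t := root Q y v' * root Q v y' with ht
  set g := root Q v y with hg
  obtain ⟨xv, x'v⟩ := mem_perp2.1 Vv.2
  obtain ⟨xv', x'v'⟩ := mem_perp2.1 Vv'.2
  obtain ⟨xy, x'y⟩ := mem_perp2.1 Y.2
  obtain ⟨xy', x'y'⟩ := mem_perp2.1 Y'.2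
  have tx : ap t x = x := tR x (by rw [polar_comm]; exact xv) (by rw [polar_comm]; exact xv')
    (by rw [polar_comm]; exact xy) (by rw [polar_comm]; exact xy')
  have tx' : ap t x' = x' := tR x' (by rw [polar_comm]; exact x'v) (by rw [polar_comm]; exact x'v')
    (by rw [polar_comm]; exact x'y) (by rw [polar_comm]; exact x'y')
  have hbot : ∀ z' : Ω, ∀ m : perp2 Q x x', root Q x (m : V) • z' = z' → m = 0 := fun z' m h =>
    eq_zero_of_root hx (hall x hx.1 hx.fst_ne_zero z' _ ⟨(mem_perp2.1 m.2).1, h⟩)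
  have addT : ∀ (m m' : perp2 Q x x') (z' : Ω),
      root Q x (m : V) • root Q x (m' : V) • z' = root Q x ((m + m' : perp2 Q x x') : V) • z' :=
    fun m m' z' => by
      rw [← mul_smul, root_add hx.1 (mem_perp2.1 m.2).1 (mem_perp2.1 m'.2).1, Submodule.coe_add]
  have injT : ∀ (z' : Ω) (m m' : perp2 Q x x'),
      root Q x (m : V) • z' = root Q x (m' : V) • z' → m = m' := fun z' m m' h => by
    refine sub_eq_zero.1 (hbot z' _ ?_)
    rw [← smul_left_cancel_iff (root Q x (m' : V)), addT, add_sub_cancel]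
    exact h
  have mapM : ∀ k : siegelGroup Q, ap k x = x → ap k x' = x' → ∀ m ∈ perp2 Q x x',
      ap k m ∈ perp2 Q x x' := fun k k1 k2 m hm => by
    have := (ap_mem_perp2 k).2 hm
    rwa [k1, k2] at this
  have commT : ∀ k : siegelGroup Q, ap k x = x → ∀ (m : V) (z' : Ω),
      k • root Q x m • z' = root Q x (ap k m) • k • z' := fun k k1 m z' => by
    conv_rhs => rw [← k1]
    rw [root_smul_ap]
  -- the displacement of `t` lies in the planes
  obtain ⟨a, ha⟩ := hone (t • z)
  have ha' : root Q x (a : V) • z = t • z := ha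
  have iter : ∀ i : ℕ, ∃ s : perp2 Q x x', t ^ i • z = root Q x (s : V) • z ∧
      ∀ r, polar Q v r = 0 → polar Q v' r = 0 → polar Q y r = 0 → polar Q y' r = 0 →
        polar Q r (s : V) = (i : F) * polar Q r (a : V) := by
    intro i
    induction i with
    | zero => exact ⟨0, by simp [root_zero], fun r _ _ _ _ => by simp⟩
    | succ i ih =>
      obtain ⟨s, hs, hsr⟩ := ih
      refine ⟨⟨ap t (s : V), mapM t tx tx' _ s.2⟩ + a, ?_, fun r r1 r2 r3 r4 => ?_⟩
      · rw [pow_succ', mul_smul, hs, commT t tx, ← ha', ← addT]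
      · rw [Submodule.coe_add, polar_add_right, Nat.cast_add, Nat.cast_one, add_mul, one_mul]
        congr 1
        conv_lhs => rw [← tR r r1 r2 r3 r4]
        rw [polar_ap, hsr r r1 r2 r3 r4]
  have haR : ∀ r, polar Q v r = 0 → polar Q v' r = 0 → polar Q y r = 0 → polar Q y' r = 0 →
      polar Q r (a : V) = 0 := by
    intro r r1 r2 r3 r4
    have key : ∀ i : ℕ, t ^ i = 1 → (i : F) ≠ 0 → polar Q r (a : V) = 0 := fun i hi hi0 => by
      obtain ⟨s, hs, hsr⟩ := iter i
      rw [hi, one_smul] at hs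
      have := hbot z s hs.symm
      have h5 := hsr r r1 r2 r3 r4
      rw [this, ZeroMemClass.coe_zero, polar_zero_right] at h5
      exact (mul_eq_zero.1 h5.symm).resolve_left hi0
    rcases hchar with hc | hc
    · exact key 3 (hp2 hc) (by
        intro h
        exact one_ne_zero (show (1 : F) = 0 by push_cast at h; linear_combination h - hc))
    · exact key 4 (hp3 hc) (by
        intro h
        exact one_ne_zero (show (1 : F) = 0 by push_cast at h; linear_combination h - hc))
  -- a fixed point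
  set α := polar Q v' (a : V)
  set γ := polar Q v (a : V)
  set β := polar Q y' (a : V)
  set δ := polar Q y (a : V)
  have hadec : (a : V) = α • v + γ • v' + β • y + δ • y' := by
    refine sub_eq_zero.1 (hQ _ fun w => ?_)
    set e := (a : V) - (α • v + γ • v' + β • y + δ • y') with he
    have hv'v : polar Q v' v = 1 := by rw [polar_comm]; exact hpv.2.2
    have hy'y : polar Q y' y = 1 := by rw [polar_comm]; exact hpy.2.2
    have hev : ∀ u, polar Q e u = polar Q (a : V) u - (α * polar Q v u + γ * polar Q v' u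
        + β * polar Q y u + δ * polar Q y' u) := fun u => by
      simp [he, polar_sub_left, polar_add_left, polar_smul_left, add_assoc]
    have vv : polar Q v v = 0 := by rw [polar_self_mul, hpv.1, mul_zero]
    have vv' : polar Q v' v' = 0 := by rw [polar_self_mul, hpv.2.1, mul_zero]
    have yy : polar Q y y = 0 := by rw [polar_self_mul, hpy.1, mul_zero]
    have yy' : polar Q y' y' = 0 := by rw [polar_self_mul, hpy.2.1, mul_zero]
    have e1 : polar Q e v = 0 := by
      rw [hev, vv, hv'v, polar_comm Q y v, g1, polar_comm Q y' v, g2, polar_comm Q (a : V) v]; simp [γ]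
    have e2 : polar Q e v' = 0 := by
      rw [hev, hpv.2.2, vv', polar_comm Q y v', g3, polar_comm Q y' v', g4, polar_comm Q (a : V) v']
      simp [α]
    have e3 : polar Q e y = 0 := by
      rw [hev, g1, g3, yy, hy'y, polar_comm Q (a : V) y]; simp [δ]
    have e4 : polar Q e y' = 0 := by
      rw [hev, g2, g4, hpy.2.2, yy', polar_comm Q (a : V) y']; simp [β]
    set w1 := (proj2 hpy (proj2 hpv w : V) : V) with hw1
    have hw' : w = polar Q v' w • v + polar Q v w • v'
        + (polar Q y' (proj2 hpv w : V) • y + polar Q y (proj2 hpv w : V) • y' + w1) := by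
      rw [hw1, ← decomp2 hpy (proj2 hpv w : V), ← decomp2 hpv w]
    obtain ⟨b1, b2⟩ := mem_perp2.1 (proj2 hpy (proj2 hpv w : V)).2
    obtain ⟨a1, a2⟩ := mem_perp2.1 (proj2 hpv w).2
    have c1 : polar Q v w1 = 0 := by
      rw [hw1, coe_proj2, polar_sub_right, polar_sub_right, polar_smul_right, polar_smul_right,
        a1, g1, g2]
      simp
    have c2 : polar Q v' w1 = 0 := by
      rw [hw1, coe_proj2, polar_sub_right, polar_sub_right, polar_smul_right, polar_smul_right,
        a2, g3, g4]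
      simp
    have e5 : polar Q e w1 = 0 := by
      rw [hev, polar_comm Q (a : V) w1, haR w1 c1 c2 b1 b2, c1, c2, b1, b2]
      simp
    rw [hw']
    simp [polar_add_right, polar_smul_right, e1, e2, e3, e4, e5]
  set mV : V := α • (y + v) + β • v + γ • (-y') + δ • (y' - v') with hmV
  have hmM : mV ∈ perp2 Q x x' := by
    refine Submodule.add_mem _ (Submodule.add_mem _ (Submodule.add_mem _
      (Submodule.smul_mem _ _ (Submodule.add_mem _ Y.2 Vv.2)) (Submodule.smul_mem _ _ Vv.2))
      (Submodule.smul_mem _ _ (Submodule.neg_mem _ Y'.2)))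
      (Submodule.smul_mem _ _ (Submodule.sub_mem _ Y'.2 Vv'.2))
  set z0 := root Q x mV • z with hz0
  have hfix : t • z0 = z0 := by
    rw [hz0, commT t tx, ← ha', ← mul_smul,
      root_add hx.1 ((mem_perp2.1 (mapM t tx tx' _ hmM)).1) (mem_perp2.1 a.2).1]
    congr 2
    rw [hmV, hadec]
    simp only [map_add, map_smul, map_neg, map_sub, tv, ty, tv', ty', two_smul]
    module
  obtain ⟨c0, hc0⟩ := hone z0
  have toZ0 : ∀ z' : Ω, ∃ s : perp2 Q x x', root Q x (s : V) • z0 = z' := fun z' => by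
    obtain ⟨c, hc⟩ := hone z'
    refine ⟨c - c0, ?_⟩
    have hc0' : root Q x (c0 : V) • z = z0 := hc0
    rw [← hc0', addT, sub_add_cancel]
    exact hc
  have fixed : ∀ s : perp2 Q x x', t • root Q x (s : V) • z0 = root Q x (s : V) • z0 →
      polar Q v (s : V) = 0 ∧ polar Q v' (s : V) = 0 ∧ polar Q y (s : V) = 0 ∧
        polar Q y' (s : V) = 0 := by
    intro s hs
    rw [commT t tx, hfix] at hs
    have he : ap t (s : V) = (s : V) := congrArg Subtype.val
      (injT z0 ⟨_, mapM t tx tx' _ s.2⟩ s hs)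
    have k1 := polar_ap t v (s : V)
    have k2 := polar_ap t y (s : V)
    have k3 := polar_ap t v' (s : V)
    have k4 := polar_ap t y' (s : V)
    rw [he, tv, polar_sub_left] at k1
    rw [he, ty, polar_sub_left, polar_smul_left, smul_eq_mul] at k2
    rw [he, tv', polar_add_left, polar_smul_left, smul_eq_mul] at k3
    rw [he, ty', polar_add_left] at k4
    exact ⟨by linear_combination -k2 - k1, by linear_combination k4,
      by linear_combination -k1, by linear_combination k3 - k4⟩
  have hcomm : t * g = g * t := hgt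
  obtain ⟨r, hr⟩ := toZ0 (g • z0)
  have hr' : t • root Q x (r : V) • z0 = root Q x (r : V) • z0 := by
    rw [hr, ← mul_smul, hcomm, mul_smul, hfix]
  obtain ⟨r1, r2, r3, r4⟩ := fixed r hr'
  obtain ⟨rx, rx'⟩ := mem_perp2.1 r.2
  have hr0 : (r : V) = 0 := by
    refine eq_zero_of_invariant hQ hn hx (Y := Y) (Y' := Y') rfl rfl (Vv := Vv) (Vv' := Vv') rfl rfl
      hpv hpy g1 g2 g3 g4 hnoTS rx rx' r1 r2 r3 r4 ?_
    intro k k1 k1' kv kv' ky ky'
    have kt : k * t = t * k := by
      rw [ht, ← mul_assoc, root_commutes ky kv', mul_assoc, root_commutes kv ky', mul_assoc]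
    have kg : k * g = g * k := root_commutes kv ky
    obtain ⟨s, hs⟩ := toZ0 (k • z0)
    have hs' : t • root Q x (s : V) • z0 = root Q x (s : V) • z0 := by
      rw [hs, ← mul_smul, ← kt, mul_smul, hfix]
    obtain ⟨s1, s2, s3, s4⟩ := fixed s hs'
    have gs : ap g (s : V) = (s : V) :=
      ap_root_fix hpv.1 g1 (by rw [polar_comm]; exact s1) (by rw [polar_comm]; exact s3)
    have gx : ap g x = x := ap_root_fix hpv.1 g1 xv xy
    have e1 : g • k • z0 = root Q x ((s + r : perp2 Q x x') : V) • z0 := by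
      rw [← hs, commT g gx, gs, ← hr, addT]
    have e2 : k • g • z0
        = root Q x ((⟨_, mapM k k1 k1' _ r.2⟩ + s : perp2 Q x x') : V) • z0 := by
      rw [← hr, commT k k1, ← hs, ← addT]
    rw [← mul_smul, ← kg, mul_smul, e2] at e1
    have := injT z0 _ _ e1
    rw [add_comm, add_right_inj] at this
    exact congrArg Subtype.val this
  rw [hr0, root_zero, one_smul] at hr
  have h := hall v hpv.1 hpv.fst_ne_zero z0 y ⟨g1, hr.symm⟩
  have hyperp : (⟨y, mem_perp2.2 ⟨g1, g3⟩⟩ : perp2 Q v v') = 0 := eq_zero_of_root hpv h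
  exact hpy.fst_ne_zero (congrArg Subtype.val hyperp)

end CfsgLib.MinIndexOrth
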