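import Cfsg.Agent.Lib.MinIndex.Orth.PlusRegular
import Cfsg.Agent.Lib.MinIndex.Orth.SmallRegular
import Cfsg.Agent.Lib.MinIndex.Orth.Attain
import Cfsg.Agent.Lib.ClassicalForms.Ortho.Values

/-!
The index bound for Siegel groups of hyperbolic spaces over two elements: the number of vectors of
value one.
-/

set_option autoImplicit false
set_option linter.unusedSectionVars false

namespace CfsgLib.MinIndexOrth

open QuadraticMap Module CfsgLib.ClassicalForms

variable {F V : Type*} [Field F] [Finite F] [AddCommGroup V] [Module F V]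
  [FiniteDimensional F V] {Q : QuadraticForm F V}

lemma plusQ_perp [Finite V] {w : ℕ} (h2 : Nat.card F = 2) (hn : finrank F V = 2 * w + 4)
    (hw : 2 ≤ w) (hzeros : vc Q 0 = 2 ^ (2 * w + 3) + 2 ^ (w + 1)) {u u' : V}
    (h : IsHypPair Q (u, u')) : PlusQ (q2 Q u u') w := by
  have hd := finrank_perp2 h
  refine ⟨by omega, hw, h2, ?_⟩
  have hs := vc_step' h (0 : F)
  rw [hzeros, h2, hn, show 2 * w + 4 - 2 = 2 * w + 2 by omega] at hs
  ring_nf at hs ⊢
  omega

variable {Ω : Type*} [MulAction (siegelGroup Q) Ω] [Finite Ω]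
  [MulAction.IsPretransitive (siegelGroup Q) Ω] [Nontrivial Ω]

theorem card_points_le_plus (hQ : Nondeg Q) {w : ℕ} (h2 : Nat.card F = 2)
    (hn : finrank F V = 2 * w + 4) (hw : 2 ≤ w)
    (hzeros : vc Q 0 = 2 ^ (2 * w + 3) + 2 ^ (w + 1)) : vc Q 1 ≤ Nat.card Ω := by
  by_contra hcon
  have hν : Nat.card Ω < vc Q 1 := not_le.1 hcon
  have : Finite V := Module.finite_of_finite F
  have : CharP F 2 := by
    have := Fintype.ofFinite F
    exact charP_of_card_eq_prime (by rw [Fintype.card_eq_nat_card]; exact h2)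
  have : Fact (Nat.Prime 2) := ⟨Nat.prime_two⟩
  have hn7 : 7 ≤ finrank F V := by omega
  have htarget : ∀ {u u' : V}, IsHypPair Q (u, u') →
      vc Q 1 = 2 ^ (2 * w + 2) + 2 * vc (q2 Q u u') 1 := fun {u u'} h => by
    rw [vc_step' h, h2, hn, show 2 * w + 4 - 2 = 2 * w + 2 by omega, show (2 : ℕ) - 1 = 1 from rfl,
      one_mul, add_comm]
  have htri : ∀ (u u' : V) (h : IsHypPair Q (u, u')) (z : Ω), IsReg Q u z ∨ IsFix Q u z ∨
      (Nat.card (ann (q2 Q u u') (asub Q u u' z)) = 2 ∧
        2 * vc (q2 Q u u') 1 ≤ Nat.card (cls hQ (by omega) h z)) := by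
    intro u u' h z
    by_cases h0 : asub Q u u' z = ⊥
    · exact Or.inl ((asub_eq_bot_iff h).1 h0)
    by_cases h1 : asub Q u u' z = ⊤
    · exact Or.inr (Or.inl ((asub_eq_top_iff h).1 h1))
    have hM := plusQ_perp h2 hn hw hzeros h
    have hle := cnum_mul_le hQ (by omega) h z
    have hlt : (levi hQ (by omega) h).cnum (asub Q u u' z)
        * Nat.card (ann (q2 Q u u') (asub Q u u' z))
        < 2 ^ finrank F (perp2 Q u u') + 2 * vc (q2 Q u u') 1 := by
      rw [hM.dim, ← htarget h]
      exact lt_of_le_of_lt (hle.trans (Nat.card_le_card_of_injective _ Subtype.val_injective)) hν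
    have h3 := classify_plus (levi hQ (by omega) h) (nondeg_q2 hQ h) hM h0 h1 hlt
    exact Or.inr (Or.inr ⟨h3.1, h3.2.trans hle⟩)
  obtain ⟨z⟩ : Nonempty Ω := inferInstance
  by_cases hreg : ∃ (x : V) (z' : Ω), Q x = 0 ∧ x ≠ 0 ∧ IsReg Q x z'
  · obtain ⟨x, z', hx, hx0, h1⟩ := hreg
    have hall := all_reg_of (Ω := Ω) hQ hn7 (fun y hy hy0 z'' => by
      obtain ⟨g, hg, e⟩ := (Sec.top Q).transitive_singular hQ (by omega) (Sec.mem_top x)
        (Sec.mem_top y) hx hy hx0 hy0
      have hy1 : IsReg Q y ((⟨g, hg.1⟩ : siegelGroup Q) • z') := by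
        rw [show y = ap (⟨g, hg.1⟩ : siegelGroup Q) x from e.symm, isReg_ap]
        exact h1
      obtain ⟨y', -, hp⟩ := (Sec.top Q).exists_partner hQ (Sec.mem_top y) hy hy0
      rcases htri y y' hp z'' with h3 | h3 | h3
      · exact Or.inl h3
      · exact Or.inr h3
      exfalso
      set z₁ := (⟨g, hg.1⟩ : siegelGroup Q) • z'
      have hb := (asub_eq_bot_iff hp).2 hy1
      have hd := (plusQ_perp h2 hn hw hzeros hp).dim
      have hdis : Disjoint (orbT Q y y' z₁) (cls hQ (by omega) hp z'') := by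
        rw [Set.disjoint_left]
        intro a ha ha'
        have e1 := card_asub_of_mem_cls hQ (by omega) hp ha'
        rw [asub_of_mem_orbT hp ha, hb] at e1
        have e2 := card_ann (nondeg_q2 hQ hp) (asub Q y y' z'')
        rw [h3.1, ← e1, AddSubgroup.card_bot, h2, hd, one_mul] at e2
        have : 2 ^ 1 < 2 ^ (2 * w + 2) := Nat.pow_lt_pow_right (by omega) (by omega)
        omega
      have e := Set.ncard_union_eq hdis (Set.toFinite _) (Set.toFinite _)
      rw [← Nat.card_coe_set_eq, ← Nat.card_coe_set_eq, ← Nat.card_coe_set_eq, card_orbT hQ hp, hb,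
        card_ann_bot (nondeg_q2 hQ hp), h2, hd] at e
      have hle : 2 ^ (2 * w + 2) + Nat.card (cls hQ (by omega) hp z'') ≤ Nat.card Ω :=
        e ▸ Nat.card_le_card_of_injective _ Subtype.val_injective
      have := h3.2
      have := htarget hp
      omega)
    obtain ⟨x', -, hp⟩ := (Sec.top Q).exists_partner hQ (Sec.mem_top x) hx hx0
    have hM := plusQ_perp h2 hn hw hzeros hp
    have hone := one_orbit_of_reg hQ hp z (hall x hx hx0) (by
      have h4 : vc (q2 Q x x') 1 + 2 ^ w = 2 ^ (2 * w + 1) := hM.ones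
      have h5 := htarget hp
      have h6 : 2 ^ (2 * w + 2) = 2 * 2 ^ (2 * w + 1) := by ring
      rw [h2, hM.dim]
      have h7 : vc (q2 Q x x') 1 ≤ 2 ^ (2 * w + 1) := h4 ▸ Nat.le_add_right _ _
      have h8 : vc Q 1 ≤ 2 ^ (2 * w + 2) + 2 ^ (2 * w + 2) := by omega
      omega)
    rcases Nat.lt_or_ge w 3 with hw3 | hw3
    · obtain rfl : w = 2 := by omega
      exact no_regular_plus8 hQ h2 hp hM.dim hM.zeros z hall hone
    · refine no_regular_small hQ (by omega) (Or.inl ?_) hp (fun h => by omega) z hall hone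
      exact CharTwo.two_eq_zero
  · refine not_all_fix (Q := Q) z (fix_all 2 hQ hn7 fun u u' h => ?_)
    have hd := (plusQ_perp h2 hn hw hzeros h).dim
    rcases htri u u' h z with h1 | h1 | ⟨h1, -⟩
    · exact absurd ⟨u, z, h.1, h.fst_ne_zero, h1⟩ hreg
    · rw [(asub_eq_top_iff h).2 h1, AddSubgroup.card_top,
        card_eq_pow (F := F) (V := perp2 Q u u'), h2, hd, ← pow_succ, ← pow_mul]
      exact Nat.pow_lt_pow_right (by omega) (by omega)
    · have hc := card_ann (nondeg_q2 hQ h) (asub Q u u' z)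
      rw [h1, h2, hd] at hc
      rw [h2, hd, hc, ← pow_mul]
      exact Nat.pow_lt_pow_right (by omega) (by omega)

/-- The stabiliser of a vector of value one over two elements. -/
theorem index_lineStab_two (hQ : Nondeg Q) (h2 : Nat.card F = 2) (hn : 5 ≤ finrank F V) {x : V}
    (hx : Q x = 1) : (lineStab Q x).index = vc Q 1 := by
  have : Finite V := Module.finite_of_finite F
  letI : MulAction (siegelGroup Q) V :=
    { smul := fun g v => ap g v
      one_smul := fun v => ap_one v
      mul_smul := fun g k v => ap_mul g k v }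
  have horb : MulAction.orbit (siegelGroup Q) x = {v : V | Q v = 1} := by
    ext v
    constructor
    · rintro ⟨g, rfl⟩
      exact (Q_ap g x).trans hx
    · intro hv
      obtain ⟨g, hg, e⟩ := (Sec.top Q).transitive_norm hQ (by omega) (Sec.mem_top x)
        (Sec.mem_top v) (hx.trans (Eq.symm hv)) (by rw [hx]; exact one_ne_zero)
      exact ⟨⟨g, hg.1⟩, e⟩
  have hst : MulAction.stabilizer (siegelGroup Q) x = lineStab Q x := by
    ext g
    refine ⟨fun hg => ⟨1, ?_⟩, fun ⟨c, hc⟩ => ?_⟩
    · rw [Units.val_one, one_smul]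
      exact MulAction.mem_stabilizer_iff.1 hg
    · rw [(eq_zero_or_one h2 (c : F)).resolve_left c.ne_zero, one_smul] at hc
      exact MulAction.mem_stabilizer_iff.2 hc
  rw [← hst, MulAction.index_stabilizer, horb, ← Nat.card_coe_set_eq]
  rfl

end CfsgLib.MinIndexOrth
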