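import Cfsg.Agent.Lib.MinIndex.Orth.Main
import Cfsg.Agent.Lib.MinIndex.Orth.PlusClassify

/-!
The eight-dimensional hyperbolic space over two elements: no action has regular root groups with one
orbit. An element of order five leaves four points fixed, and the relations of two opposite root
groups on these four points force a fixed point.
-/

set_option autoImplicit false
set_option linter.unusedSectionVars false
set_option linter.unusedSimpArgs false

namespace CfsgLib.MinIndexOrth

open QuadraticMap Module CfsgLib.ClassicalForms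

variable {F V : Type*} [Field F] [Finite F] [CharP F 2] [AddCommGroup V] [Module F V]
  [FiniteDimensional F V] {Q : QuadraticForm F V}

lemma polar_self_two (x : V) : polar Q x x = 0 := by
  rw [polar_self_mul, show (2 : F) = 0 from CharTwo.two_eq_zero, zero_mul]

lemma polar_comm_zero {x y : V} (h : polar Q x y = 0) : polar Q y x = 0 := by rwa [polar_comm]

include F in
lemma neg_vec (x : V) : -x = x := by
  rw [← neg_one_smul F x, CharTwo.neg_eq, one_smul]

include F in
lemma add_vec_self (x : V) : x + x = 0 := by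
  rw [← two_smul F x, CharTwo.two_eq_zero, zero_smul]

include F in
lemma add_vec_cancel (x y : V) : x + (x + y) = y := by
  rw [← add_assoc, add_vec_self (F := F), zero_add]

/-- Two orthogonal symplectic pairs split the space. -/
lemma split_four {e f a b : V} (hef : polar Q e f = 1) (hab : polar Q a b = 1)
    (hea : polar Q e a = 0) (heb : polar Q e b = 0) (hfa : polar Q f a = 0)
    (hfb : polar Q f b = 0) (z : V) :
    ∃ r : V, (polar Q e r = 0 ∧ polar Q f r = 0 ∧ polar Q a r = 0 ∧ polar Q b r = 0) ∧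
      z = polar Q f z • e + polar Q e z • f + polar Q b z • a + polar Q a z • b + r := by
  refine ⟨z - (polar Q f z • e + polar Q e z • f + polar Q b z • a + polar Q a z • b),
    ⟨?_, ?_, ?_, ?_⟩, by abel⟩
  all_goals simp only [polar_sub_right, polar_add_right, polar_smul_right, polar_self_two, hef, hab,
    hea, heb, hfa, hfb, polar_comm Q f e, polar_comm Q a e, polar_comm Q b e, polar_comm Q a f,
    polar_comm Q b f, polar_comm Q b a, smul_eq_mul, mul_zero, mul_one, add_zero, zero_add, sub_self]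

/-- An element is trivial if it fixes two orthogonal symplectic pairs and their complement. -/
lemma eq_one_of_fix_symp {e f a b : V} (hef : polar Q e f = 1) (hab : polar Q a b = 1)
    (hea : polar Q e a = 0) (heb : polar Q e b = 0) (hfa : polar Q f a = 0)
    (hfb : polar Q f b = 0) {g : siegelGroup Q} (ge : ap g e = e) (gf : ap g f = f)
    (ga : ap g a = a) (gb : ap g b = b)
    (gR : ∀ r, polar Q e r = 0 → polar Q f r = 0 → polar Q a r = 0 → polar Q b r = 0 →
      ap g r = r) : g = 1 := by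
  refine Subtype.ext (orth_ext fun z => ?_)
  show ap g z = ap 1 z
  rw [ap_one]
  obtain ⟨r, ⟨r1, r2, r3, r4⟩, hz⟩ := split_four hef hab hea heb hfa hfb z
  conv_lhs => rw [hz]
  simp only [map_add, map_smul, ge, gf, ga, gb, gR r r1 r2 r3 r4]
  exact hz.symm

/-- A hyperbolic pair next to an elliptic one. -/
structure Quad (Q : QuadraticForm F V) (e f a b : V) : Prop where
  pair : IsHypPair Q (e, f)
  Qa : Q a = 1
  Qb : Q b = 1
  ab : polar Q a b = 1
  ea : polar Q e a = 0
  eb : polar Q e b = 0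
  fa : polar Q f a = 0
  fb : polar Q f b = 0

lemma rot3_pow {e f a b : V} (h : Quad Q e f a b) : (root Q e a * root Q f a) ^ 3 = 1 := by
  obtain ⟨⟨he, hf, hef⟩, hQa, hQb, hab, hea, heb, hfa, hfb⟩ := h
  have hfe : polar Q f e = 1 := by rw [polar_comm]; exact hef
  have hba : polar Q b a = 1 := by rw [polar_comm]; exact hab
  set t := root Q e a * root Q f a with ht
  have te : ap t e = f := by
    rw [ht, ap_mul, ap_root hf hfa, ap_root he hea]
    simp [hef, hfe, hea, heb, hfa, hfb, hQa, hab, hba, polar_self_two, polar_add_left, polar_sub_left,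
      polar_smul_left, polar_comm Q a e, polar_comm Q a f, CharTwo.sub_eq_add, CharTwo.neg_eq,
      sub_eq_add_neg, neg_vec (F := F), CharTwo.two_eq_zero, CharTwo.add_self_eq_zero]
    all_goals try (simp [add_comm, add_left_comm, add_assoc, add_vec_self (F := F), add_vec_cancel (F := F)])
  have tf : ap t f = e + f + a := by
    rw [ht, ap_mul, ap_root hf hfa, ap_root he hea]
    simp [hef, hfe, hea, heb, hfa, hfb, hQa, hab, hba, polar_self_two, polar_add_left, polar_sub_left,
      polar_smul_left, polar_comm Q a e, polar_comm Q a f, CharTwo.sub_eq_add, CharTwo.neg_eq,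
      sub_eq_add_neg, neg_vec (F := F), CharTwo.two_eq_zero, CharTwo.add_self_eq_zero]
    all_goals try (simp [add_comm, add_left_comm, add_assoc, add_vec_self (F := F), add_vec_cancel (F := F)])
  have ta : ap t a = a := by
    rw [ht, ap_mul, ap_root hf hfa, ap_root he hea]
    simp [hef, hfe, hea, heb, hfa, hfb, hQa, hab, hba, polar_self_two, polar_add_left, polar_sub_left,
      polar_smul_left, polar_comm Q a e, polar_comm Q a f, CharTwo.sub_eq_add, CharTwo.neg_eq,
      sub_eq_add_neg, neg_vec (F := F), CharTwo.two_eq_zero, CharTwo.add_self_eq_zero]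
    all_goals try (simp [add_comm, add_left_comm, add_assoc, add_vec_self (F := F), add_vec_cancel (F := F)])
  have tb : ap t b = b + f + a := by
    rw [ht, ap_mul, ap_root hf hfa, ap_root he hea]
    simp [hef, hfe, hea, heb, hfa, hfb, hQa, hab, hba, polar_self_two, polar_add_left, polar_sub_left,
      polar_smul_left, polar_comm Q a e, polar_comm Q a f, polar_comm Q b e, polar_comm Q b f,
      CharTwo.sub_eq_add, CharTwo.neg_eq, sub_eq_add_neg, neg_vec (F := F), CharTwo.two_eq_zero, CharTwo.add_self_eq_zero]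
    all_goals try (simp [add_comm, add_left_comm, add_assoc, add_vec_self (F := F), add_vec_cancel (F := F)])
  refine eq_one_of_fix_symp hef hab hea heb hfa hfb ?_ ?_ ?_ ?_ fun r r1 r2 r3 r4 => ?_
  case refine_5 =>
    have hr : ap t r = r := by
      rw [ht, ap_mul, ap_root_fix hf hfa (polar_comm_zero r2) (polar_comm_zero r3),
        ap_root_fix he hea (polar_comm_zero r1) (polar_comm_zero r3)]
    simp only [pow_succ, pow_zero, one_mul, ap_mul, hr]
  all_goals simp only [pow_succ, pow_zero, one_mul, ap_mul, te, tf, ta, tb, map_add]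
  all_goals try (simp [add_comm, add_left_comm, add_assoc, add_vec_self (F := F), add_vec_cancel (F := F)])

lemma rot5_apply {e f a b : V} (h : Quad Q e f a b) :
    ap (root Q e a * root Q f b) e = e + f + a + b ∧ ap (root Q e a * root Q f b) f = e + f + a ∧
      ap (root Q e a * root Q f b) a = e + f ∧ ap (root Q e a * root Q f b) b = b + e ∧
      ∀ r, polar Q e r = 0 → polar Q f r = 0 → polar Q a r = 0 → polar Q b r = 0 →
        ap (root Q e a * root Q f b) r = r := by
  obtain ⟨⟨he, hf, hef⟩, hQa, hQb, hab, hea, heb, hfa, hfb⟩ := h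
  have hfe : polar Q f e = 1 := by rw [polar_comm]; exact hef
  have hba : polar Q b a = 1 := by rw [polar_comm]; exact hab
  refine ⟨?_, ?_, ?_, ?_, fun r r1 r2 r3 r4 => ?_⟩
  case refine_5 =>
    rw [ap_mul, ap_root_fix hf hfb (polar_comm_zero r2) (polar_comm_zero r4),
      ap_root_fix he hea (polar_comm_zero r1) (polar_comm_zero r3)]
  all_goals rw [ap_mul, ap_root hf hfb, ap_root he hea]
  all_goals simp [hef, hfe, hea, heb, hfa, hfb, hQa, hQb, hab, hba, polar_self_two, polar_add_left,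
    polar_sub_left, polar_smul_left, polar_comm Q a e, polar_comm Q a f, polar_comm Q b e,
    polar_comm Q b f, CharTwo.sub_eq_add, CharTwo.neg_eq, sub_eq_add_neg, neg_vec (F := F), CharTwo.two_eq_zero, CharTwo.add_self_eq_zero]
  all_goals try (simp [add_comm, add_left_comm, add_assoc, add_vec_self (F := F), add_vec_cancel (F := F)])

lemma rot5_pow {e f a b : V} (h : Quad Q e f a b) : (root Q e a * root Q f b) ^ 5 = 1 := by
  obtain ⟨te, tf, ta, tb, tR⟩ := rot5_apply h
  set t := root Q e a * root Q f b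
  refine eq_one_of_fix_symp h.pair.2.2 h.ab h.ea h.eb h.fa h.fb ?_ ?_ ?_ ?_
    fun r r1 r2 r3 r4 => ?_
  case refine_5 => simp only [pow_succ, pow_zero, one_mul, ap_mul, tR r r1 r2 r3 r4]
  all_goals simp only [pow_succ, pow_zero, one_mul, ap_mul, te, tf, ta, tb, map_add]
  all_goals try (simp [add_comm, add_left_comm, add_assoc, add_vec_self (F := F), add_vec_cancel (F := F)])

/-- Two elliptic pairs and a hyperbolic one in a hyperbolic six space. -/
lemma exists_quads [Finite V] (hQ : Nondeg Q) (h2 : Nat.card F = 2) {x x' : V}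
    (hx : IsHypPair Q (x, x')) (hd : finrank F (perp2 Q x x') = 6)
    (hz : vc (q2 Q x x') 0 = 36) :
    ∃ e f a' b' a b : V, Quad Q e f a' b' ∧ Quad Q x x' a b ∧
      (e ∈ perp2 Q x x' ∧ f ∈ perp2 Q x x' ∧ a' ∈ perp2 Q x x' ∧ b' ∈ perp2 Q x x' ∧
        a ∈ perp2 Q x x' ∧ b ∈ perp2 Q x x') ∧
      (polar Q e a = 0 ∧ polar Q e b = 0 ∧ polar Q f a = 0 ∧ polar Q f b = 0) ∧
      (polar Q a' a = 0 ∧ polar Q a' b = 0 ∧ polar Q b' a = 0 ∧ polar Q b' b = 0) ∧
      (∀ r ∈ perp2 Q x x', polar Q e r = 0 → polar Q f r = 0 → polar Q a' r = 0 →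
        polar Q b' r = 0 → polar Q a r = 0 → polar Q b r = 0 → r = 0) := by
  obtain ⟨E, E', hE⟩ := exists_hypPair (nondeg_q2 hQ hx) (by omega)
  have hr1 := finrank_perp2 hE
  have hs1 := vc_step' hE (0 : F)
  rw [hz, hd, h2] at hs1
  obtain ⟨Vv, Vv', hV⟩ := exists_hypPair (nondeg_q2 (nondeg_q2 hQ hx) hE) (by omega)
  have hr2 := finrank_perp2 hV
  have hs2 := vc_step' hV (0 : F)
  rw [h2, show finrank F (perp2 (q2 Q x x') E E') = 4 by omega] at hs2
  have hQ2 := nondeg_q2 (nondeg_q2 (nondeg_q2 hQ hx) hE) hV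
  obtain ⟨Y, hY, hY0⟩ : ∃ Y, q2 (q2 (q2 Q x x') E E') Vv Vv' Y = 0 ∧ Y ≠ 0 := by
    by_contra hcon
    simp only [not_exists, not_and, not_not] at hcon
    have : Nat.card {p // q2 (q2 (q2 Q x x') E E') Vv Vv' p = 0} = 1 := by
      rw [Nat.card_eq_one_iff_unique]
      exact ⟨⟨fun p r => Subtype.ext ((hcon _ p.2).trans (hcon _ r.2).symm)⟩,
        ⟨⟨0, QuadraticMap.map_zero _⟩⟩⟩
    rw [show (2 - 1) * 2 ^ (6 - 2) = 16 from rfl] at hs1
    rw [show (2 - 1) * 2 ^ (4 - 2) = 4 from rfl] at hs2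
    unfold vc at hs1 hs2
    rw [this] at hs2
    omega
  obtain ⟨Y', -, hp⟩ := (Sec.top _).exists_partner hQ2 (Sec.mem_top Y) hY hY0
  have hr3 := finrank_perp2 hp
  have last : ∀ r : perp2 (q2 (q2 (q2 Q x x') E E') Vv Vv') Y Y', r = 0 := by
    have h0 : finrank F (perp2 (q2 (q2 (q2 Q x x') E E') Vv Vv') Y Y') = 0 := by omega
    have h1 := card_eq_pow (F := F) (V := perp2 (q2 (q2 (q2 Q x x') E E') Vv Vv') Y Y')
    rw [h0, pow_zero, Nat.card_eq_one_iff_unique] at h1
    exact fun r => h1.1.elim r 0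
  obtain ⟨⟨v, hv⟩, hve⟩ := Vv
  obtain ⟨⟨v', hv'⟩, hve'⟩ := Vv'
  obtain ⟨⟨⟨y, hy⟩, hye⟩, hyv⟩ := Y
  obtain ⟨⟨⟨y', hy'⟩, hye'⟩, hyv'⟩ := Y'
  obtain ⟨e, he⟩ := E
  obtain ⟨f, hf⟩ := E'
  simp only [mem_perp2, polar_q2] at hv hv' hve hve' hy hye hyv hy' hye' hyv' he hf
  have pvv : polar Q v v' = 1 := by have := hV.2.2; simpa only [polar_q2] using this
  have pyy : polar Q y y' = 1 := by have := hp.2.2; simpa only [polar_q2] using this
  have Qv : Q v = 0 := hV.1
  have Qv' : Q v' = 0 := hV.2.1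
  have Qy : Q y = 0 := hp.1
  have Qy' : Q y' = 0 := hp.2.1
  have pef : IsHypPair Q (e, f) :=
    ⟨hE.1, hE.2.1, by have := hE.2.2; simpa only [polar_q2] using this⟩
  have pv'v : polar Q v' v = 1 := by rw [polar_comm]; exact pvv
  have py'y : polar Q y' y = 1 := by rw [polar_comm]; exact pyy
  refine ⟨e, f, v + v', v + y + y', y + y', y + v + v', ⟨pef, ?_, ?_, ?_, ?_, ?_, ?_, ?_⟩,
    ⟨hx, ?_, ?_, ?_, ?_, ?_, ?_, ?_⟩, ⟨mem_perp2.2 he, mem_perp2.2 hf, ?_, ?_, ?_, ?_⟩,
    ⟨?_, ?_, ?_, ?_⟩, ⟨?_, ?_, ?_, ?_⟩, fun r rM r1 r2 r3 r4 r5 r6 => ?_⟩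
  case refine_27 =>
    simp only [polar_add_left] at r3 r4 r5 r6
    have w1 : polar Q v r = 0 := by linear_combination r4 - r5
    have w2 : polar Q v' r = 0 := by linear_combination r3 - w1
    have w3 : polar Q y r = 0 := by linear_combination r6 - r3
    have w4 : polar Q y' r = 0 := by linear_combination r5 - w3
    have h0 := last ⟨⟨⟨⟨r, rM⟩, by simp [mem_perp2, polar_q2, r1, r2]⟩,
      by simp [mem_perp2, polar_q2, w1, w2]⟩, by simp [mem_perp2, polar_q2, w3, w4]⟩
    simpa [Subtype.ext_iff] using h0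
  case refine_15 | refine_16 | refine_17 | refine_18 =>
    rw [mem_perp2]
    simp [polar_add_right, hv, hv', hy, hy']
  all_goals simp [QuadraticMap.map_add ⇑Q, polar_add_right, polar_add_left, polar_self_two, Qv,
    Qv', Qy, Qy', pvv, pyy, pv'v, py'y, hv, hv', hy, hy', he, hf, hve, hve', hye, hye', hyv, hyv',
    polar_comm Q y v, polar_comm Q y' v, polar_comm Q y v', polar_comm Q y' v',
    CharTwo.add_self_eq_zero]

lemma pair_four (h2 : Nat.card F = 2) {p r q : F × F} (hp : p ≠ 0) (hr : r ≠ 0) (hrp : r ≠ p)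
    (hq : q ≠ 0) (hqp : q ≠ p) (hqr : q ≠ r) : q = r + p := by
  obtain ⟨p1, p2⟩ := p
  obtain ⟨r1, r2⟩ := r
  obtain ⟨q1, q2⟩ := q
  rcases eq_zero_or_one h2 p1 with rfl | rfl <;> rcases eq_zero_or_one h2 p2 with rfl | rfl <;>
    rcases eq_zero_or_one h2 r1 with rfl | rfl <;> rcases eq_zero_or_one h2 r2 with rfl | rfl <;>
    rcases eq_zero_or_one h2 q1 with rfl | rfl <;> rcases eq_zero_or_one h2 q2 with rfl | rfl <;>
    simp_all [Prod.ext_iff, CharTwo.add_self_eq_zero]

/-- No single regular orbit for the six-dimensional hyperbolic complement. -/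
theorem no_regular_plus8 {Ω : Type*} [MulAction (siegelGroup Q) Ω] (hQ : Nondeg Q)
    (h2 : Nat.card F = 2) {x x' : V} (hx : IsHypPair Q (x, x'))
    (hd : finrank F (perp2 Q x x') = 6) (hz : vc (q2 Q x x') 0 = 36) (z : Ω)
    (hall : ∀ y : V, Q y = 0 → y ≠ 0 → ∀ z' : Ω, IsReg Q y z')
    (hone : ∀ z' : Ω, z' ∈ orbT Q x x' z) : False := by
  have : Finite V := Module.finite_of_finite F
  obtain ⟨e, f, a', b', a, b, hU, hR, ⟨me, mf, ma', mb', ma, mb⟩, ⟨ea, eb, fa, fb⟩,
    ⟨a'a, a'b, b'a, b'b⟩, hlast⟩ := exists_quads hQ h2 hx hd hz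
  obtain ⟨te, tf, ta, tb, tR⟩ := rot5_apply hU
  have h5 := rot5_pow hU
  set t := root Q e a' * root Q f b' with ht
  obtain ⟨xe, x'e⟩ := mem_perp2.1 me
  obtain ⟨xf, x'f⟩ := mem_perp2.1 mf
  obtain ⟨xa', x'a'⟩ := mem_perp2.1 ma'
  obtain ⟨xb', x'b'⟩ := mem_perp2.1 mb'
  have tx : ap t x = x := tR x (polar_comm_zero xe) (polar_comm_zero xf) (polar_comm_zero xa')
    (polar_comm_zero xb')
  have tx' : ap t x' = x' := tR x' (polar_comm_zero x'e) (polar_comm_zero x'f)
    (polar_comm_zero x'a') (polar_comm_zero x'b')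
  have taa : ap t a = a := tR a ea fa a'a b'a
  have tbb : ap t b = b := tR b eb fb a'b b'b
  have hbot : ∀ z' : Ω, ∀ m : perp2 Q x x', root Q x (m : V) • z' = z' → m = 0 := fun z' m h =>
    eq_zero_of_root hx (hall x hx.1 hx.fst_ne_zero z' _ ⟨(mem_perp2.1 m.2).1, h⟩)
  have addT : ∀ (m m' : perp2 Q x x') (z' : Ω),
      root Q x (m : V) • root Q x (m' : V) • z' = root Q x ((m + m' : perp2 Q x x') : V) • z' :=
    fun m m' z' => by
      rw [← mul_smul, root_add hx.1 (mem_perp2.1 m.2).1 (mem_perp2.1 m'.2).1, Submodule.coe_add]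
  have injT : ∀ (z' : Ω) (m m' : perp2 Q x x'),
      root Q x (m : V) • z' = root Q x (m' : V) • z' → m = m' := fun z' m m' h => by
    refine sub_eq_zero.1 (hbot z' _ ?_)
    rw [← smul_left_cancel_iff (root Q x (m' : V)), addT, add_sub_cancel]
    exact h
  have mapM : ∀ m ∈ perp2 Q x x', ap t m ∈ perp2 Q x x' := fun m hm => by
    have := (ap_mem_perp2 t).2 hm
    rwa [tx, tx'] at this
  have commT : ∀ (m : V) (z' : Ω), t • root Q x m • z' = root Q x (ap t m) • t • z' :=
    fun m z' => by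
      conv_rhs => rw [← tx]
      rw [root_smul_ap]
  -- the displacement of `t`
  obtain ⟨s, hs⟩ := hone (t • z)
  have hs' : root Q x (s : V) • z = t • z := hs
  have iter : ∀ i : ℕ, ∃ r : perp2 Q x x', t ^ i • z = root Q x (r : V) • z ∧
      ∀ u, ap t u = u → polar Q u (r : V) = (i : F) * polar Q u (s : V) := by
    intro i
    induction i with
    | zero => exact ⟨0, by simp [root_zero], fun u _ => by simp⟩
    | succ i ih =>
      obtain ⟨r, hr, hrs⟩ := ih
      refine ⟨⟨ap t (r : V), mapM _ r.2⟩ + s, ?_, fun u hu => ?_⟩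
      · rw [pow_succ', mul_smul, hr, commT, ← hs', ← addT]
      · rw [Submodule.coe_add, polar_add_right, Nat.cast_add, Nat.cast_one, add_mul, one_mul]
        congr 1
        conv_lhs => rw [← hu]
        rw [polar_ap, hrs u hu]
  have hsR : ∀ u, ap t u = u → polar Q u (s : V) = 0 := fun u hu => by
    obtain ⟨r, hr, hrs⟩ := iter 5
    rw [h5, one_smul] at hr
    have h := hrs u hu
    rw [hbot z r hr.symm, ZeroMemClass.coe_zero, polar_zero_right] at h
    have h51 : ((5 : ℕ) : F) = 1 := by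
      push_cast
      linear_combination (2 : F) * (CharTwo.two_eq_zero : (2 : F) = 0)
    rw [h51, one_mul] at h
    exact h.symm
  -- a fixed point
  obtain ⟨r0, ⟨q1, q2', q3, q4⟩, hsdec⟩ :=
    split_four hU.pair.2.2 hU.ab hU.ea hU.eb hU.fa hU.fb (s : V)
  have hr00 : r0 = 0 := hQ _ fun u => by
    obtain ⟨r, ⟨u1, u2, u3, u4⟩, hu⟩ :=
      split_four hU.pair.2.2 hU.ab hU.ea hU.eb hU.fa hU.fb u
    have key := hsR r (tR r u1 u2 u3 u4)
    rw [hsdec] at key
    simp only [polar_add_right, polar_smul_right, polar_comm Q r e, polar_comm Q r f,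
      polar_comm Q r a', polar_comm Q r b', u1, u2, u3, u4, smul_zero, zero_add] at key
    rw [hu]
    simp only [polar_add_right, polar_smul_right, polar_comm Q r0 e, polar_comm Q r0 f,
      polar_comm Q r0 a', polar_comm Q r0 b', q1, q2', q3, q4, smul_zero, zero_add]
    rw [polar_comm]
    exact key
  rw [hr00, add_zero] at hsdec
  set mV : V := polar Q f (s : V) • b' + polar Q e (s : V) • (a' + f)
    + polar Q b' (s : V) • (f + b') + polar Q a' (s : V) • (e + a' + b') with hmV
  have hmM : mV ∈ perp2 Q x x' :=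
    Submodule.add_mem _ (Submodule.add_mem _ (Submodule.add_mem _ (Submodule.smul_mem _ _ mb')
      (Submodule.smul_mem _ _ (Submodule.add_mem _ ma' mf)))
      (Submodule.smul_mem _ _ (Submodule.add_mem _ mf mb')))
      (Submodule.smul_mem _ _ (Submodule.add_mem _ (Submodule.add_mem _ me ma') mb'))
  set z0 := root Q x mV • z with hz0
  have hfix : t • z0 = z0 := by
    rw [hz0, commT, ← hs', ← mul_smul,
      root_add hx.1 ((mem_perp2.1 (mapM _ hmM)).1) (mem_perp2.1 s.2).1]
    congr 2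
    rw [hmV, hsdec]
    simp only [map_add, map_smul, te, tf, ta, tb]
    simp only [polar_add_right, polar_smul_right, polar_self_two, hU.pair.2.2, hU.ab, hU.ea,
      hU.eb, hU.fa, hU.fb, polar_comm Q f e, polar_comm Q a' e, polar_comm Q b' e,
      polar_comm Q a' f, polar_comm Q b' f, polar_comm Q b' a', smul_eq_mul, mul_zero, mul_one,
      add_zero, zero_add]
    have h3 : (3 : F) = 1 := by linear_combination (CharTwo.two_eq_zero : (2 : F) = 0)
    match_scalars <;> ring_nf <;> simp [CharTwo.two_eq_zero, h3]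
  obtain ⟨c0, hc0⟩ := hone z0
  have toZ0 : ∀ z' : Ω, ∃ r : perp2 Q x x', root Q x (r : V) • z0 = z' := fun z' => by
    obtain ⟨c, hc⟩ := hone z'
    refine ⟨c - c0, ?_⟩
    have hc0' : root Q x (c0 : V) • z = z0 := hc0
    rw [← hc0', addT, sub_add_cancel]
    exact hc
  -- the four fixed points
  have four : ∀ z' : Ω, t • z' = z' →
      z' = z0 ∨ z' = root Q x a • z0 ∨ z' = root Q x b • z0 ∨ z' = root Q x (a + b) • z0 := by
    intro z' hz'
    obtain ⟨⟨r, hrM⟩, rfl⟩ := toZ0 z'
    rw [commT, hfix] at hz'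
    have he : ap t r = r := congrArg Subtype.val (injT z0 ⟨_, mapM _ hrM⟩ ⟨r, hrM⟩ hz')
    have k1 := polar_ap t e r
    have k2 := polar_ap t f r
    have k3 := polar_ap t a' r
    have k4 := polar_ap t b' r
    rw [he, te, polar_add_left, polar_add_left, polar_add_left] at k1
    rw [he, tf, polar_add_left, polar_add_left] at k2
    rw [he, ta, polar_add_left] at k3
    rw [he, tb, polar_add_left] at k4
    have u1 : polar Q e r = 0 := by linear_combination k4
    have u3 : polar Q a' r = 0 := by linear_combination k2 - u1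
    have u2 : polar Q f r = 0 := by linear_combination k3 + u3 - u1
    have u4 : polar Q b' r = 0 := by linear_combination k1 - u2 - u3
    obtain ⟨r', ⟨w1, w2, w3, w4⟩, hr⟩ :=
      split_four hx.2.2 hR.ab hR.ea hR.eb hR.fa hR.fb r
    obtain ⟨rx, rx'⟩ := mem_perp2.1 hrM
    rw [rx, rx', zero_smul, zero_smul, zero_add, zero_add] at hr
    have hre : ∀ c, polar Q c a = 0 → polar Q c b = 0 → polar Q c r' = polar Q c r :=
      fun c c1 c2 => by
        conv_rhs => rw [hr]
        simp [polar_add_right, polar_smul_right, c1, c2]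
    have hr' : r' = 0 := hlast r' (mem_perp2.2 ⟨w1, w2⟩) (by rw [hre e ea eb, u1])
      (by rw [hre f fa fb, u2]) (by rw [hre a' a'a a'b, u3]) (by rw [hre b' b'a b'b, u4]) w3 w4
    rw [hr', add_zero] at hr
    show root Q x r • z0 = z0 ∨ root Q x r • z0 = _ ∨ root Q x r • z0 = _ ∨ root Q x r • z0 = _
    rcases eq_zero_or_one h2 (polar Q b r) with c1 | c1 <;>
      rcases eq_zero_or_one h2 (polar Q a r) with c2 | c2 <;>
      rw [c1, c2] at hr <;> simp only [zero_smul, one_smul, add_zero, zero_add] at hr <;>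
      rw [hr] <;> simp [root_zero]
  -- the two root groups on the four points
  set A : perp2 Q x x' := ⟨a, ma⟩
  set B : perp2 Q x x' := ⟨b, mb⟩
  let φ : F × F → perp2 Q x x' := fun c => c.1 • A + c.2 • B
  let τ : F × F → Ω := fun c => root Q x (φ c : V) • z0
  have hφadd : ∀ c d, φ (c + d) = φ c + φ d := fun c d => by
    simp only [φ, Prod.fst_add, Prod.snd_add]
    module
  have τfix : ∀ c, t • τ c = τ c := fun c => by
    show t • root Q x (φ c : V) • z0 = root Q x (φ c : V) • z0
    rw [commT, hfix]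
    congr 2
    simp [φ, A, B, taa, tbb]
  have τinj : Function.Injective τ := fun c d hcd => by
    have h := congrArg Subtype.val (injT z0 _ _ hcd)
    have hba : polar Q b a = 1 := by rw [polar_comm]; exact hR.ab
    have h1 := congrArg (polar Q b) h
    have h3 := congrArg (polar Q a) h
    simp [φ, A, B, polar_add_right, polar_smul_right, CharTwo.two_eq_zero, hba, hR.ab] at h1 h3
    exact Prod.ext h1 h3
  have τadd : ∀ c d, root Q x (φ c : V) • τ d = τ (d + c) := fun c d => by
    show root Q x (φ c : V) • root Q x (φ d : V) • z0 = root Q x (φ (d + c) : V) • z0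
    rw [addT, add_comm d c, hφadd]
  have τa : ∀ d, root Q x a • τ d = τ (d + (1, 0)) := fun d => by
    rw [← τadd]; simp [φ, A]
  have τ0 : τ 0 = z0 := by simp [τ, φ, root_zero]
  have inFour : ∀ z' : Ω, t • z' = z' → ∃ c, z' = τ c := fun z' hz' => by
    rcases four z' hz' with h | h | h | h
    · exact ⟨0, h.trans τ0.symm⟩
    · exact ⟨(1, 0), by simp [τ, φ, A, h]⟩
    · exact ⟨(0, 1), by simp [τ, φ, B, h]⟩
    · exact ⟨(1, 1), by simp [τ, φ, A, B, h]⟩
  have hx' : IsHypPair Q (x', x) := ⟨hx.2.1, hx.1, by rw [polar_comm]; exact hx.2.2⟩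
  have hx'0 : x' ≠ 0 := hx'.fst_ne_zero
  have free : ∀ w ∈ perp2 Q x x', w ≠ 0 → ∀ z' : Ω, root Q x' w • z' ≠ z' := fun w hw hw0 z' h => by
    have hw' : w ∈ perp2 Q x' x := mem_perp2.2 ⟨(mem_perp2.1 hw).2, (mem_perp2.1 hw).1⟩
    exact hw0 (congrArg Subtype.val (eq_zero_of_root hx'
      (w := ⟨w, hw'⟩) (hall x' hx.2.1 hx'0 z' w ⟨(mem_perp2.1 hw).2, h⟩)))
  have shift : ∀ w ∈ perp2 Q x x', w ≠ 0 → ap t w = w →
      ∃ p, ∀ c, root Q x' w • τ c = τ (c + p) := by
    intro w hw hw0 htw
    have hpol := (mem_perp2.1 hw).2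
    have hinv : ∀ z' : Ω, root Q x' w • root Q x' w • z' = z' := fun z' => by
      rw [← mul_smul, root_add hx.2.1 hpol hpol, add_vec_self (F := F), root_zero, one_smul]
    have hmove : ∀ c, ∃ d, root Q x' w • τ c = τ d := fun c => by
      refine inFour _ ?_
      rw [← root_smul_ap, tx', htw, τfix]
    choose f hf using hmove
    have hff : ∀ c, f (f c) = c := fun c => τinj (by rw [← hf, ← hf, hinv])
    have hne : ∀ c, f c ≠ c := fun c h => free w hw hw0 (τ c) (by rw [hf, h])
    refine ⟨f 0, fun c => ?_⟩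
    rw [hf]
    congr 1
    by_cases hc : c = 0
    · rw [hc, zero_add]
    by_cases hcp : c = f 0
    · rw [hcp, hff]
      ext <;> simp [CharTwo.add_self_eq_zero]
    exact pair_four h2 (hne 0) hc hcp (fun h => hcp (by rw [← hff c, h]))
      (fun h => hc (by have := congrArg f h; rwa [hff, hff] at this)) (hne c)
  have ha0 : a ≠ 0 := fun h => one_ne_zero (by rw [← hR.Qa, h, QuadraticMap.map_zero])
  have hb0 : b ≠ 0 := fun h => one_ne_zero (by rw [← hR.Qb, h, QuadraticMap.map_zero])
  obtain ⟨p, hp⟩ := shift a ma ha0 taa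
  obtain ⟨p', hp'⟩ := shift b mb hb0 tbb
  have k3 := congrArg (· • τ 0) (rot3_pow hR)
  have k5 := congrArg (· • τ 0) (rot5_pow hR)
  simp only [pow_succ, pow_zero, one_mul, mul_smul, one_smul, hp, hp', τa, zero_add] at k3 k5
  have e3 := τinj k3
  have e5 := τinj k5
  have hpa : p = (1, 0) := by
    rw [Prod.ext_iff] at e3 ⊢
    simp only [Prod.fst_add, Prod.snd_add, Prod.fst_zero, Prod.snd_zero] at e3 ⊢
    exact ⟨by linear_combination e3.1 - (p.1 + 2) * (CharTwo.two_eq_zero : (2 : F) = 0),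
      by linear_combination e3.2 - p.2 * (CharTwo.two_eq_zero : (2 : F) = 0)⟩
  have hpb : p' = (1, 0) := by
    rw [Prod.ext_iff] at e5 ⊢
    simp only [Prod.fst_add, Prod.snd_add, Prod.fst_zero, Prod.snd_zero] at e5 ⊢
    exact ⟨by linear_combination e5.1 - (2 * p'.1 + 3) * (CharTwo.two_eq_zero : (2 : F) = 0),
      by linear_combination e5.2 - 2 * p'.2 * (CharTwo.two_eq_zero : (2 : F) = 0)⟩
  have hab0 : a + b ≠ 0 := fun h => by
    have h1 := congrArg (polar Q a) h
    simp [polar_add_right, CharTwo.two_eq_zero, hR.ab] at h1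
  refine free (a + b) (Submodule.add_mem _ ma mb) hab0 (τ 0) ?_
  rw [← root_add hx.2.1 (mem_perp2.1 ma).2 (mem_perp2.1 mb).2, mul_smul, hp', hp, hpa, hpb]
  congr 1
  ext <;> simp [CharTwo.add_self_eq_zero]


end CfsgLib.MinIndexOrth
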