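import Cfsg.Agent.Lib.MinIndex.Orth.Levi2

/-!
Orbit bounds for subspaces that do not need a large field: one vector, a singular vector with all
vectors not orthogonal to it, and two independent vectors.
-/

set_option autoImplicit false
set_option linter.unusedSectionVars false

namespace CfsgLib.MinIndexOrth

open QuadraticMap Module CfsgLib.ClassicalForms

variable {F : Type*} [Field F] [Finite F] {M : Type*} [AddCommGroup M] [Module F M]
  [FiniteDimensional F M] {Q : QuadraticForm F M}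

lemma singular_span {v v' : M} (hQ : Nondeg Q) (h : IsHypPair Q (v, v'))
    (hd : 5 ≤ finrank F M) {x : M} (hx : x ∈ perp2 Q v v') {θ : M →ₗ[F] F}
    (hθ : ∀ y ∈ perp2 Q v v', Q y = 0 → θ y = 0) : θ x = 0 := by
  set m : perp2 Q v v' := ⟨x, hx⟩
  by_cases hm : m = 0
  · rw [show x = 0 from congrArg Subtype.val hm, map_zero]
  have hr := finrank_perp2 h
  obtain ⟨e, -, he, hem⟩ := (Sec.top (q2 Q v v')).exists_singular_polar_one (nondeg_q2 hQ h)
    (by omega) (Sec.mem_top m) hm
  set m' : perp2 Q v v' := m - q2 Q v v' m • e with hm'def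
  have hm' : q2 Q v v' m' = 0 := by
    rw [hm'def, map_sub_eq, QuadraticMap.map_smul, he, smul_zero, polar_smul_right,
      polar_comm _ m e, hem, smul_eq_mul, mul_one, add_zero, sub_self]
  have e1 : x = (m' : M) + q2 Q v v' m • (e : M) := by
    show (m : M) = _
    rw [← Submodule.coe_smul, ← Submodule.coe_add, hm'def, sub_add_cancel]
  rw [e1, map_add, map_smul, hθ _ m'.2 hm', hθ _ e.2 he, smul_zero, add_zero]

lemma card_eq_map_mul_inf' {G H : Type*} [AddCommGroup G] [AddCommGroup H] (f : G →+ H)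
    (S : AddSubgroup G) :
    Nat.card S = Nat.card (S.map f) * Nat.card (S ⊓ f.ker : AddSubgroup G) := by
  set g : S →+ H := f.comp S.subtype with hg
  have e1 : Nat.card (S ⧸ g.ker) = Nat.card (S.map f) := by
    rw [Nat.card_congr (QuotientAddGroup.quotientKerEquivRange g).toEquiv, hg,
      AddMonoidHom.range_comp, AddSubgroup.range_subtype]
  have e2 : Nat.card g.ker = Nat.card (S ⊓ f.ker : AddSubgroup G) :=
    Nat.card_congr
      { toFun := fun x => ⟨((x : S) : G), (x : S).2, x.2⟩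
        invFun := fun x => ⟨⟨(x : G), x.2.1⟩, x.2.2⟩
        left_inv := fun _ => rfl
        right_inv := fun _ => rfl }
  rw [AddSubgroup.card_eq_card_quotient_mul_card_addSubgroup g.ker, e1, e2]

variable [Finite M]

/-- A singular vector orthogonal to `v` and not to an independent `w`. -/
lemma exists_moving (hQ : Nondeg Q) (hd : 5 ≤ finrank F M) {v w : M} (hv0 : v ≠ 0)
    (hind : ∀ c : F, w ≠ c • v) :
    ∃ y, Q y = 0 ∧ polar Q v y = 0 ∧ polar Q w y ≠ 0 := by
  by_contra hcon
  simp only [not_exists, not_and, not_not] at hcon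
  by_cases hQv : Q v = 0
  · obtain ⟨v', -, hp⟩ := (Sec.top Q).exists_partner hQ (Sec.mem_top v) hQv hv0
    have h1 : ∀ x ∈ perp2 Q v v', polar Q w x = 0 := fun x hx =>
      singular_span hQ hp hd hx (θ := polarBilin Q w) fun y hy hQy => by
        rw [polarBilin_apply_apply]; exact hcon y hQy (mem_perp2.1 hy).1
    have h2 : polar Q w v = 0 := hcon v hQv (by rw [polar_self_mul, hQv, mul_zero])
    refine hind (polar Q v' w) (sub_eq_zero.1 (hQ _ fun z => ?_))
    have h3 : polar Q v (proj2 hp z : M) = 0 := (mem_perp2.1 (proj2 hp z).2).1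
    rw [decomp2 hp z, polar_sub_left, polar_smul_left, polar_add_right, polar_add_right,
      polar_add_right, polar_add_right, polar_smul_right, polar_smul_right, polar_smul_right,
      polar_smul_right, h1 _ (proj2 hp z).2, h2, h3, hp.2.2, polar_comm Q v' w,
      polar_self_mul, hQv]
    simp [mul_comm]
  · obtain ⟨u, -, hQu, huv⟩ := (Sec.top Q).exists_singular_polar_one hQ (by omega) (Sec.mem_top v) hv0
    set f := v - Q v • u with hf
    have hQf : Q f = 0 := by
      rw [hf, map_sub_eq, QuadraticMap.map_smul, hQu, polar_smul_right, polar_comm Q v u, huv]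
      simp
    have huf : polar Q u f = 1 := by
      simp [hf, polar_sub_right, polar_smul_right, polar_self_mul, hQu, huv]
    have hp : IsHypPair Q (u, f) := ⟨hQu, hQf, huf⟩
    have hv : v = f + Q v • u := by rw [hf]; abel
    have hperp : ∀ x ∈ perp2 Q u f, polar Q v x = 0 := fun x hx => by
      rw [hv, polar_add_left, polar_smul_left, (mem_perp2.1 hx).1, (mem_perp2.1 hx).2, smul_zero,
        add_zero]
    have h1 : ∀ x ∈ perp2 Q u f, polar Q w x = 0 := fun x hx =>
      singular_span hQ hp hd hx (θ := polarBilin Q w) fun y hy hQy => by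
        rw [polarBilin_apply_apply]; exact hcon y hQy (hperp y hy)
    -- a singular vector orthogonal to `v` with a component in the pair
    obtain ⟨m, hm⟩ : ∃ m : perp2 Q u f, q2 Q u f m = Q v := by
      have hr := finrank_perp2 hp
      have h3 := le_vc_of_three (nondeg_q2 hQ hp) (by omega) (Q v)
      have hq : 1 < Nat.card F := Finite.one_lt_card
      have h4 : 0 < vc (q2 Q u f) (Q v) :=
        lt_of_lt_of_le (Nat.mul_pos (by omega) (pow_pos (by omega) _)) h3
      obtain ⟨m, hm⟩ := (Finite.card_pos_iff.1 h4).some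
      exact ⟨m, hm⟩
    set y := (-Q v) • u + (1 : F) • f + (m : M) with hy
    have hQy : Q y = 0 := by
      rw [hy, map_decomp hp _ _ m.2, ← q2_apply m, hm]
      ring
    have hfu : polar Q f u = 1 := by rw [polar_comm]; exact huf
    have hvy : polar Q v y = 0 := by
      rw [hy, polar_add_right, hperp _ m.2, hv]
      simp [polar_add_left, polar_add_right, polar_smul_left, polar_smul_right, polar_self_mul,
        hQu, hQf, huf, hfu]
      rw [← hv, neg_add_cancel]
    have h2 := hcon y hQy hvy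
    rw [hy, polar_add_right, h1 _ m.2, polar_add_right, polar_smul_right, polar_smul_right] at h2
    simp only [smul_eq_mul, one_mul, add_zero, neg_mul] at h2
    refine hind (polar Q u w) (sub_eq_zero.1 (hQ _ fun z => ?_))
    have h3 : polar Q v (proj2 hp z : M) = 0 := hperp _ (proj2 hp z).2
    have h4 : polar Q v u = 1 := by rw [polar_comm]; exact huv
    have h5 : polar Q v f = Q v := by
      rw [hv]
      simp [polar_add_left, polar_smul_left, polar_self_mul, hQf, huf]
      rw [← hv]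
    rw [decomp2 hp z, polar_sub_left, polar_smul_left, polar_add_right, polar_add_right,
      polar_add_right, polar_add_right, polar_smul_right, polar_smul_right, polar_smul_right,
      polar_smul_right, h1 _ (proj2 hp z).2, h3, h4, h5, polar_comm Q u w]
    simp only [smul_eq_mul, add_zero]
    linear_combination (polar Q u z) * h2

/-- The stabiliser of a vector moves an independent vector to many vectors. -/
theorem move_card (hQ : Nondeg Q) (hd : 5 ≤ finrank F M) {v w : M} (hv0 : v ≠ 0)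
    (hind : ∀ c : F, w ≠ c • v) :
    Nat.card F ^ (finrank F M - 3)
      ≤ Nat.card {x : M | ∃ g ∈ siegelGroup Q, (g : M ≃ₗ[F] M) v = v ∧ (g : M ≃ₗ[F] M) w = x} := by
  obtain ⟨y, hQy, hvy, hwy⟩ := exists_moving hQ hd hv0 hind
  set S := {x : M | ∃ g ∈ siegelGroup Q, (g : M ≃ₗ[F] M) v = v ∧ (g : M ≃ₗ[F] M) w = x}
  have hy0 : y ≠ 0 := fun h => hwy (by rw [h, polar_zero_right])
  set X : Submodule F M :=
    LinearMap.ker (polarBilin Q v) ⊓ LinearMap.ker (polarBilin Q y) with hX
  have hXr : finrank F M ≤ finrank F X + 2 := by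
    have h1 := LinearMap.finrank_range_add_finrank_ker ((polarBilin Q v).prod (polarBilin Q y))
    have h2 := Submodule.finrank_le (LinearMap.range ((polarBilin Q v).prod (polarBilin Q y)))
    rw [LinearMap.ker_prod, ← hX] at h1
    rw [finrank_prod, finrank_self] at h2
    omega
  obtain ⟨θ, hθ⟩ := exists_functional_ne_zero (F := F) hy0
  have hmem : ∀ x : X, polar Q y (x : M) = 0 ∧ polar Q v (x : M) = 0 := fun x =>
    ⟨LinearMap.mem_ker.1 (Submodule.mem_inf.1 x.2).2, LinearMap.mem_ker.1 (Submodule.mem_inf.1 x.2).1⟩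
  let e : X → S × F := fun x => (⟨(siegel Q y (x : M) hQy (hmem x).1 : M ≃ₗ[F] M) w, _,
    siegel_mem_siegelGroup hQy (hmem x).1, by
      simp [siegel_apply, hvy, (hmem x).2], rfl⟩, θ (x : M))
  have he : Function.Injective e := by
    intro a b hab
    simp only [e, Prod.mk.injEq] at hab
    obtain ⟨h1, h2⟩ := hab
    have h1' := congrArg (fun t : S => (t : M)) h1
    simp only [siegel_apply] at h1'
    set ka := polar Q w (a : M) + Q (a : M) * polar Q w y
    set kb := polar Q w (b : M) + Q (b : M) * polar Q w y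
    have h3 : polar Q w y • ((a : M) - (b : M)) = (ka - kb) • y := by
      rw [smul_sub, sub_smul]
      linear_combination (norm := module) h1'
    have h4 := congrArg θ h3
    rw [map_smul, map_smul, map_sub, h2, sub_self, smul_zero, smul_eq_mul] at h4
    rw [(mul_eq_zero.1 h4.symm).resolve_right hθ, zero_smul, smul_eq_zero, sub_eq_zero] at h3
    exact Subtype.ext (h3.resolve_left hwy)
  have h5 := Nat.card_le_card_of_injective e he
  rw [Nat.card_prod, card_eq_pow (F := F) (V := X)] at h5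
  refine Nat.le_of_mul_le_mul_right (c := Nat.card F) ?_ Nat.card_pos
  refine le_trans ?_ h5
  rw [← pow_succ]
  exact Nat.pow_le_pow_right Nat.card_pos (by omega)

namespace Lev

variable (L : Lev Q)

/-- A vector of given value in `A`. -/
theorem value_bound_one (hQ : Nondeg Q) (hd : 5 ≤ finrank F M) {A : AddSubgroup M} {w : M}
    (hwA : w ∈ A) (hw : Q w ≠ 0) : vc Q (Q w) ≤ L.cnum A * (Nat.card A - 1) := by
  have hA : Nat.card {x : M // x ∈ A ∧ x ≠ 0} + 1 = Nat.card A :=
    card_punctured (fun x => x ∈ A) A.zero_mem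
  rw [show Nat.card A - 1 = Nat.card {x : M // x ∈ A ∧ x ≠ 0} by omega]
  refine L.cover_orb A {x : M | Q x = Q w} (fun B => {x | x ∈ B ∧ x ≠ 0}) (fun γ => tw γ)
    (fun γ _ => ?_) (fun o ho => ?_)
  · ext x
    constructor
    · rintro ⟨hx, hx0⟩
      obtain ⟨y, hy, rfl⟩ : ∃ y ∈ A, tw γ y = x := hx
      exact ⟨y, ⟨hy, fun h => hx0 (by rw [h, map_zero])⟩, rfl⟩
    · rintro ⟨y, ⟨hy, hy0⟩, rfl⟩
      exact ⟨mem_twSub.2 hy, fun h => hy0 ((LinearEquiv.map_eq_zero_iff _).1 h)⟩
  · obtain ⟨g, hg, e⟩ := (Sec.top Q).transitive_norm hQ (by omega) (Sec.mem_top w) (Sec.mem_top o)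
      (show Q w = Q o from ho.symm) hw
    exact ⟨(g, 1), L.siegel_mem g hg.1, w, ⟨hwA, fun h => hw (by rw [h, QuadraticMap.map_zero])⟩,
      (tw_siegel g w).trans e⟩

/-- Any non-zero vector of `A`, when no value class is smaller than `μ`. -/
theorem vec_bound (hQ : Nondeg Q) (hd : 5 ≤ finrank F M) {μ : ℕ} (hμ : μ ≤ vc Q 0 - 1)
    (hval : ∀ a : F, a ≠ 0 → μ ≤ vc Q a)
    {A : AddSubgroup M} (hA : A ≠ ⊥) : μ ≤ L.cnum A * (Nat.card A - 1) := by
  obtain ⟨w, hw⟩ := AddSubgroup.ne_bot_iff_exists_ne_zero.1 hA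
  have hw0 : (w : M) ≠ 0 := fun h => hw (Subtype.ext h)
  by_cases h : Q (w : M) = 0
  · exact hμ.trans (L.singular_bound hQ hd w.2 h hw0)
  · exact le_trans (hval _ h) (L.value_bound_one hQ hd w.2 h)

/-- A singular vector and all vectors not orthogonal to it, for a subspace. -/
theorem nonperp_full (hQ : Nondeg Q) (hd : 5 ≤ finrank F M) {A : AddSubgroup M}
    (hsc : ∀ (c : F) (x : M), x ∈ A → c • x ∈ A) {v w : M}
    (hvA : v ∈ A) (hwA : w ∈ A) (hv : Q v = 0) (hvw : polar Q v w ≠ 0) :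
    (vc Q 0 - 1) * Nat.card F ^ finrank F M
      ≤ L.cnum A * (Nat.card A * (Nat.card A - 1)) := by
  classical
  have := Fintype.ofFinite M
  have hv0 : v ≠ 0 := fun h => hvw (by rw [h, polar_zero_left])
  set q := Nat.card F with hqdef
  have hq1 : 1 < q := Finite.one_lt_card
  let O : Set (M × M) := {p | (Q p.1 = 0 ∧ p.1 ≠ 0) ∧ polar Q p.1 p.2 ≠ 0}
  let f : AddSubgroup M → Set (M × M) := fun B =>
    {p | (p.1 ∈ B ∧ Q p.1 = 0 ∧ p.1 ≠ 0) ∧ p.2 ∈ B ∧ polar Q p.1 p.2 ≠ 0}
  have hcov : Nat.card O ≤ L.cnum A * Nat.card (f A) := by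
    refine L.cover_orb A O f (fun δ => Prod.map (tw δ) (tw δ)) (fun δ _ => ?_) ?_
    · ext p
      constructor
      · rintro ⟨⟨h1, h1', h1''⟩, h2, h2'⟩
        obtain ⟨x, hx, e1⟩ : ∃ x ∈ A, tw δ x = p.1 := h1
        obtain ⟨y, hy, e2⟩ : ∃ y ∈ A, tw δ y = p.2 := h2
        refine ⟨(x, y), ⟨⟨hx, (Q_tw_eq_zero δ x).1 (e1 ▸ h1'), fun h => h1'' ?_⟩, hy, fun h => h2' ?_⟩,
          Prod.ext e1 e2⟩
        · rw [← e1, show x = 0 from h, map_zero]
        · rw [← e1, ← e2, polar_tw, show polar Q x y = 0 from h, mul_zero]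
      · rintro ⟨x, ⟨⟨hx, hx', hx''⟩, hy, hy'⟩, rfl⟩
        refine ⟨⟨mem_twSub.2 hx, (Q_tw_eq_zero δ _).2 hx',
          fun h => hx'' ((LinearEquiv.map_eq_zero_iff _).1 h)⟩, mem_twSub.2 hy, fun h => hy' ?_⟩
        rw [Prod.map_fst, Prod.map_snd, polar_tw] at h
        exact (mul_eq_zero.1 h).resolve_left (mul_ne_zero δ.2.ne_zero δ.2.ne_zero)
    · rintro ⟨x, y⟩ ⟨⟨hx, hx0⟩, hxy⟩
      have hxy' : polar Q x y ≠ 0 := hxy
      obtain ⟨g, hg, eg⟩ := (Sec.top Q).transitive_singular hQ (by omega) (Sec.mem_top v)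
        (Sec.mem_top x) hv hx hv0 hx0
      set β := polar Q v w with hβ
      set y1 := (g : M ≃ₗ[F] M) w with hy1
      have hxy1 : polar Q x y1 = β := by rw [hy1, ← eg, polar_apply]
      set r := β / polar Q x y with hr
      set t := (Q w - Q (r • y)) / β with ht
      have hb : polar Q x (r • y + t • x) = polar Q x y1 := by
        rw [hxy1, polar_add_right, polar_smul_right, polar_smul_right, polar_self_mul,
          show Q x = 0 from hx, smul_eq_mul, smul_eq_mul, mul_zero, mul_zero, add_zero, hr,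
          div_mul_cancel₀ _ hxy']
      have hq : Q (r • y + t • x) = Q y1 := by
        rw [hy1, orth_apply, QuadraticMap.map_add ⇑Q, QuadraticMap.map_smul Q t x,
          show Q x = 0 from hx, smul_zero, add_zero, polar_smul_left, polar_smul_right,
          polar_comm Q y x, smul_eq_mul, smul_eq_mul, ht, hr]
        field_simp
        ring
      obtain ⟨g', hg', e1, e2⟩ := translate hx (hxy1.symm ▸ hvw) hb hq
      have hr0 : r ≠ 0 := div_ne_zero hvw hxy'
      refine ⟨(g' * g, 1), L.siegel_mem _ (mul_mem hg' hg.1),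
        (v, r⁻¹ • (w - t • v)), ⟨⟨hvA, hv, hv0⟩, hsc _ _ (A.sub_mem hwA (hsc _ _ hvA)), ?_⟩, ?_⟩
      · rw [polar_smul_right, polar_sub_right, polar_smul_right, polar_self_mul, hv]
        simpa [hr0] using hvw
      · refine Prod.ext ?_ ?_
        · show tw _ v = x
          rw [tw_siegel, orth_mul_apply, eg, e1]
        · show tw _ (r⁻¹ • (w - t • v)) = y
          rw [map_smul, map_sub, map_smul, tw_siegel, tw_siegel, orth_mul_apply, orth_mul_apply,
            eg, e1, e2, add_sub_cancel_right, smul_smul, inv_mul_cancel₀ hr0, one_smul]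
  have hbase : Nat.card {x : M // Q x = 0 ∧ x ≠ 0} + 1 = vc Q 0 :=
    card_punctured (fun x => Q x = 0) (QuadraticMap.map_zero Q)
  have hsplit : ∀ (S : AddSubgroup M) (x : M),
      Nat.card {y : M // y ∈ S ∧ polar Q x y ≠ 0} * q ≤ (q - 1) * Nat.card S := by
    intro S x
    set θ : M →+ F := (polarBilin Q x).toAddMonoidHom
    set K := S ⊓ θ.ker
    have h1 : Nat.card {y : M // y ∈ S ∧ polar Q x y ≠ 0} + Nat.card K = Nat.card S := by
      have e := Set.ncard_sdiff_add_ncard_of_subset (s := (K : Set M)) (t := (S : Set M))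
        (fun y hy => hy.1) (Set.toFinite _)
      have e' : ((S : Set M) \ (K : Set M)) = {y | y ∈ S ∧ polar Q x y ≠ 0} := by
        ext y
        exact ⟨fun hy => ⟨hy.1, fun h => hy.2 ⟨hy.1, h⟩⟩, fun hy => ⟨hy.1, fun h => hy.2 h.2⟩⟩
      rw [e', ← Nat.card_coe_set_eq, ← Nat.card_coe_set_eq, ← Nat.card_coe_set_eq] at e
      exact e
    have h2 : Nat.card S ≤ q * Nat.card K := by
      rw [card_eq_map_mul_inf' θ S]
      exact Nat.mul_le_mul_right _ (Nat.card_le_card_of_injective _ Subtype.val_injective)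
    have h3 : (q - 1) * Nat.card S + Nat.card S = q * Nat.card S := by
      rw [← Nat.add_one_mul, Nat.sub_add_cancel hq1.le]
    nlinarith [h1, h2, h3]
  have hO : (vc Q 0 - 1) * ((q - 1) * q ^ finrank F M) ≤ Nat.card O * q := by
    have hx : ∀ x : {x : M // Q x = 0 ∧ x ≠ 0},
        Nat.card {y : M // polar Q (x : M) y ≠ 0} * q = (q - 1) * q ^ finrank F M := fun x => by
      obtain ⟨y0, hy0⟩ := hQ.exists_polar_ne x.2.2
      have hs : Function.Surjective (polarBilin Q (x : M)) := fun c =>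
        ⟨(c / polar Q (x : M) y0) • y0, by
          rw [polarBilin_apply_apply, polar_smul_right, smul_eq_mul, div_mul_cancel₀ _ hy0]⟩
      have h1 := LinearMap.finrank_range_add_finrank_ker (polarBilin Q (x : M))
      rw [LinearMap.range_eq_top.2 hs, finrank_top, finrank_self] at h1
      have e : Nat.card {y : M // polar Q (x : M) y ≠ 0}
          + Nat.card (LinearMap.ker (polarBilin Q (x : M))) = Nat.card M := by
        rw [← Nat.card_sum]
        exact Nat.card_congr ((Equiv.sumComm _ _).trans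
          (Equiv.sumCompl (fun y => polar Q (x : M) y = 0)))
      rw [card_eq_pow (F := F) (V := LinearMap.ker (polarBilin Q (x : M))),
        card_eq_pow (F := F) (V := M), ← hqdef, ← h1, add_comm 1 _, pow_succ] at e
      rw [← h1, add_comm 1 _, pow_succ]
      obtain ⟨r, hr⟩ : ∃ r, q = r + 1 := ⟨q - 1, by omega⟩
      rw [hr] at e ⊢
      rw [Nat.add_sub_cancel]
      nlinarith [e]
    refine le_of_eq ?_
    calc (vc Q 0 - 1) * ((q - 1) * q ^ finrank F M)
        = ∑ x : {x : M // Q x = 0 ∧ x ≠ 0}, Nat.card {y : M // polar Q (x : M) y ≠ 0} * q := by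
          rw [Finset.sum_congr rfl (fun x _ => hx x), Finset.sum_const, Finset.card_univ,
            ← Nat.card_eq_fintype_card, smul_eq_mul,
            show vc Q 0 - 1 = Nat.card {x : M // Q x = 0 ∧ x ≠ 0} by omega]
      _ = Nat.card O * q := by
          rw [← Finset.sum_mul, ← Nat.card_sigma]
          congr 1
          exact Nat.card_congr
            { toFun := fun p => ⟨((p.1 : M), (p.2 : M)), p.1.2, p.2.2⟩
              invFun := fun o => ⟨⟨o.1.1, o.2.1⟩, o.1.2, o.2.2⟩
              left_inv := fun _ => rfl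
              right_inv := fun _ => rfl }
  have hf : Nat.card (f A) * q ≤ (Nat.card A - 1) * ((q - 1) * Nat.card A) := by
    have hA : Nat.card {x : M // x ∈ A ∧ x ≠ 0} + 1 = Nat.card A :=
      card_punctured (fun x => x ∈ A) A.zero_mem
    rw [show Nat.card A - 1 = Nat.card {x : M // x ∈ A ∧ x ≠ 0} by omega]
    calc Nat.card (f A) * q
        ≤ (∑ x : {x : M // x ∈ A ∧ x ≠ 0}, Nat.card {y : M // y ∈ A ∧ polar Q (x : M) y ≠ 0}) * q := by
          rw [← Nat.card_sigma]
          refine Nat.mul_le_mul_right _ (Nat.card_le_card_of_injective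
            (fun p : f A => ⟨⟨p.1.1, p.2.1.1, p.2.1.2.2⟩, p.1.2, p.2.2⟩) ?_)
          intro a b h
          simp only [Sigma.mk.injEq, Subtype.mk.injEq] at h
          obtain ⟨h1, h2⟩ := h
          exact Subtype.ext (Prod.ext h1 (by
            revert h2
            obtain ⟨⟨a1, a2⟩, ha⟩ := a
            obtain ⟨⟨b1, b2⟩, hb⟩ := b
            obtain rfl : a1 = b1 := h1
            intro h2
            exact congrArg Subtype.val (eq_of_heq h2)))
      _ ≤ ∑ _x : {x : M // x ∈ A ∧ x ≠ 0}, (q - 1) * Nat.card A := by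
          rw [Finset.sum_mul]
          exact Finset.sum_le_sum fun x _ => hsplit A x
      _ = _ := by rw [Finset.sum_const, Finset.card_univ, ← Nat.card_eq_fintype_card, smul_eq_mul]
  have h := calc (vc Q 0 - 1) * q ^ finrank F M * (q - 1)
      = (vc Q 0 - 1) * ((q - 1) * q ^ finrank F M) := by ring
    _ ≤ Nat.card O * q := hO
    _ ≤ L.cnum A * Nat.card (f A) * q := Nat.mul_le_mul_right _ hcov
    _ = L.cnum A * (Nat.card (f A) * q) := by ring
    _ ≤ L.cnum A * ((Nat.card A - 1) * ((q - 1) * Nat.card A)) := Nat.mul_le_mul_left _ hf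
    _ = L.cnum A * (Nat.card A * (Nat.card A - 1)) * (q - 1) := by ring
  exact Nat.le_of_mul_le_mul_right h (by omega)

/-- Two independent vectors in a plane. -/
theorem plane_bound (hQ : Nondeg Q) (hd : 5 ≤ finrank F M) {μ : ℕ} (hμ : μ ≤ vc Q 0 - 1)
    (hval : ∀ a : F, a ≠ 0 → μ ≤ vc Q a) (A : Submodule F M) (hA : finrank F A = 2) :
    μ * Nat.card F ^ (finrank F M - 3)
      ≤ L.cnum A.toAddSubgroup
        * ((Nat.card F ^ 2 - 1) * (Nat.card F ^ 2 - Nat.card F)) := by
  classical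
  have := Fintype.ofFinite M
  have hne : A ≠ ⊥ := fun h => by rw [h, finrank_bot] at hA; omega
  obtain ⟨v, hv, hv0⟩ := Submodule.exists_mem_ne_zero_of_ne_bot hne
  obtain ⟨w, hw, hwv⟩ : ∃ w ∈ A, w ∉ Submodule.span F ({v} : Set M) := by
    by_contra hcon
    simp only [not_exists, not_and, not_not] at hcon
    have h := Submodule.finrank_mono hcon
    rw [finrank_span_singleton hv0] at h
    omega
  have hind : ∀ c : F, w ≠ c • v := fun c h => hwv (Submodule.mem_span_singleton.2 ⟨c, h.symm⟩)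
  set X := {x : M | x ≠ 0 ∧ Q x = Q v} with hX
  have hX1 : μ ≤ Nat.card X := by
    by_cases hQv : Q v = 0
    · have hbase : Nat.card {x : M // Q x = 0 ∧ x ≠ 0} + 1 = vc Q 0 :=
        card_punctured (fun x => Q x = 0) (QuadraticMap.map_zero Q)
      have e : Nat.card X = Nat.card {x : M // Q x = 0 ∧ x ≠ 0} :=
        Nat.card_congr (Equiv.subtypeEquivRight fun x =>
          ⟨fun h => ⟨h.2.trans hQv, h.1⟩, fun h => ⟨h.2, h.1.trans hQv.symm⟩⟩)
      omega
    · refine le_trans (hval _ hQv) (le_of_eq (Nat.card_congr ?_))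
      exact Equiv.subtypeEquivRight fun x =>
        ⟨fun h => ⟨fun h0 => hQv (by rw [← h, h0, QuadraticMap.map_zero]), h⟩, fun h => h.2⟩
  have hch : ∀ x : X, ∃ g ∈ siegelGroup Q, (g : M ≃ₗ[F] M) v = (x : M) := fun x => by
    by_cases hQv : Q v = 0
    · obtain ⟨g, hg, e⟩ := (Sec.top Q).transitive_singular hQ (by omega) (Sec.mem_top v)
        (Sec.mem_top (x : M)) hQv (x.2.2.trans hQv) hv0 x.2.1
      exact ⟨g, hg.1, e⟩
    · obtain ⟨g, hg, e⟩ := (Sec.top Q).transitive_norm hQ (by omega) (Sec.mem_top v)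
        (Sec.mem_top (x : M)) x.2.2.symm hQv
      exact ⟨g, hg.1, e⟩
  choose γ hγ hγv using hch
  let S := {x : M | ∃ g ∈ siegelGroup Q, (g : M ≃ₗ[F] M) v = v ∧ (g : M ≃ₗ[F] M) w = x}
  let O : Set (M × M) := {p | ∃ g ∈ siegelGroup Q, ((g : M ≃ₗ[F] M) v, (g : M ≃ₗ[F] M) w) = p}
  let e : X × S → O := fun p => ⟨((p.1 : M), (γ p.1 : M ≃ₗ[F] M) (p.2 : M)), by
    obtain ⟨g, hg, hgv, hgw⟩ := p.2.2
    exact ⟨γ p.1 * g, mul_mem (hγ _) hg, by rw [orth_mul_apply, orth_mul_apply, hgv, hgw, hγv]⟩⟩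
  have he : Function.Injective e := by
    rintro ⟨x, s⟩ ⟨x', s'⟩ h
    have h1 := congrArg Subtype.val h
    simp only [e, Prod.mk.injEq] at h1
    obtain ⟨h1, h2⟩ := h1
    obtain rfl : x = x' := Subtype.ext h1
    obtain rfl : s = s' := Subtype.ext ((γ x : M ≃ₗ[F] M).injective h2)
    rfl
  calc μ * Nat.card F ^ (finrank F M - 3) ≤ Nat.card X * Nat.card S :=
        Nat.mul_le_mul hX1 (move_card hQ hd hv0 hind)
    _ = Nat.card (X × S) := (Nat.card_prod _ _).symm
    _ ≤ Nat.card O := Nat.card_le_card_of_injective e he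
    _ ≤ L.cnum A.toAddSubgroup
          * Nat.card {p : M × M | p.1 ∈ A ∧ p.2 ∈ A ∧ p.1 ≠ 0 ∧ ∀ c : F, p.2 ≠ c • p.1} := by
        refine L.cover_orb A.toAddSubgroup O
          (fun B => {p : M × M | p.1 ∈ B ∧ p.2 ∈ B ∧ p.1 ≠ 0 ∧ ∀ c : F, p.2 ≠ c • p.1})
          (fun δ => Prod.map (tw δ) (tw δ)) (fun δ _ => ?_) ?_
        · ext p
          constructor
          · rintro ⟨h1, h2, h3, h4⟩
            obtain ⟨x, hx, e1⟩ : ∃ x ∈ A.toAddSubgroup, tw δ x = p.1 := h1
            obtain ⟨y, hy, e2⟩ : ∃ y ∈ A.toAddSubgroup, tw δ y = p.2 := h2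
            refine ⟨(x, y), ⟨hx, hy, fun h => h3 ?_, fun c h => h4 c ?_⟩, Prod.ext e1 e2⟩
            · rw [← e1, show x = 0 from h, map_zero]
            · rw [← e1, ← e2, show y = c • x from h, map_smul]
          · rintro ⟨x, ⟨hx, hy, hx0, hy0⟩, rfl⟩
            refine ⟨mem_twSub.2 hx, mem_twSub.2 hy,
              fun h => hx0 ((LinearEquiv.map_eq_zero_iff _).1 h), fun c h => hy0 c ?_⟩
            exact (tw δ).injective (h.trans (map_smul (tw δ) c x.1).symm)
        · rintro _ ⟨g, hg, rfl⟩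
          exact ⟨(g, 1), L.siegel_mem g hg, (v, w), ⟨hv, hw, hv0, hind⟩,
            Prod.ext (tw_siegel g v) (tw_siegel g w)⟩
    _ ≤ _ := Nat.mul_le_mul_left _ (by rw [← hA]; exact card_indep_pairs A)

/-- Two orthogonal vectors of a subspace, the first non-singular. -/
theorem orth_pair_bound (hQ : Nondeg Q) (hd : 5 ≤ finrank F M) {μ : ℕ}
    (hval : ∀ a : F, a ≠ 0 → μ ≤ vc Q a) {A : AddSubgroup M} {v w : M} (hv : v ∈ A) (hw : w ∈ A)
    (hQv : Q v ≠ 0) (hvw : polar Q v w = 0) (hind : ∀ c : F, w ≠ c • v) :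
    μ * Nat.card F ^ (finrank F M - 3) ≤ L.cnum A
      * Nat.card {p : M × M | (p.1 ∈ A ∧ p.1 ≠ 0) ∧ p.2 ∈ A ∧ p.2 ≠ 0 ∧ polar Q p.1 p.2 = 0} := by
  classical
  have := Fintype.ofFinite M
  have hv0 : v ≠ 0 := fun h => hQv (by rw [h, QuadraticMap.map_zero])
  have hw0 : w ≠ 0 := fun h => hind 0 (by rw [h, zero_smul])
  set X := {x : M | Q x = Q v} with hX
  have hX1 : μ ≤ Nat.card X := hval _ hQv
  have hch : ∀ x : X, ∃ g ∈ siegelGroup Q, (g : M ≃ₗ[F] M) v = (x : M) := fun x => by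
    obtain ⟨g, hg, e⟩ := (Sec.top Q).transitive_norm hQ (by omega) (Sec.mem_top v)
      (Sec.mem_top (x : M)) (Eq.symm x.2) hQv
    exact ⟨g, hg.1, e⟩
  choose γ hγ hγv using hch
  let S := {x : M | ∃ g ∈ siegelGroup Q, (g : M ≃ₗ[F] M) v = v ∧ (g : M ≃ₗ[F] M) w = x}
  let O : Set (M × M) := {p | ∃ g ∈ siegelGroup Q, ((g : M ≃ₗ[F] M) v, (g : M ≃ₗ[F] M) w) = p}
  let e : X × S → O := fun p => ⟨((p.1 : M), (γ p.1 : M ≃ₗ[F] M) (p.2 : M)), by
    obtain ⟨g, hg, hgv, hgw⟩ := p.2.2
    exact ⟨γ p.1 * g, mul_mem (hγ _) hg, by rw [orth_mul_apply, orth_mul_apply, hgv, hgw, hγv]⟩⟩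
  have he : Function.Injective e := by
    rintro ⟨x, s⟩ ⟨x', s'⟩ h
    have h1 := congrArg Subtype.val h
    simp only [e, Prod.mk.injEq] at h1
    obtain ⟨h1, h2⟩ := h1
    obtain rfl : x = x' := Subtype.ext h1
    obtain rfl : s = s' := Subtype.ext ((γ x : M ≃ₗ[F] M).injective h2)
    rfl
  let f : AddSubgroup M → Set (M × M) := fun B =>
    {p | (p.1 ∈ B ∧ p.1 ≠ 0) ∧ p.2 ∈ B ∧ p.2 ≠ 0 ∧ polar Q p.1 p.2 = 0}
  calc μ * Nat.card F ^ (finrank F M - 3) ≤ Nat.card X * Nat.card S :=
        Nat.mul_le_mul hX1 (move_card hQ hd hv0 hind)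
    _ = Nat.card (X × S) := (Nat.card_prod _ _).symm
    _ ≤ Nat.card O := Nat.card_le_card_of_injective e he
    _ ≤ L.cnum A * Nat.card (f A) := by
        refine L.cover_orb A O f (fun δ => Prod.map (tw δ) (tw δ)) (fun δ _ => ?_) ?_
        · ext p
          constructor
          · rintro ⟨⟨h1, h3⟩, h2, h4, h5⟩
            obtain ⟨x, hx, e1⟩ : ∃ x ∈ A, tw δ x = p.1 := h1
            obtain ⟨y, hy, e2⟩ : ∃ y ∈ A, tw δ y = p.2 := h2
            refine ⟨(x, y), ⟨⟨hx, fun h => h3 ?_⟩, hy, fun h => h4 ?_, ?_⟩, Prod.ext e1 e2⟩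
            · rw [← e1, show x = 0 from h, map_zero]
            · rw [← e2, show y = 0 from h, map_zero]
            · rw [← e1, ← e2, polar_tw] at h5
              exact (mul_eq_zero.1 h5).resolve_left (mul_ne_zero δ.2.ne_zero δ.2.ne_zero)
          · rintro ⟨x, ⟨⟨hx, hx0⟩, hy, hy0, hxy⟩, rfl⟩
            refine ⟨⟨mem_twSub.2 hx, fun h => hx0 ((LinearEquiv.map_eq_zero_iff _).1 h)⟩,
              mem_twSub.2 hy, fun h => hy0 ((LinearEquiv.map_eq_zero_iff _).1 h), ?_⟩
            rw [Prod.map_fst, Prod.map_snd, polar_tw, hxy, mul_zero]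
        · rintro _ ⟨g, hg, rfl⟩
          exact ⟨(g, 1), L.siegel_mem g hg, (v, w), ⟨⟨hv, hv0⟩, hw, hw0, hvw⟩,
            Prod.ext (tw_siegel g v) (tw_siegel g w)⟩

end Lev

end CfsgLib.MinIndexOrth
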