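import Cfsg.Agent.Lib.MinIndex.Orth.SmallRegular
import Cfsg.Agent.Lib.MinIndex.Orth.Attain

/-!
The index bound for Siegel groups of elliptic spaces over the fields with two and three elements,
and the minimal index for the minus type over every field.
-/

set_option autoImplicit false
set_option linter.unusedSectionVars false

namespace CfsgLib.MinIndexOrth

open QuadraticMap Module CfsgLib.ClassicalForms

variable {F V : Type*} [Field F] [Finite F] [AddCommGroup V] [Module F V]
  [FiniteDimensional F V] {Q : QuadraticForm F V}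

lemma minusQ_perp [Finite V] {w : ℕ} (hn : finrank F V = 2 * w + 4) (hw : 2 ≤ w)
    (hzeros : vc Q 0 + Nat.card F ^ (w + 2) = Nat.card F ^ (2 * w + 3) + Nat.card F ^ (w + 1))
    (hval : ∀ a : F, a ≠ 0 → vc Q 0 ≤ vc Q a) {u u' : V} (h : IsHypPair Q (u, u')) :
    MinusQ (q2 Q u u') w := by
  have hd := finrank_perp2 h
  have hq1 : 1 < Nat.card F := Finite.one_lt_card
  have hs : ∀ a : F, vc Q a = Nat.card F * vc (q2 Q u u') a
      + (Nat.card F - 1) * Nat.card F ^ (2 * w + 2) := fun a => by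
    rw [vc_step h, card_eq_pow (F := F) (V := perp2 Q u u'),
      show finrank F (perp2 Q u u') = 2 * w + 2 by omega]
  refine ⟨by omega, hw, ?_, fun a ha => ?_⟩
  · rw [hs] at hzeros
    obtain ⟨r, hr⟩ : ∃ r, Nat.card F = r + 1 := ⟨Nat.card F - 1, by omega⟩
    refine Nat.eq_of_mul_eq_mul_left (show 0 < Nat.card F by omega) ?_
    rw [hr, Nat.add_sub_cancel] at hzeros
    rw [hr]
    ring_nf at hzeros ⊢
    omega
  · have h1 := hval a ha
    rw [hs, hs a] at h1
    exact Nat.le_of_mul_le_mul_left (by omega) (show 0 < Nat.card F by omega)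

variable {Ω : Type*} [MulAction (siegelGroup Q) Ω] [Finite Ω]
  [MulAction.IsPretransitive (siegelGroup Q) Ω] [Nontrivial Ω]

theorem card_points_le_small {p : ℕ} [Fact p.Prime] [CharP F p] (hQ : Nondeg Q) {w : ℕ}
    (hp : Nat.card F = p) (hp3 : p ≤ 3) (hn : finrank F V = 2 * w + 4) (hw : 2 ≤ w)
    (hzeros : vc Q 0 + Nat.card F ^ (w + 2) = Nat.card F ^ (2 * w + 3) + Nat.card F ^ (w + 1))
    (hval : ∀ a : F, a ≠ 0 → vc Q 0 ≤ vc Q a) :
    vc Q 0 - 1 ≤ (Nat.card F - 1) * Nat.card Ω := by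
  by_contra hcon
  have hν : (Nat.card F - 1) * Nat.card Ω < vc Q 0 - 1 := not_le.1 hcon
  have : Finite V := Module.finite_of_finite F
  have hn7 : 7 ≤ finrank F V := by omega
  have hq2 : 2 ≤ Nat.card F := Finite.one_lt_card
  have htri : ∀ (u u' : V) (h : IsHypPair Q (u, u')) (z : Ω), IsReg Q u z ∨ IsFix Q u z ∨
      (Small F (perp2 Q u u') p (Nat.card (ann (q2 Q u u') (asub Q u u' z))) ∧
        Nat.card F * (vc (q2 Q u u') 0 - 1)
          ≤ (Nat.card F - 1) * Nat.card (cls hQ (by omega) h z)) := by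
    intro u u' h z
    by_cases h0 : asub Q u u' z = ⊥
    · exact Or.inl ((asub_eq_bot_iff h).1 h0)
    by_cases h1 : asub Q u u' z = ⊤
    · exact Or.inr (Or.inl ((asub_eq_top_iff h).1 h1))
    have hle : (Nat.card F - 1) * ((levi hQ (by omega) h).cnum (asub Q u u' z)
        * Nat.card (ann (q2 Q u u') (asub Q u u' z)))
        ≤ (Nat.card F - 1) * Nat.card (cls hQ (by omega) h z) :=
      Nat.mul_le_mul_left _ (cnum_mul_le hQ (by omega) h z)
    have hlt : (Nat.card F - 1) * ((levi hQ (by omega) h).cnum (asub Q u u' z)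
        * Nat.card (ann (q2 Q u u') (asub Q u u' z)))
        < (Nat.card F - 1) * (1 + Nat.card F ^ finrank F (perp2 Q u u'))
          + Nat.card F * (vc (q2 Q u u') 0 - 1) := by
      rw [← target_eq h]
      exact lt_of_le_of_lt (hle.trans (Nat.mul_le_mul_left _
        (Nat.card_le_card_of_injective _ Subtype.val_injective))) hν
    have h2 := classify_small (levi hQ (by omega) h) (nondeg_q2 hQ h)
      (minusQ_perp hn hw hzeros hval h) hp hp3 h0 h1 hlt
    exact Or.inr (Or.inr ⟨h2.1, h2.2.trans hle⟩)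
  have htri' : Tri Q Ω p hQ hn7 := fun u u' h z => by
    rcases htri u u' h z with h1 | h1 | h1
    · exact Or.inl h1
    · exact Or.inr (Or.inl h1)
    · exact Or.inr (Or.inr (Or.inl h1))
  obtain ⟨z⟩ : Nonempty Ω := inferInstance
  by_cases hreg : ∃ (x : V) (z' : Ω), Q x = 0 ∧ x ≠ 0 ∧ IsReg Q x z'
  · obtain ⟨x, z', hx, hx0, h1⟩ := hreg
    have hall := all_reg (p := p) hQ hn7 hq2 htri' hν hx hx0 h1
    obtain ⟨x', -, hp'⟩ := (Sec.top Q).exists_partner hQ (Sec.mem_top x) hx hx0
    obtain ⟨hd, -, hZ, -⟩ := minusQ_perp hn hw hzeros hval hp'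
    have hone := one_reg_orbit (p := p) hQ hn7 hq2 hν hp' z (hall x hx hx0) (by
      rw [target_eq hp', hd, mul_add (Nat.card F - 1) 1, mul_one,
        mul_add (Nat.card F - 1) (Nat.card F ^ (2 * w + 2))]
      have h2 : Nat.card F * (vc (q2 Q x x') 0 - 1) + Nat.card F * Nat.card F ^ (w + 1)
          ≤ Nat.card F ^ (2 * w + 2) + Nat.card F * Nat.card F ^ w := by
        calc _ = Nat.card F * ((vc (q2 Q x x') 0 - 1) + Nat.card F ^ (w + 1)) := by ring
          _ ≤ Nat.card F * (vc (q2 Q x x') 0 + Nat.card F ^ (w + 1)) :=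
              Nat.mul_le_mul_left _ (Nat.add_le_add_right (Nat.sub_le _ _) _)
          _ = _ := by rw [hZ]; ring
      have h3 : Nat.card F * Nat.card F ^ w + (Nat.card F - 1)
          ≤ Nat.card F * Nat.card F ^ (w + 1) := by
        have h5 : 2 * Nat.card F ^ w ≤ Nat.card F ^ (w + 1) := by
          rw [pow_succ, mul_comm]; exact Nat.mul_le_mul_left _ hq2
        have h6 : 1 ≤ Nat.card F ^ w := Nat.one_le_pow _ _ (by omega)
        have h7 := Nat.mul_le_mul_left (Nat.card F) (show Nat.card F ^ w + 1 ≤ Nat.card F ^ (w + 1) by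
          omega)
        rw [Nat.mul_add, mul_one] at h7
        omega
      have h4 : Nat.card F ^ (2 * w + 2) ≤ (Nat.card F - 1) * Nat.card F ^ (2 * w + 2) :=
        Nat.le_mul_of_pos_left _ (by omega)
      omega)
    refine no_regular_small hQ (by omega) ?_ hp' ?_ z hall hone
    · have h0 : (p : F) = 0 := CharP.cast_eq_zero F p
      have := (Fact.out : p.Prime).two_le
      rcases (show p = 2 ∨ p = 3 by omega) with h2 | h2
      · left; rw [h2] at h0; exact_mod_cast h0
      · right; rw [h2] at h0; exact_mod_cast h0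
    · rintro ⟨h8, E, hE, hr, hs⟩
      have h := vc_zero_hyperbolic 2 (q2 Q x x') (nondeg_q2 hQ hp') (by omega)
        ⟨E.comap (perp2 Q x x').subtype,
          (Submodule.comapSubtypeEquivOfLe hE).finrank_eq.trans hr, fun a ha => hs _ ha⟩
      rw [show w = 2 by omega] at hZ
      simp only [show (2 : ℕ) + 1 = 3 from rfl, show 2 * 2 + 1 = 5 from rfl] at h hZ
      have : Nat.card F ^ 2 < Nat.card F ^ 3 := Nat.pow_lt_pow_right (by omega) (by omega)
      omega
  · refine not_all_fix (Q := Q) z (fix_all p hQ hn7 fun u u' h => ?_)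
    set d := finrank F (perp2 Q u u') with hd
    have hdn := finrank_perp2 h
    have hq0 : 0 < Nat.card F := Nat.card_pos
    have hp2 : 2 ≤ p := (Fact.out : p.Prime).two_le
    rcases htri u u' h z with h1 | h1 | h1
    · exact absurd ⟨u, z, h.1, h.fst_ne_zero, h1⟩ hreg
    · rw [(asub_eq_top_iff h).2 h1, AddSubgroup.card_top,
        card_eq_pow (F := F) (V := perp2 Q u u'), ← hd]
      calc Nat.card F ^ (d + 2) ≤ (Nat.card F ^ d) ^ 2 := by
            rw [← pow_mul]; exact Nat.pow_le_pow_right hq0 (by omega)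
        _ < (Nat.card F ^ d * p) ^ 2 := Nat.pow_lt_pow_left
            (lt_mul_of_one_lt_right (pow_pos hq0 _) (by omega)) (by omega)
    · obtain ⟨h1, -⟩ := h1
      have hc' := card_ann (nondeg_q2 hQ h) (asub Q u u' z)
      rw [← hd] at hc'
      rw [Small, ← hd] at h1
      set a := Nat.card (asub Q u u' z)
      set s := Nat.card (ann (q2 Q u u') (asub Q u u' z))
      refine Nat.lt_of_mul_lt_mul_right (a := s * s) ?_
      calc Nat.card F ^ (d + 2) * (s * s)
            < Nat.card F ^ (d + 2) * (Nat.card F ^ (d - 2) * p * p) :=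
            Nat.mul_lt_mul_of_pos_left h1 (pow_pos hq0 _)
        _ = Nat.card F ^ d * Nat.card F ^ d * (p * p) := by
            rw [← mul_assoc, ← mul_assoc, ← pow_add, ← pow_add, mul_assoc]; congr 2; omega
        _ = (a * p) ^ 2 * (s * s) := by rw [← hc']; ring

end CfsgLib.MinIndexOrth

namespace CfsgLib.MinIndexOrth

open QuadraticMap Module CfsgLib.ClassicalForms

variable {F : Type*} [Field F] [Finite F] {a b : F}

lemma value_binForm (hab : Aniso a b) (hq : Nat.card F ≤ 3) {c : F} (hc : c ≠ 0) :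
    0 < Nat.card {v : Fin 2 → F // binForm a b v = c} := by
  classical
  have := Fintype.ofFinite F
  have h1 := card_binForm_eq_one hab
  by_cases hc1 : c = 1
  · rw [hc1, h1]; omega
  obtain ⟨v, hv0, hv⟩ : ∃ v : Fin 2 → F, v ≠ 0 ∧ binForm a b v ≠ 1 := by
    by_contra hcon
    simp only [not_exists, not_and, not_not] at hcon
    have h2 : Nat.card {v : Fin 2 → F // v ≠ 0} ≤ Nat.card {v : Fin 2 → F // binForm a b v = 1} :=
      Nat.card_le_card_of_injective (fun v => ⟨v.1, hcon v.1 v.2⟩) fun x y h =>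
        Subtype.ext (congrArg (fun t : {v : Fin 2 → F // binForm a b v = 1} => (t : Fin 2 → F)) h)
    have h3 : Nat.card {v : Fin 2 → F // v ≠ 0} + 1 = Nat.card F ^ 2 := by
      have e := card_punctured (fun _ : Fin 2 → F => True) (x₀ := 0) trivial
      simpa [Nat.card_fun, Nat.card_subtype_true] using e
    have hq2 : 2 ≤ Nat.card F := Finite.one_lt_card
    have hq3 : Nat.card F = 3 := by
      by_contra h
      have h2' : Finset.card ({0, 1, c} : Finset F) ≤ Fintype.card F := Finset.card_le_univ _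
      rw [Finset.card_eq_three.2 ⟨0, 1, c, zero_ne_one, Ne.symm hc, Ne.symm hc1, rfl⟩,
        ← Nat.card_eq_fintype_card] at h2'
      omega
    rw [h1, hq3] at h2
    rw [hq3] at h3
    omega
  refine Finite.card_pos_iff.2 ⟨⟨v, ?_⟩⟩
  by_contra hne
  have h0 : binForm a b v ≠ 0 := fun h => hv0 (hab.eq_zero h)
  have h2' : Finset.card ({0, 1, c, binForm a b v} : Finset F) ≤ Fintype.card F :=
    Finset.card_le_univ _
  rw [← Nat.card_eq_fintype_card] at h2'
  rw [Finset.card_insert_of_notMem (by simp [Ne.symm hc, Ne.symm h0]),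
    Finset.card_eq_three.2 ⟨1, c, binForm a b v, Ne.symm hc1, Ne.symm hv, fun h => hne h.symm, rfl⟩]
    at h2'
  omega

/-- The index bound for elliptic spaces over every field. -/
theorem le_index_minus (hab : Aniso a b) {k : ℕ} (hk : 3 ≤ k)
    (H : Subgroup (siegelGroup (qMinus k F a b))) (hH : H ≠ ⊤) :
    vc (qMinus k F a b) 0 - 1 ≤ (Nat.card F - 1) * H.index := by
  have hQ := nondeg_qMinus hab k
  by_cases hq : 4 ≤ Nat.card F
  · exact le_index hQ (by rw [finrank_qMinus]; omega) hq H hH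
  obtain ⟨w, rfl⟩ : ∃ w, k = w + 1 := ⟨k - 1, by omega⟩
  have : Finite ((((Fin (w + 1) ⊕ Fin (w + 1)) ⊕ Fin 2) → F) ≃ₗ[F]
      (((Fin (w + 1) ⊕ Fin (w + 1)) ⊕ Fin 2) → F)) :=
    Finite.of_injective _ DFunLike.coe_injective
  have : Nontrivial (siegelGroup (qMinus (w + 1) F a b) ⧸ H) := QuotientGroup.nontrivial_iff.2 hH
  have hcount : ∀ c : F, (vc (qMinus (w + 1) F a b) c : ℤ) * Nat.card F = (Nat.card F : ℤ) ^ (w + 2)
      * Nat.card {v : Fin 2 → F // binForm a b v = c}
      + (Nat.card F : ℤ) ^ (w + 1) * ((Nat.card F : ℤ) ^ (w + 1) - 1)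
        * Nat.card (Fin 2 → F) := fun c => by
    rw [vc, card_values_congr (minusEquiv (w + 1)) (qH_minusEquiv (w + 1) a b) c]
    exact card_values_qH _ _ _
  have h00 : Nat.card {v : Fin 2 → F // binForm a b v = 0} = 1 := by
    rw [Nat.card_eq_one_iff_unique]
    exact ⟨⟨fun x y => Subtype.ext ((hab.eq_zero x.2).trans (hab.eq_zero y.2).symm)⟩,
      ⟨⟨0, QuadraticMap.map_zero _⟩⟩⟩
  have hzeros : vc (qMinus (w + 1) F a b) 0 + Nat.card F ^ (w + 2)
      = Nat.card F ^ (2 * w + 3) + Nat.card F ^ (w + 1) := by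
    have h := hcount 0
    rw [h00, Nat.card_fun, Nat.card_fin] at h
    zify
    refine mul_right_cancel₀ (show (Nat.card F : ℤ) ≠ 0 by exact_mod_cast Nat.card_pos.ne') ?_
    push_cast at h
    linear_combination h
  have hval : ∀ c : F, c ≠ 0 → vc (qMinus (w + 1) F a b) 0 ≤ vc (qMinus (w + 1) F a b) c := fun c hc => by
    have h0 := hcount 0
    have hc' := hcount c
    rw [h00] at h0
    have h1 : (1 : ℤ) ≤ Nat.card {v : Fin 2 → F // binForm a b v = c} := by
      exact_mod_cast value_binForm hab (by omega) hc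
    have h2 : (0 : ℤ) ≤ (Nat.card F : ℤ) ^ (w + 2) := by positivity
    have hle : (vc (qMinus (w + 1) F a b) 0 : ℤ) * Nat.card F ≤ (vc (qMinus (w + 1) F a b) c : ℤ) * Nat.card F := by
      rw [h0, hc']
      push_cast
      linarith [mul_le_mul_of_nonneg_left h1 h2]
    exact_mod_cast le_of_mul_le_mul_right hle (by exact_mod_cast Nat.card_pos)
  obtain ⟨p, hc⟩ := CharP.exists F
  have : Fact p.Prime := ⟨CharP.char_is_prime F p⟩
  obtain ⟨e, he, hpe⟩ := exists_card_pow (F := F) (p := p)
  have hp : Nat.card F = p := by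
    rcases Nat.lt_or_ge e 2 with h | h
    · rw [hpe, show e = 1 by omega, pow_one]
    · have h1 : p ^ 2 ≤ p ^ e := Nat.pow_le_pow_right (Fact.out : p.Prime).pos h
      have h2 : 2 ^ 2 ≤ p ^ 2 := Nat.pow_le_pow_left (Fact.out : p.Prime).two_le 2
      omega
  exact card_points_le_small (Ω := siegelGroup (qMinus (w + 1) F a b) ⧸ H) (p := p) hQ hp (by omega)
    (by rw [finrank_qMinus]; omega) (show 2 ≤ w by omega) hzeros hval

end CfsgLib.MinIndexOrth
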