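import Cfsg.Agent.Lib.ClassicalForms.Ortho.Omega
import Cfsg.Agent.Lib.ClassicalForms.Ortho.Values

/-!
Splitting a hyperbolic pair off a quadratic space: the orthogonal complement as a quadratic space,
extension of its isometries, and the recursion for the number of vectors of a given value.
-/

set_option autoImplicit false
set_option linter.unusedSectionVars false

namespace CfsgLib.MinIndexOrth

open QuadraticMap Module CfsgLib.ClassicalForms

variable {F V : Type*} [Field F] [AddCommGroup V] [Module F V] {Q : QuadraticForm F V}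

/-- The orthogonal complement of two vectors. -/
def perp2 (Q : QuadraticForm F V) (e f : V) : Submodule F V :=
  LinearMap.ker (polarBilin Q e) ⊓ LinearMap.ker (polarBilin Q f)

lemma mem_perp2 {e f x : V} : x ∈ perp2 Q e f ↔ polar Q e x = 0 ∧ polar Q f x = 0 := by
  simp [perp2]

lemma perp2_comm (e f : V) : perp2 Q e f = perp2 Q f e := inf_comm _ _

/-- The form on the complement. -/
abbrev q2 (Q : QuadraticForm F V) (e f : V) : QuadraticForm F (perp2 Q e f) :=
  Q.comp (perp2 Q e f).subtype

lemma q2_apply {e f : V} (x : perp2 Q e f) : q2 Q e f x = Q (x : V) := rfl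

lemma polar_q2 {e f : V} (x y : perp2 Q e f) : polar (q2 Q e f) x y = polar Q (x : V) (y : V) := by
  simp [polar]

variable {e f : V}

lemma hyp_comm (h : IsHypPair Q (e, f)) : IsHypPair Q (f, e) :=
  ⟨h.2.1, h.1, by rw [polar_comm]; exact h.2.2⟩

/-- The projection onto the complement. -/
def proj2 (h : IsHypPair Q (e, f)) : V →ₗ[F] perp2 Q e f :=
  (LinearMap.id - (polarBilin Q f).smulRight e - (polarBilin Q e).smulRight f).codRestrict _
    fun x => by
      obtain ⟨h1, h2, h3⟩ := h
      have h4 : polar Q f e = 1 := by rw [polar_comm]; exact h3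
      rw [mem_perp2]
      simp [polar_sub_right, polar_smul_right, h1, h2, h3, h4]

lemma coe_proj2 (h : IsHypPair Q (e, f)) (x : V) :
    (proj2 h x : V) = x - polar Q f x • e - polar Q e x • f := rfl

lemma proj2_coe (h : IsHypPair Q (e, f)) (x : perp2 Q e f) : proj2 h (x : V) = x := by
  obtain ⟨h1, h2⟩ := mem_perp2.1 x.2
  ext
  simp [coe_proj2, h1, h2]

lemma decomp2 (h : IsHypPair Q (e, f)) (x : V) :
    x = polar Q f x • e + polar Q e x • f + (proj2 h x : V) := by
  rw [coe_proj2]; abel

/-- The isometry with the hyperbolic sum. -/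
def splitEquiv (h : IsHypPair Q (e, f)) : V ≃ₗ[F] (F × F) × perp2 Q e f where
  toFun x := ((polar Q f x, polar Q e x), proj2 h x)
  invFun y := y.1.1 • e + y.1.2 • f + (y.2 : V)
  map_add' x y := by simp [polar_add_right]
  map_smul' c x := by simp [polar_smul_right]
  left_inv x := (decomp2 h x).symm
  right_inv y := by
    have h1 : Q e = 0 := h.1
    have h2 : Q f = 0 := h.2.1
    have h3 : polar Q e f = 1 := h.2.2
    have h4 : polar Q f e = 1 := by rw [polar_comm]; exact h3
    obtain ⟨g1, g2⟩ := mem_perp2.1 y.2.2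
    have a1 : polar Q f (y.1.1 • e + y.1.2 • f + (y.2 : V)) = y.1.1 := by
      simp [polar_add_right, polar_smul_right, h2, h4, g2]
    have a2 : polar Q e (y.1.1 • e + y.1.2 • f + (y.2 : V)) = y.1.2 := by
      simp [polar_add_right, polar_smul_right, h1, h3, g1]
    refine Prod.ext (Prod.ext a1 a2) (Subtype.ext ?_)
    change (proj2 h (y.1.1 • e + y.1.2 • f + (y.2 : V)) : V) = _
    rw [coe_proj2, a1, a2]
    abel

lemma map_decomp (h : IsHypPair Q (e, f)) (a b : F) {z : V} (hz : z ∈ perp2 Q e f) :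
    Q (a • e + b • f + z) = a * b + Q z := by
  obtain ⟨h1, h2, h3⟩ := h
  obtain ⟨g1, g2⟩ := mem_perp2.1 hz
  simp [QuadraticMap.map_add ⇑Q, QuadraticMap.map_smul, polar_add_left, polar_smul_left,
    polar_smul_right, h1, h2, h3, g1, g2]
  ring

lemma hypSum_splitEquiv (h : IsHypPair Q (e, f)) (x : V) :
    hypSum (q2 Q e f) (splitEquiv h x) = Q x := by
  conv_rhs => rw [decomp2 h x, map_decomp h _ _ (proj2 h x).2]
  rfl

lemma nondeg_q2 (hQ : Nondeg Q) (h : IsHypPair Q (e, f)) : Nondeg (q2 Q e f) := by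
  intro x hx
  refine Subtype.ext (hQ _ fun y => ?_)
  obtain ⟨g1, g2⟩ := mem_perp2.1 x.2
  have h5 := hx (proj2 h y)
  rw [polar_q2, coe_proj2, polar_sub_right, polar_sub_right, polar_smul_right, polar_smul_right,
    polar_comm Q (x : V) e, polar_comm Q (x : V) f, g1, g2] at h5
  simpa using h5

section Finite

variable [FiniteDimensional F V]

lemma finrank_perp2 (h : IsHypPair Q (e, f)) : finrank F (perp2 Q e f) + 2 = finrank F V := by
  rw [(splitEquiv h).finrank_eq, finrank_prod, finrank_prod, finrank_self]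
  ring

end Finite

/-- Extension of an isometry of the complement by the identity on the pair. -/
def extHom (h : IsHypPair Q (e, f)) : orth (q2 Q e f) →* orth Q :=
  (orthCongr (splitEquiv h) (hypSum_splitEquiv h)).symm.toMonoidHom.comp (hypExt (q2 Q e f))

lemma extHom_apply (h : IsHypPair Q (e, f)) (g : orth (q2 Q e f)) (a b : F) (z : perp2 Q e f) :
    (extHom h g : V ≃ₗ[F] V) (a • e + b • f + (z : V))
      = a • e + b • f + ((g : perp2 Q e f ≃ₗ[F] perp2 Q e f) z : V) := by
  have hs : splitEquiv h (a • e + b • f + (z : V)) = ((a, b), z) :=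
    (splitEquiv h).apply_symm_apply ((a, b), z)
  change (splitEquiv h).symm ((hypExt (q2 Q e f) g : _ ≃ₗ[F] _) (splitEquiv h _)) = _
  rw [hs]
  rfl

lemma extHom_coe (h : IsHypPair Q (e, f)) (g : orth (q2 Q e f)) (z : perp2 Q e f) :
    (extHom h g : V ≃ₗ[F] V) (z : V) = ((g : perp2 Q e f ≃ₗ[F] perp2 Q e f) z : V) := by
  simpa using extHom_apply h g 0 0 z

lemma extHom_fst (h : IsHypPair Q (e, f)) (g : orth (q2 Q e f)) :
    (extHom h g : V ≃ₗ[F] V) e = e := by
  simpa using extHom_apply h g 1 0 0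

lemma extHom_snd (h : IsHypPair Q (e, f)) (g : orth (q2 Q e f)) :
    (extHom h g : V ≃ₗ[F] V) f = f := by
  simpa using extHom_apply h g 0 1 0

lemma extHom_siegel (h : IsHypPair Q (e, f)) {u w : perp2 Q e f} (hu : q2 Q e f u = 0)
    (hw : polar (q2 Q e f) u w = 0) :
    extHom h (siegel (q2 Q e f) u w hu hw)
      = siegel Q (u : V) (w : V) ((q2_apply u).symm.trans hu) ((polar_q2 u w).symm.trans hw) := by
  refine orth_ext fun x => ?_
  obtain ⟨gu1, gu2⟩ := mem_perp2.1 u.2
  obtain ⟨gw1, gw2⟩ := mem_perp2.1 w.2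
  rw [decomp2 h x, extHom_apply, siegel_apply, siegel_apply]
  simp only [polar_add_left, polar_smul_left, gu1, gu2, gw1, gw2, polar_q2, q2_apply,
    Submodule.coe_add, Submodule.coe_sub, Submodule.coe_smul, smul_zero, zero_add]
  abel

lemma extHom_mem (h : IsHypPair Q (e, f)) {g : orth (q2 Q e f)}
    (hg : g ∈ siegelGroup (q2 Q e f)) : extHom h g ∈ siegelGroup Q := by
  revert g
  suffices H : (siegelGroup (q2 Q e f)).map (extHom h) ≤ siegelGroup Q from
    fun g hg => H (Subgroup.mem_map_of_mem _ hg)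
  rw [siegelGroup, MonoidHom.map_closure, Subgroup.closure_le]
  rintro _ ⟨_, ⟨u, w, hu, hw, rfl⟩, rfl⟩
  rw [extHom_siegel]
  exact siegel_mem_siegelGroup _ _

/-- The number of vectors of value `a`. -/
noncomputable def vc (Q : QuadraticForm F V) (a : F) : ℕ := Nat.card {x : V // Q x = a}

variable [Finite F] [Finite V]

lemma vc_step (h : IsHypPair Q (e, f)) (a : F) :
    vc Q a = Nat.card F * vc (q2 Q e f) a + (Nat.card F - 1) * Nat.card (perp2 Q e f) := by
  rw [vc, card_values_congr (splitEquiv h) (hypSum_splitEquiv h) a, card_values_hypSum]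
  rfl

lemma vc_le (Q : QuadraticForm F V) (a : F) : vc Q a ≤ Nat.card V :=
  Nat.card_le_card_of_injective _ Subtype.val_injective

lemma one_le_vc_zero (Q : QuadraticForm F V) : 1 ≤ vc Q 0 :=
  Finite.card_pos_iff.2 ⟨⟨0, QuadraticMap.map_zero Q⟩⟩

lemma card_eq_pow [FiniteDimensional F V] : Nat.card V = Nat.card F ^ finrank F V :=
  Module.natCard_eq_pow_finrank

end CfsgLib.MinIndexOrth
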