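import Cfsg.Agent.Lib.MinIndex.Orth.Counts

/-!
Transitivity and orbit lower bounds for the Siegel group on vectors and pairs of vectors.
-/

set_option autoImplicit false
set_option linter.unusedSectionVars false

namespace CfsgLib.MinIndexOrth

open QuadraticMap Module CfsgLib.ClassicalForms

variable {F : Type*} [Field F] [Finite F] {M : Type*} [AddCommGroup M] [Module F M]
  [FiniteDimensional F M] {Q : QuadraticForm F M}

/-- Transitivity on singular points in dimension at least three. -/
theorem point_transitive (hQ : Nondeg Q) (hd : 3 ≤ finrank F M) {a b : M} (ha : Q a = 0)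
    (hb : Q b = 0) (ha0 : a ≠ 0) (hb0 : b ≠ 0) :
    ∃ g ∈ siegelGroup Q, ∃ c : F, c ≠ 0 ∧ (g : M ≃ₗ[F] M) a = c • b := by
  by_cases hind : ∀ c : F, b ≠ c • a
  · by_cases hab : polar Q a b = 0
    · obtain ⟨z, hz, hQz, hza, hzb⟩ :=
        (Sec.top Q).exists_common hQ (Sec.mem_top a) (Sec.mem_top b) ha hab ha0 hind
      obtain ⟨h, e⟩ := siegel_sub_apply hQz ha hb hza hzb
      exact ⟨_, siegel_mem_siegelGroup hQz h, 1, one_ne_zero, by rw [e, one_smul]⟩
    · set β := polar Q a b with hβ
      have hp : IsHypPair Q (a, β⁻¹ • b) := ⟨ha, by simp [QuadraticMap.map_smul, hb],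
        by simp [polar_smul_right, ← hβ, hab]⟩
      obtain ⟨z, hz, hz0⟩ := exists_mem_ne_zero_value ((Sec.top Q).cut a (β⁻¹ • b)
        (Sec.mem_top _) (Sec.mem_top _) hp) hQ (by omega)
      obtain ⟨h1, h2, -⟩ := (Sec.mem_cut_iff _ _ _ hp z).1 hz
      have h2' : polar Q b z = 0 := by
        rw [polar_smul_left, smul_eq_mul] at h2
        exact (mul_eq_zero.1 h2).resolve_left (inv_ne_zero hab)
      set c := a + (-(Q z) / β) • b + z with hc
      have hQc : Q c = 0 := by
        simp [hc, QuadraticMap.map_add ⇑Q, QuadraticMap.map_smul, polar_add_left, polar_smul_left,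
          polar_smul_right, ha, hb, h1, h2', ← hβ, hab]
      have hca : polar Q c a = -Q z := by
        simp [hc, polar_add_left, polar_smul_left, ha, polar_comm Q b a, ← hβ,
          polar_comm Q z a, h1, hab]
      have hcb : polar Q c b = β := by
        simp [hc, polar_add_left, polar_smul_left, hb, ← hβ, polar_comm Q z b, h2']
      obtain ⟨h, e⟩ := siegel_sub_apply (u := c) (v := (-Q z)⁻¹ • a) (v' := β⁻¹ • b) hQc
        (by simp [QuadraticMap.map_smul, ha]) (by simp [QuadraticMap.map_smul, hb])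
        (by rw [polar_smul_right, hca, smul_eq_mul, inv_mul_cancel₀ (neg_ne_zero.2 hz0)])
        (by rw [polar_smul_right, hcb, smul_eq_mul, inv_mul_cancel₀ hab])
      refine ⟨_, siegel_mem_siegelGroup hQc h, -Q z * β⁻¹, mul_ne_zero (neg_ne_zero.2 hz0)
        (inv_ne_zero hab), ?_⟩
      rw [map_smul] at e
      have e2 := congrArg (fun t => (-Q z) • t) e
      simp only [smul_smul, mul_inv_cancel₀ (neg_ne_zero.2 hz0), one_smul] at e2
      exact e2
  · simp only [not_forall, not_not] at hind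
    obtain ⟨c, rfl⟩ := hind
    have hc : c ≠ 0 := fun h => hb0 (by rw [h, zero_smul])
    exact ⟨1, one_mem _, c⁻¹, inv_ne_zero hc, by
      rw [orth_one_apply, smul_smul, inv_mul_cancel₀ hc, one_smul]⟩

/-- The stabiliser of a singular vector moves a vector to all vectors with the same value and the
same non-zero product with it. -/
theorem translate {v w w' : M} (hv : Q v = 0) (hne : polar Q v w ≠ 0)
    (hb : polar Q v w' = polar Q v w) (hq : Q w' = Q w) :
    ∃ g ∈ siegelGroup Q, (g : M ≃ₗ[F] M) v = v ∧ (g : M ≃ₗ[F] M) w = w' := by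
  set β := polar Q v w with hβ
  have hy : polar Q v (β⁻¹ • (w' - w)) = 0 := by
    rw [polar_smul_right, polar_sub_right, hb, ← hβ, sub_self, smul_zero]
  refine ⟨_, siegel_mem_siegelGroup hv hy, ?_, ?_⟩
  · rw [siegel_apply, polar_self_mul, hv, hy]
    simp
  · rw [siegel_apply, polar_comm Q w v, ← hβ, smul_smul, mul_inv_cancel₀ hne, one_smul]
    have h0 : polar Q w (β⁻¹ • (w' - w)) + Q (β⁻¹ • (w' - w)) * β = 0 := by
      rw [polar_smul_right, QuadraticMap.map_smul, polar_sub_right, polar_self_mul, map_sub_eq, hq,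
        polar_comm Q w' w, smul_eq_mul, smul_eq_mul]
      field_simp
      ring
    rw [h0, zero_smul, sub_zero]
    abel

/-- Vectors with given value and given non-zero product with a singular vector. -/
theorem card_translate [Finite M] (hQ : Nondeg Q) {v : M} (hv : Q v = 0) (hv0 : v ≠ 0) {β : F}
    (hβ : β ≠ 0) (a : F) :
    Nat.card {w : M // polar Q v w = β ∧ Q w = a} = Nat.card F ^ (finrank F M - 2) := by
  obtain ⟨v', -, hp⟩ := (Sec.top Q).exists_partner hQ (Sec.mem_top v) hv hv0
  rw [← card_perp2 hp]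
  have key : ∀ z : perp2 Q v v', polar Q v (((a - Q (z : M)) / β) • v + β • v' + (z : M)) = β ∧
      Q (((a - Q (z : M)) / β) • v + β • v' + (z : M)) = a := fun z => by
    refine ⟨?_, ?_⟩
    · simp [polar_add_right, polar_smul_right, hv, hp.2.2, (mem_perp2.1 z.2).1]
    · rw [map_decomp hp _ _ z.2, div_mul_cancel₀ _ hβ]
      ring
  refine Nat.card_congr
    { toFun := fun w => proj2 hp (w : M)
      invFun := fun z => ⟨_, key z⟩
      left_inv := fun w => Subtype.ext ?_
      right_inv := fun z => ?_ }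
  · have hd := decomp2 hp (w : M)
    rw [w.2.1] at hd
    have h2 : Q (w : M) = polar Q v' (w : M) * β + Q (proj2 hp (w : M) : M) := by
      conv_lhs => rw [hd, map_decomp hp _ _ (proj2 hp (w : M)).2]
    rw [w.2.2] at h2
    have hs : (a - Q (proj2 hp (w : M) : M)) / β = polar Q v' (w : M) := by
      rw [div_eq_iff hβ]; linear_combination h2
    change ((a - Q (proj2 hp (w : M) : M)) / β) • v + β • v' + (proj2 hp (w : M) : M) = (w : M)
    rw [hs, ← hd]
  · change proj2 hp _ = z
    rw [map_add, map_add, map_smul, map_smul, proj2_coe hp z]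
    have e1 : proj2 hp v = 0 := by
      refine Subtype.ext ?_
      rw [coe_proj2, polar_comm Q v' v, hp.2.2, polar_self_mul, hp.1]
      simp
    have e2 : proj2 hp v' = 0 := by
      refine Subtype.ext ?_
      rw [coe_proj2, hp.2.2, polar_self_mul, hp.2.1]
      simp
    rw [e1, e2, smul_zero, smul_zero, zero_add, zero_add]

/-- The orbit of a vector under the Siegel group. -/
def orbit (Q : QuadraticForm F M) (z : M) : Set M :=
  {w | ∃ g ∈ siegelGroup Q, (g : M ≃ₗ[F] M) z = w}

/-- A lower bound for every orbit of a non-zero vector. -/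
theorem orbit_lower [Finite M] (hQ : Nondeg Q) (hd : 3 ≤ finrank F M) {z : M} (hz : z ≠ 0) :
    (Nat.card F - 1) / 2 * Nat.card F ^ (finrank F M - 2) ≤ Nat.card (orbit Q z) := by
  classical
  have := Fintype.ofFinite F
  have := Fintype.ofFinite M
  obtain ⟨e, -, he, hez⟩ :=
    (Sec.top Q).exists_singular_polar_one hQ (by omega) (Sec.mem_top z) hz
  have he0 : e ≠ 0 := fun h => by simp [h] at hez
  obtain ⟨f, -, hp⟩ := (Sec.top Q).exists_partner hQ (Sec.mem_top e) he he0
  obtain ⟨y0, hy0m, hy0⟩ := exists_mem_ne_zero_value ((Sec.top Q).cut e f (Sec.mem_top _)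
    (Sec.mem_top _) hp) hQ (by omega)
  obtain ⟨hey, hfy, -⟩ := (Sec.mem_cut_iff _ _ _ hp y0).1 hy0m
  have hey' : ∀ r : F, polar Q e (r • y0) = 0 := fun r => by rw [polar_smul_right, hey, smul_zero]
  let w1 : F → M := fun r => (siegel Q e (r • y0) he (hey' r) : M ≃ₗ[F] M) z
  let val : F → F := fun r => polar Q f (w1 r)
  have hval : ∀ r, val r = polar Q f z - (polar Q z y0 * r + Q y0 * r ^ 2) := fun r => by
    have hfe : polar Q f e = 1 := by rw [polar_comm]; exact hp.2.2
    simp only [val, w1, siegel_apply, polar_comm Q z e, hez, one_smul, polar_sub_right,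
      polar_add_right, polar_smul_right, hfy, hfe, QuadraticMap.map_smul, smul_eq_mul]
    ring
  set R := (Finset.univ.image val).erase 0 with hR
  have hcount : (Nat.card F - 1) / 2 ≤ R.card := by
    have h1 : (Finset.univ : Finset F).card ≤ 2 * (Finset.univ.image val).card := by
      refine Finset.card_le_mul_card_image _ _ fun b _ => ?_
      by_cases hne : ((Finset.univ : Finset F).filter fun r => val r = b).Nonempty
      · obtain ⟨r, hr⟩ := hne
        refine le_trans (Finset.card_le_card (fun s hs => ?_) :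
          _ ≤ ({r, -polar Q z y0 / Q y0 - r} : Finset F).card) Finset.card_le_two
        rw [Finset.mem_insert, Finset.mem_singleton]
        simp only [Finset.mem_filter, Finset.mem_univ, true_and] at hr hs
        rw [hval] at hr hs
        by_cases hsr : s = r
        · exact Or.inl hsr
        · right
          have h3 : (s - r) * (polar Q z y0 + Q y0 * (s + r)) = 0 := by
            linear_combination hr - hs
          have h4 := (mul_eq_zero.1 h3).resolve_left (sub_ne_zero.2 hsr)
          field_simp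
          linear_combination h4
      · rw [Finset.not_nonempty_iff_eq_empty.1 hne]
        simp
    have h2 := Finset.pred_card_le_card_erase (a := (0 : F)) (s := Finset.univ.image val)
    rw [Finset.card_univ, ← Nat.card_eq_fintype_card] at h1
    rw [hR]
    omega
  let T : Finset M := R.biUnion fun b => Finset.univ.filter fun w => polar Q f w = b ∧ Q w = Q z
  have hT : T.card = R.card * Nat.card F ^ (finrank F M - 2) := by
    rw [Finset.card_biUnion, Finset.sum_const_nat]
    · intro b hb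
      rw [← card_translate hQ hp.2.1 (hyp_comm hp).fst_ne_zero (Finset.ne_of_mem_erase hb) (Q z),
        Nat.card_eq_fintype_card, Fintype.card_subtype]
    · intro b _ b' _ hbb'
      rw [Function.onFun, Finset.disjoint_left]
      intro w hw hw'
      simp only [Finset.mem_filter, Finset.mem_univ, true_and] at hw hw'
      exact hbb' (hw.1.symm.trans hw'.1)
  have hsub : (T : Set M) ⊆ orbit Q z := by
    intro w hw
    simp only [T, Finset.coe_biUnion, Set.mem_iUnion, Finset.coe_filter, Finset.mem_univ, true_and,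
      Set.mem_ofPred_eq] at hw
    obtain ⟨b, hb, hwb, hwz⟩ := hw
    obtain ⟨r, -, hr⟩ := Finset.mem_image.1 (Finset.mem_of_mem_erase hb)
    have hb0 : b ≠ 0 := Finset.ne_of_mem_erase hb
    obtain ⟨g, hg, -, hg'⟩ := translate (v := f) (w := w1 r) (w' := w) hp.2.1
      (show val r ≠ 0 by rw [hr]; exact hb0) (show polar Q f w = val r by rw [hr]; exact hwb)
      (by rw [hwz]; exact (orth_apply _ z).symm)
    exact ⟨g * siegel Q e (r • y0) he (hey' r),
      mul_mem hg (siegel_mem_siegelGroup _ _), by rw [orth_mul_apply]; exact hg'⟩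
  calc _ ≤ R.card * Nat.card F ^ (finrank F M - 2) := Nat.mul_le_mul_right _ hcount
    _ = Nat.card (T : Set M) := by rw [← hT, Nat.card_coe_set_eq, Set.ncard_coe_finset]
    _ ≤ _ := Nat.card_mono (Set.toFinite _) hsub

/-- The orbit of a vector under the stabiliser of another one. -/
def stabOrbit (Q : QuadraticForm F M) (v w : M) : Set M :=
  {x | ∃ g ∈ siegelGroup Q, (g : M ≃ₗ[F] M) v = v ∧ (g : M ≃ₗ[F] M) w = x}

/-- Adding multiples of a singular vector. -/
theorem shear (hQ : Nondeg Q) {v v' : M} (hp : IsHypPair Q (v, v')) {z : M}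
    (hz : z ∈ perp2 Q v v') (hz0 : z ≠ 0) (a a' : F) :
    ∃ g ∈ siegelGroup Q, (g : M ≃ₗ[F] M) v = v ∧ (g : M ≃ₗ[F] M) (a • v + z) = a' • v + z := by
  obtain ⟨t, ht⟩ := (nondeg_q2 hQ hp).exists_polar_ne (u := (⟨z, hz⟩ : perp2 Q v v'))
    (fun h => hz0 (congrArg Subtype.val h))
  rw [polar_q2] at ht
  set β := polar Q z (t : M) with hβ
  obtain ⟨hvt, -⟩ := mem_perp2.1 t.2
  have hvy : polar Q v (((a - a') / β) • (t : M)) = 0 := by rw [polar_smul_right, hvt, smul_zero]
  have hzv : polar Q z v = 0 := by rw [polar_comm]; exact (mem_perp2.1 hz).1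
  have hvv : (siegel Q v _ hp.1 hvy : M ≃ₗ[F] M) v = v := by
    rw [siegel_apply, polar_self_mul, hp.1, hvy]
    simp
  refine ⟨_, siegel_mem_siegelGroup hp.1 hvy, hvv, ?_⟩
  rw [map_add, map_smul, hvv, siegel_apply, hzv, polar_smul_right, ← hβ]
  simp only [zero_smul, add_zero, mul_zero, smul_eq_mul, div_mul_cancel₀ _ ht]
  module

/-- Lower bound for the orbit of an orthogonal, independent vector under a stabiliser. -/
theorem stabOrbit_lower [Finite M] (hQ : Nondeg Q) (hd : 5 ≤ finrank F M) {v w : M} (hv : Q v = 0)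
    (hv0 : v ≠ 0) (hvw : polar Q v w = 0) (hind : ∀ c : F, w ≠ c • v) :
    Nat.card F * ((Nat.card F - 1) / 2 * Nat.card F ^ (finrank F M - 4))
      ≤ Nat.card (stabOrbit Q v w) := by
  obtain ⟨v', -, hp⟩ := (Sec.top Q).exists_partner hQ (Sec.mem_top v) hv hv0
  have hr := finrank_perp2 hp
  set z := proj2 hp w with hzdef
  have hw : w = polar Q v' w • v + (z : M) := by
    conv_lhs => rw [decomp2 hp w, hvw, zero_smul, add_zero]
  have hz : z ≠ 0 := fun h => hind (polar Q v' w) (by rw [h] at hw; simpa using hw)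
  have h1 := orbit_lower (nondeg_q2 hQ hp) (by omega) hz
  rw [show finrank F (perp2 Q v v') - 2 = finrank F M - 4 by omega] at h1
  refine (Nat.mul_le_mul_left _ h1).trans ?_
  rw [← Nat.card_prod]
  have hmem : ∀ x : F × orbit (q2 Q v v') z,
      x.1 • v + ((x.2 : perp2 Q v v') : M) ∈ stabOrbit Q v w := by
    rintro ⟨a, x, g, hg, hgx⟩
    have hx0 : (x : M) ≠ 0 := by
      rw [← hgx]
      exact fun h => hz ((LinearEquiv.map_eq_zero_iff _).1 (Subtype.ext h))
    obtain ⟨g2, hg2, hg2v, hg2w⟩ := shear hQ hp x.2 hx0 (polar Q v' w) a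
    refine ⟨g2 * extHom hp g, mul_mem hg2 (extHom_mem hp hg), ?_, ?_⟩
    · rw [orth_mul_apply, extHom_fst, hg2v]
    · rw [orth_mul_apply]
      conv_lhs => rw [hw, map_add, map_smul, extHom_fst, extHom_coe, hgx]
      exact hg2w
  refine Nat.card_le_card_of_injective (fun x => (⟨_, hmem x⟩ : stabOrbit Q v w)) ?_
  rintro ⟨a, x⟩ ⟨a', x'⟩ h
  have h2 : a • v + ((x : perp2 Q v v') : M) = a' • v + ((x' : perp2 Q v v') : M) :=
    congrArg Subtype.val h
  have h3 := congrArg (proj2 hp) h2
  have h4 := congrArg (fun t => polar Q v' t) h2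
  have e1 : proj2 hp v = 0 := by
    refine Subtype.ext ?_
    rw [coe_proj2, polar_comm Q v' v, hp.2.2, polar_self_mul, hp.1]
    simp
  simp only [map_add, map_smul, e1, smul_zero, zero_add, proj2_coe] at h3
  have hv'v : polar Q v' v = 1 := by rw [polar_comm]; exact hp.2.2
  simp only [polar_add_right, polar_smul_right, hv'v, (mem_perp2.1 (x : perp2 Q v v').2).2,
    (mem_perp2.1 (x' : perp2 Q v v').2).2, smul_eq_mul, mul_one, add_zero] at h4
  exact Prod.ext h4 (Subtype.ext h3)

/-- Transitivity on orthogonal independent singular pairs up to a scalar. -/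
theorem singularPair_transitive (hQ : Nondeg Q) (hd : 5 ≤ finrank F M) {v w v₁ w₁ : M}
    (hv : Q v = 0) (hw : Q w = 0) (hvw : polar Q v w = 0) (hv0 : v ≠ 0)
    (hind : ∀ c : F, w ≠ c • v)
    (hv₁ : Q v₁ = 0) (hw₁ : Q w₁ = 0) (hvw₁ : polar Q v₁ w₁ = 0) (hv₁0 : v₁ ≠ 0)
    (hind₁ : ∀ c : F, w₁ ≠ c • v₁) :
    ∃ g ∈ siegelGroup Q, ∃ c : F, c ≠ 0 ∧ (g : M ≃ₗ[F] M) v = v₁ ∧
      (g : M ≃ₗ[F] M) w = c • w₁ := by
  obtain ⟨g1, hg1, eg1⟩ := (Sec.top Q).transitive_singular hQ (by omega) (Sec.mem_top v)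
    (Sec.mem_top v₁) hv hv₁ hv0 hv₁0
  obtain ⟨v', -, hp⟩ := (Sec.top Q).exists_partner hQ (Sec.mem_top v₁) hv₁ hv₁0
  have hr := finrank_perp2 hp
  set w2 := (g1 : M ≃ₗ[F] M) w with hw2
  have h1 : polar Q v₁ w2 = 0 := by rw [hw2, ← eg1, polar_apply, hvw]
  have h2 : Q w2 = 0 := by rw [hw2, orth_apply, hw]
  have d2 : w2 = polar Q v' w2 • v₁ + (proj2 hp w2 : M) := by
    conv_lhs => rw [decomp2 hp w2, h1, zero_smul, add_zero]
  have d1 : w₁ = polar Q v' w₁ • v₁ + (proj2 hp w₁ : M) := by
    conv_lhs => rw [decomp2 hp w₁, hvw₁, zero_smul, add_zero]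
  have hz2 : proj2 hp w2 ≠ 0 := fun h => hind (polar Q v' w2) ((g1 : M ≃ₗ[F] M).injective (by
    rw [map_smul, eg1]; rw [h] at d2; simpa [← hw2] using d2))
  have hz1 : proj2 hp w₁ ≠ 0 := fun h => hind₁ (polar Q v' w₁) (by rw [h] at d1; simpa using d1)
  have q2' : q2 Q v₁ v' (proj2 hp w2) = 0 := by
    have := map_decomp hp (polar Q v' w2) 0 (proj2 hp w2).2
    rw [zero_smul, add_zero, ← d2, h2, mul_zero, zero_add] at this
    exact this.symm
  have q1' : q2 Q v₁ v' (proj2 hp w₁) = 0 := by
    have := map_decomp hp (polar Q v' w₁) 0 (proj2 hp w₁).2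
    rw [zero_smul, add_zero, ← d1, hw₁, mul_zero, zero_add] at this
    exact this.symm
  obtain ⟨g, hg, c, hc, eg⟩ := point_transitive (nondeg_q2 hQ hp) (by omega) q2' q1' hz2 hz1
  obtain ⟨g3, hg3, eg3v, eg3w⟩ := shear hQ hp (z := c • (proj2 hp w₁ : M))
    ((perp2 Q v₁ v').smul_mem c (proj2 hp w₁).2)
    (smul_ne_zero hc fun h => hz1 (Subtype.ext h)) (polar Q v' w2) (c * polar Q v' w₁)
  refine ⟨g3 * extHom hp g * g1, mul_mem (mul_mem hg3 (extHom_mem hp hg)) hg1.1, c, hc, ?_, ?_⟩
  · rw [orth_mul_apply, eg1, orth_mul_apply, extHom_fst, eg3v]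
  · rw [orth_mul_apply, ← hw2, orth_mul_apply]
    conv_lhs => rw [d2, map_add, map_smul, extHom_fst, extHom_coe, eg, Submodule.coe_smul]
    rw [eg3w]
    conv_rhs => rw [d1, smul_add, smul_smul]

/-- Removing one point. -/
lemma card_punctured {α : Type*} [Finite α] (p : α → Prop) {x₀ : α} (h : p x₀) :
    Nat.card {x // p x ∧ x ≠ x₀} + 1 = Nat.card {x // p x} :=
  Set.ncard_sdiff_singleton_add_one (s := {x | p x}) (a := x₀) h (Set.toFinite _)

/-- The pairs of orthogonal independent singular vectors. -/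
def singularPairs (Q : QuadraticForm F M) : Set (M × M) :=
  {p | Q p.1 = 0 ∧ Q p.2 = 0 ∧ polar Q p.1 p.2 = 0 ∧ p.1 ≠ 0 ∧ ∀ c : F, p.2 ≠ c • p.1}

/-- Their number, from below. -/
theorem singularPairs_lower [Finite M] (hQ : Nondeg Q) (m : ℕ)
    (hm : ∀ v v' : M, IsHypPair Q (v, v') → m + 1 ≤ vc (q2 Q v v') 0) :
    (vc Q 0 - 1) * (Nat.card F * m) ≤ Nat.card (singularPairs Q) := by
  classical
  have := Fintype.ofFinite M
  choose pr _ hpr using fun v : {v : M // Q v = 0 ∧ v ≠ 0} =>
    (Sec.top Q).exists_partner hQ (Sec.mem_top (v : M)) v.2.1 v.2.2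
  let Z := fun v : {v : M // Q v = 0 ∧ v ≠ 0} =>
    {z : perp2 Q (v : M) (pr v) // q2 Q (v : M) (pr v) z = 0 ∧ z ≠ 0}
  have hcard : ∀ v, m ≤ Nat.card (Z v) := fun v => by
    have h1 := hm (v : M) (pr v) (hpr v)
    have h2 : Nat.card (Z v) + 1 = vc (q2 Q (v : M) (pr v)) 0 :=
      card_punctured (fun z => q2 Q (v : M) (pr v) z = 0) (QuadraticMap.map_zero _)
    omega
  have hbase : Nat.card {v : M // Q v = 0 ∧ v ≠ 0} + 1 = vc Q 0 :=
    card_punctured (fun v => Q v = 0) (QuadraticMap.map_zero Q)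
  have hmem : ∀ x : Σ v, F × Z v,
      ((x.1 : M), x.2.1 • (x.1 : M) + ((x.2.2.1 : perp2 Q (x.1 : M) (pr x.1)) : M))
        ∈ singularPairs Q := by
    rintro ⟨v, a, z, hz, hz0⟩
    obtain ⟨g1, g2⟩ := mem_perp2.1 z.2
    refine ⟨v.2.1, ?_, ?_, v.2.2, fun c hc => hz0 ?_⟩
    · have := map_decomp (hpr v) a 0 z.2
      rw [zero_smul, add_zero, mul_zero, zero_add] at this
      exact this.trans hz
    · simp [polar_add_right, polar_smul_right, v.2.1, g1]
    · have h3 := congrArg (proj2 (hpr v)) hc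
      have e1 : proj2 (hpr v) (v : M) = 0 := by
        refine Subtype.ext ?_
        rw [coe_proj2, polar_comm Q (pr v) (v : M), (hpr v).2.2, polar_self_mul, v.2.1]
        simp
      simpa only [map_add, map_smul, e1, smul_zero, zero_add, proj2_coe] using h3
  calc (vc Q 0 - 1) * (Nat.card F * m)
      ≤ ∑ v : {v : M // Q v = 0 ∧ v ≠ 0}, Nat.card (F × Z v) := by
        rw [show vc Q 0 - 1 = Fintype.card {v : M // Q v = 0 ∧ v ≠ 0} by
          rw [← Nat.card_eq_fintype_card]; omega, ← Finset.card_univ, ← smul_eq_mul,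
          ← Finset.sum_const]
        exact Finset.sum_le_sum fun v _ => by
          rw [Nat.card_prod]; exact Nat.mul_le_mul_left _ (hcard v)
    _ = Nat.card (Σ v, F × Z v) := Nat.card_sigma.symm
    _ ≤ _ := Nat.card_le_card_of_injective (fun x => (⟨_, hmem x⟩ : singularPairs Q)) (by
      rintro ⟨v, a, z⟩ ⟨v', a', z'⟩ h
      have h1 := congrArg (fun p : singularPairs Q => (p : M × M)) h
      simp only [Prod.mk.injEq] at h1
      obtain ⟨h1, h2⟩ := h1
      obtain rfl : v = v' := Subtype.ext h1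
      have h3 := congrArg (proj2 (hpr v)) h2
      have h4 := congrArg (fun t => polar Q (pr v) t) h2
      have e1 : proj2 (hpr v) (v : M) = 0 := by
        refine Subtype.ext ?_
        rw [coe_proj2, polar_comm Q (pr v) (v : M), (hpr v).2.2, polar_self_mul, v.2.1]
        simp
      simp only [map_add, map_smul, e1, smul_zero, zero_add, proj2_coe] at h3
      have hv'v : polar Q (pr v) (v : M) = 1 := by rw [polar_comm]; exact (hpr v).2.2
      simp only [polar_add_right, polar_smul_right, hv'v, (mem_perp2.1 z.1.2).2,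
        (mem_perp2.1 z'.1.2).2, smul_eq_mul, mul_one, add_zero] at h4
      subst h4
      obtain rfl : z = z' := Subtype.ext h3
      rfl)

end CfsgLib.MinIndexOrth
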